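import Mathlib
import Cfsg.Agent.Base
import Cfsg.Agent.Lib.LocEven.K3

/-!
Definitions for the amalgam part and for the final transfer part of S1832 / S1833 (see `blueprint/QZ`).
-/

set_option autoImplicit false
set_option linter.unusedSectionVars false
set_option linter.unusedVariables false

namespace H16Q

open Subgroup H69 H70 Cfsg MulAction
open scoped commutatorElement Pointwise

variable {G : Type*} [Group G]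

/-- at most two members. -/
def Two (C : Set (Subgroup G)) : Prop := ∀ A ∈ C, ∀ B ∈ C, ∀ D ∈ C, A = B ∨ A = D ∨ B = D

/-- distinct members meet trivially. -/
def Disj (C : Set (Subgroup G)) : Prop := ∀ A ∈ C, ∀ B ∈ C, A ≠ B → A ⊓ B = ⊥

/-- `g` permutes the members. -/
def Pm (C : Set (Subgroup G)) (g : G) : Prop := ∀ N ∈ C, N ^ᶜ g ∈ C

/-- `N` is a four-group. -/
structure Four (N : Subgroup G) : Prop where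
  card : Nat.card N = 4
  ea : IsElementaryAbelian 2 N

/-- `x` normalizes `N` and fixes no nonidentity element. -/
structure Fpf (N : Subgroup G) (x : G) : Prop where
  norm : x ∈ 𝐍(N)
  fix : ∀ n ∈ N, x * n * x⁻¹ = n → n = 1

/-- `a` normalizes `N`, fixes `z ∈ N`, `z ≠ 1`, and does not centralize `N`. -/
structure Trv (N : Subgroup G) (a z : G) : Prop where
  norm : a ∈ 𝐍(N)
  nc : a ∉ 𝐂(N)
  mem : z ∈ N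
  ne : z ≠ 1
  fix : a * z * a⁻¹ = z

/-- the abstract coset geometry. -/
structure Geo (G V : Type*) [Group G] [MulAction G V] where
  adj : V → V → Prop
  X : V → Subgroup G
  Q : V → Subgroup G
  Cm : V → Set (Subgroup G)
  symm : ∀ {v w : V}, adj v w → adj w v
  adj_smul : ∀ (g : G) {v w : V}, adj v w → adj (g • v) (g • w)
  X_smul : ∀ (g : G) (v : V), X (g • v) = X v ^ᶜ g
  Q_smul : ∀ (g : G) (v : V), Q (g • v) = Q v ^ᶜ g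
  Cm_smul : ∀ (g : G) {v : V} {N : Subgroup G}, N ∈ Cm v → N ^ᶜ g ∈ Cm (g • v)
  ex : ∃ v w, adj v w
  etr : ∀ {v w v' w' : V}, adj v w → adj v' w' →
    ∃ g : G, (g • v = v' ∧ g • w = w') ∨ (g • v = w' ∧ g • w = v')
  X_le : ∀ v, X v ≤ stabilizer G v
  Q_le : ∀ v, Q v ≤ stabilizer G v
  Q_le' : ∀ {v w : V}, adj v w → Q v ≤ stabilizer G w
  Q_p : ∀ v, IsPGroup 2 (Q v)
  four : ∀ {v : V} {N : Subgroup G}, N ∈ Cm v → Four N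
  leQ : ∀ {v : V} {N : Subgroup G}, N ∈ Cm v → N ≤ Q v
  Qc : ∀ {v : V} {N : Subgroup G}, N ∈ Cm v → Q v ≤ 𝐂(N)
  ne : ∀ v, (Cm v).Nonempty
  two : ∀ v, Two (Cm v)
  disj : ∀ v, Disj (Cm v)
  Xn : ∀ {v : V} {N : Subgroup G}, N ∈ Cm v → X v ≤ 𝐍(N)
  even : ∀ {v : V} {N : Subgroup G} {x : G}, N ∈ Cm v → x ∈ X v → x ∉ 𝐂(N) → Fpf N x
  full : ∀ {v : V} {N : Subgroup G}, N ∈ Cm v → ∃ x ∈ X v, x ∉ 𝐂(N) ∧ ∀ M ∈ Cm v, M ≠ N → x ∈ 𝐂(M)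
  syl : ∀ (v : V) (A : Subgroup G), A ≤ stabilizer G v → IsPGroup 2 A → (∀ N ∈ Cm v, A ≤ 𝐂(N)) → A ≤ Q v
  xtr : ∀ {v w w' : V}, adj v w → adj v w' → ∃ x ∈ X v, x • w = w'
  ctr : ∀ {v w : V} {N M : Subgroup G}, adj v w → N ∈ Cm v → M ∈ Cm v →
    ∃ s ∈ stabilizer G v ⊓ stabilizer G w, N ^ᶜ s = M
  K : ∀ {v w : V} {c : G}, adj v w → c ∈ X v → (∀ N ∈ Cm v, c ∈ 𝐂(N)) → ∀ M ∈ Cm w, c ∈ 𝐍(M)
  On : ∀ {v w : V} {N : Subgroup G}, adj v w → N ∈ Cm v → Q w ⊓ X w ≤ 𝐍(N)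
  S : ∀ {v w : V}, adj v w → ¬ Q w ⊓ X w ≤ Q v
  s2 : ∀ v, Q v ⊓ X v ≤ ⁅Q v, X v⁆
  gen : ∀ (v : V) (L : Subgroup G), L ≤ stabilizer G v → stabilizer G v ≤ 𝐍(L) →
    X v ≤ L ∨ ∀ N ∈ Cm v, L ≤ 𝐂(N)
  core : ∀ {v w : V} (U : Subgroup G), adj v w → U ≤ Q v → stabilizer G v ≤ 𝐍(U) → stabilizer G w ≤ 𝐍(U) →
    U = ⊥

namespace Geo

variable {V : Type*} [MulAction G V] (Γ : Geo G V)

/-- the product of the components at `v`. -/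
def E (v : V) : Subgroup G := sSup (Γ.Cm v)

/-- `z` is the centre of the component `N` of `v` at the edge `(v, w)`. -/
structure Cen (v w : V) (N : Subgroup G) (z : G) : Prop where
  adj : Γ.adj v w
  cm : N ∈ Γ.Cm v
  mem : z ∈ N
  ne : z ≠ 1
  cent : Γ.Q w ⊓ Γ.X w ≤ 𝐂(zpowers z)

/-- `δ 0, …, δ n` is a walk. -/
def Path (n : ℕ) (δ : ℕ → V) : Prop := ∀ i < n, Γ.adj (δ i) (δ (i + 1))

def Far (n : ℕ) : Prop := ∀ δ : ℕ → V, Γ.Path n δ → Γ.E (δ 0) ≤ Γ.Q (δ n)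

/-- no critical walk of length less than `b`. -/
def Below (b : ℕ) : Prop := ∀ m < b, Γ.Far m

/-- a critical walk with a matched pair of components `N`, `N'` at its ends. -/
structure Mat (b : ℕ) (δ : ℕ → V) (N N' : Subgroup G) (z : G) : Prop where
  pos : 1 ≤ b
  bel : Γ.Below b
  path : Γ.Path b δ
  c0 : Γ.Cen (δ 0) (δ 1) N z
  c1 : Γ.Cen (δ b) (δ (b - 1)) N' z
  nc : ¬ N ≤ 𝐂(N')
  n0 : ∀ M ∈ Γ.Cm (δ 0), Γ.E (δ b) ≤ 𝐍(M)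
  n1 : ∀ M ∈ Γ.Cm (δ b), Γ.E (δ 0) ≤ 𝐍(M)
  o0 : ∀ M ∈ Γ.Cm (δ 0), M ≠ N → N' ≤ 𝐂(M)
  o1 : ∀ M ∈ Γ.Cm (δ b), M ≠ N' → N ≤ 𝐂(M)
  inf : N ⊓ N' = zpowers z

/-- `X v` centralizes the centres of the components of the neighbours of `v`. -/
def CX (v : V) : Prop := ∀ w M m, Γ.Cen w v M m → Γ.X v ≤ 𝐂(zpowers m)

/-- some element of `X v` moving `N` and centralizing the other components normalizes `M E(v)`. -/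
def Cov (v : V) (N M : Subgroup G) : Prop :=
  ∃ c ∈ Γ.X v, c ∈ 𝐍(M ⊔ Γ.E v) ∧ c ∉ 𝐂(N) ∧ ∀ N' ∈ Γ.Cm v, N' ≠ N → c ∈ 𝐂(N')

end Geo

/-- the walk `x • δ 1, δ 0, δ 1, …`. -/
def shift {V : Type*} [MulAction G V] (x : G) (δ : ℕ → V) : ℕ → V
  | 0 => x • δ 1
  | i + 1 => δ i

@[simp] theorem shift_zero {V : Type*} [MulAction G V] (x : G) (δ : ℕ → V) : shift x δ 0 = x • δ 1 := rfl

@[simp] theorem shift_succ {V : Type*} [MulAction G V] (x : G) (δ : ℕ → V) (i : ℕ) :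
    shift x δ (i + 1) = δ i := rfl

/-- `N N'` is dihedral of order eight with centre `⟨z⟩`. -/
structure D8 (N N' : Subgroup G) (z : G) : Prop where
  f : Four N
  f' : Four N'
  n : N ≤ 𝐍(N')
  n' : N' ≤ 𝐍(N)
  nc : ¬ N ≤ 𝐂(N')
  inf : N ⊓ N' = zpowers z
  z1 : z ≠ 1

/-- the final configuration with one component on each side. -/
structure Fin1 (T N N' Y : Subgroup G) (z : G) : Prop where
  syl : IsSylowIn 2 T ⊤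
  d : D8 N N' z
  T_eq : T = N ⊔ N' ⊔ Y
  Yc : Y ≤ 𝐂(T)
  cardY : Nat.card Y ≤ 2
  inf : (N ⊔ N') ⊓ Y = ⊥
  ct : 𝐂(𝐙(T)) = T
  fus : ∀ a ∈ zpowers z ⊔ Y, ∀ b ∈ zpowers z ⊔ Y, IsConj a b → ∃ t ∈ T, t * a * t⁻¹ = b
  inv : ∀ d ∈ N ⊔ N', d * d = 1 → ∃ r ∈ zpowers z, IsConj d r

/-- the final configuration with two components on each side. -/
structure Fin2 (T N N' M M' Y : Subgroup G) (z w : G) : Prop where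
  syl : IsSylowIn 2 T ⊤
  d1 : D8 N N' z
  d2 : D8 M M' w
  cm : N ⊔ N' ≤ 𝐂(M ⊔ M')
  zw : z ≠ w
  le : N ⊔ N' ⊔ (M ⊔ M') ⊔ Y ≤ T
  Yc : Y ≤ 𝐂(N ⊔ N' ⊔ (M ⊔ M'))
  Yea : IsElementaryAbelian 2 Y
  tY : T ≤ 𝐍(Y)
  inf : (N ⊔ N' ⊔ (M ⊔ M')) ⊓ Y = ⊥
  cardY : Nat.card Y = 1 ∨ Nat.card Y = 2 ∨ (Nat.card Y = 4 ∧ ¬ T ≤ 𝐂(Y))
  idx : Le2 (N ⊔ N' ⊔ (M ⊔ M') ⊔ Y) T
  nle : ¬ T ≤ N ⊔ N' ⊔ (M ⊔ M') ⊔ Y
  sw : ∀ s ∈ T, s ∉ N ⊔ N' ⊔ (M ⊔ M') ⊔ Y → N ^ᶜ s = M ∧ N' ^ᶜ s = M' ∧ M ^ᶜ s = N ∧ M' ^ᶜ s = N'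
  ct : 𝐂(𝐙(T)) = T
  fus : ∀ a ∈ zpowers z ⊔ zpowers w ⊔ Y, ∀ b ∈ zpowers z ⊔ zpowers w ⊔ Y, IsConj a b →
    ∃ t ∈ T, t * a * t⁻¹ = b
  inv : ∀ d ∈ N ⊔ N' ⊔ (M ⊔ M'), ∀ y ∈ Y, d * y * (d * y) = 1 →
    ∃ r ∈ zpowers z ⊔ zpowers w, IsConj (d * y) (r * y)
  c3 : ∀ s ∈ T, s ∉ N ⊔ N' ⊔ (M ⊔ M') ⊔ Y → s * s = 1 → ∃ f : G, orderOf f = 3 ∧ Commute f s

end H16Q
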