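import Mathlib
import Cfsg.Agent.Base
import Cfsg.Agent.Lib.NGrp.Baum
import Cfsg.Agent.Lib.QZ.GDefs

/-!
Definitions for the reduction part of S1832 / S1833 (see `blueprint/QZ`).
-/

set_option autoImplicit false
set_option linter.unusedSectionVars false
set_option linter.unusedVariables false

namespace H16Q

open Subgroup H69 H70 Cfsg
open scoped commutatorElement Pointwise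

variable {G : Type*} [Group G]

/-- the local hypotheses on the overgroups of the Sylow 2-subgroup `T`. -/
structure QS (T : Subgroup G) : Prop where
  syl : IsSylowIn 2 T ⊤
  solv : ∀ H : Subgroup G, T ≤ H → 𝐎(H) ≠ ⊥ → Group.IsSolvable H
  chr : ∀ H : Subgroup G, T ≤ H → 𝐎(H) ≠ ⊥ → CharP 2 H
  rk : ∀ H : Subgroup G, 𝐎(H) ≠ ⊥ → PRankLE 3 2 H
  q23 : ∀ M H R : Subgroup G, T ≤ M → T ≤ H → 𝐎(M) ≠ ⊥ → 𝐎(H) ≠ ⊥ →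
    (∃! K : Subgroup H, IsCoatom K ∧ T.subgroupOf H ≤ K) → R ≠ ⊥ → R ≤ T →
    IsSylowIn 2 R (oddGenerated H ⊔ R) → M ≤ 𝐍(R) → ∃ R₀ : Subgroup G, R₀ ≠ ⊥ ∧ R₀ ≤ R ∧ M ⊔ H ≤ 𝐍(R₀)

/-- the set `C` of the four-groups `[V, Y_t]`, `t` a transvection on `V = Y_H`. -/
structure Cmp (H T : Subgroup G) (C : Set (Subgroup G)) : Prop where
  le : ∀ N ∈ C, N ≤ 𝐘(2, H)
  four : ∀ N ∈ C, Four N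
  two : Two C
  disj : Disj C
  perm : ∀ h ∈ H, Pm C h
  Bn : ∀ N ∈ C, 𝐁(T) ≤ 𝐍(N)
  tv : ∀ U : Subgroup G, U ≤ 𝐘(2, H) → ¬ 𝐉(T) ≤ 𝐂(U) →
    ∃ t ∈ 𝐉(T), t ∉ 𝐂(U) ∧ ∃ W ∈ C, ⁅𝐘(2, H), zpowers t⁆ ≤ W ∧ t ∉ 𝐂(W)
  kc : ∀ S ⊆ C, ∀ h ∈ H, ⁅𝐘(2, H), zpowers h⁆ ≤ sSup S → h ∈ 𝐂(sSup S) → h ∈ 𝐂(𝐘(2, H))
  k3 : ∀ W ∈ C, ∃ x ∈ H, ⁅𝐘(2, H), zpowers x⁆ ≤ W ∧ Fpf W x

/-- `Q = C_T(E)`, `E` the product of the components. -/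
abbrev Qc (T : Subgroup G) (C : Set (Subgroup G)) : Subgroup G := T ⊓ 𝐂(sSup C)

/-- `Y = C_Q(X)`. -/
abbrev Yc (T X : Subgroup G) (C : Set (Subgroup G)) : Subgroup G := Qc T C ⊓ 𝐂(X)

/-- the minimal parabolic `P = X T` with its components `C`. -/
structure Par0 (T X : Subgroup G) (C : Set (Subgroup G)) : Prop where
  tX : T ≤ 𝐍(X)
  og : oddGenerated (X ⊔ T) = X
  four : ∀ N ∈ C, Four N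
  leQ : ∀ N ∈ C, N ≤ Qc T C
  ne : C.Nonempty
  two : Two C
  disj : Disj C
  tperm : ∀ t ∈ T, Pm C t
  ttr : ∀ A ∈ C, ∀ B ∈ C, ∃ t ∈ T, A ^ᶜ t = B
  Xn : ∀ N ∈ C, X ≤ 𝐍(N)
  even : ∀ N ∈ C, ∀ x ∈ X, x ∉ 𝐂(N) → Fpf N x
  full : ∀ N ∈ C, ∃ x ∈ X, x ∉ 𝐂(N) ∧ ∀ M ∈ C, M ≠ N → x ∈ 𝐂(M)
  mx : ∀ K : Subgroup G, T ≤ K → K ≤ X ⊔ T → K = X ⊔ T ∨ K ≤ T ⊔ (X ⊔ T) ⊓ 𝐂(sSup C)
  cz : X ⊓ 𝐂(sSup C) ≤ 𝐂(𝐙(T))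
  Bn : ∀ N ∈ C, 𝐁(T) ≤ 𝐍(N)
  Jc : ¬ 𝐉(T) ≤ 𝐂(sSup C)

structure Par1 (T X : Subgroup G) (C : Set (Subgroup G)) : Prop extends Par0 T X C where
  XQ : X ≤ 𝐍(Qc T C)
  tQ : T ≤ 𝐍(Qc T C)
  gen : ∀ L : Subgroup G, L ≤ X ⊔ T → X ⊔ T ≤ 𝐍(L) → X ≤ L ∨ L ≤ 𝐂(sSup C)
  uq : ∃! K : Subgroup (X ⊔ T : Subgroup G), IsCoatom K ∧ T.subgroupOf (X ⊔ T) ≤ K
  syl : ∀ A : Subgroup G, A ≤ X ⊔ T → IsPGroup 2 A → A ≤ 𝐂(sSup C) → A ≤ Qc T C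
  OP : 𝐎(X ⊔ T) = Qc T C
  cQ : 𝐂(Qc T C) ≤ Qc T C
  EX : sSup C ≤ X
  ne_bot : sSup C ≠ ⊥

structure Par (T X : Subgroup G) (C : Set (Subgroup G)) : Prop extends Par1 T X C where
  TXQ : T ⊓ X ≤ Qc T C
  s2 : T ⊓ X ≤ ⁅Qc T C, X⁆
  zeta : ∃ ζ ∈ 𝐙(T), sSup C ≤ ncl (zpowers ζ) X
  XB : T ⊓ X ≤ 𝐁(T)

/-- two parabolics without a common normal 2-subgroup. -/
structure Pair (T X₁ X₂ : Subgroup G) (C₁ C₂ : Set (Subgroup G)) : Prop where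
  qs : QS T
  p1 : Par T X₁ C₁
  p2 : Par T X₂ C₂
  core : ∀ U : Subgroup G, IsPGroup 2 U → X₁ ⊔ T ≤ 𝐍(U) → X₂ ⊔ T ≤ 𝐍(U) → U = ⊥
  c1 : ∀ c ∈ 𝐂(𝐙(T)), Pm C₁ c
  c2 : ∀ c ∈ 𝐂(𝐙(T)), Pm C₂ c

theorem Pair.symm {T X₁ X₂ : Subgroup G} {C₁ C₂ : Set (Subgroup G)} (h : Pair T X₁ X₂ C₁ C₂) :
    Pair T X₂ X₁ C₂ C₁ :=
  ⟨h.qs, h.p2, h.p1, fun U a b c => h.core U a c b, h.c2, h.c1⟩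

/-- `N ∈ C₁` and `N' ∈ C₂` are matched. -/
structure Mt (C₁ C₂ : Set (Subgroup G)) (N N' : Subgroup G) (z : G) : Prop where
  m : N ∈ C₁
  m' : N' ∈ C₂
  d : D8 N N' z
  o : ∀ M ∈ C₁, M ≠ N → N' ≤ 𝐂(M)
  o' : ∀ M ∈ C₂, M ≠ N' → N ≤ 𝐂(M)

theorem D8.symm {N N' : Subgroup G} {z : G} (h : D8 N N' z) : D8 N' N z :=
  ⟨h.f', h.f, h.n', h.n, fun e => h.nc (le_centralizer_iff.1 e), by rw [inf_comm, h.inf], h.z1⟩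

theorem Mt.symm {C₁ C₂ : Set (Subgroup G)} {N N' : Subgroup G} {z : G} (h : Mt C₁ C₂ N N' z) :
    Mt C₂ C₁ N' N z :=
  ⟨h.m', h.m, h.d.symm, h.o', h.o⟩

/-- critical distance one. -/
structure One (T X₁ X₂ : Subgroup G) (C₁ C₂ : Set (Subgroup G)) : Prop extends Pair T X₁ X₂ C₁ C₂ where
  m1 : ∀ N ∈ C₁, ∃ N' z, Mt C₁ C₂ N N' z
  m2 : ∀ N' ∈ C₂, ∃ N z, Mt C₁ C₂ N N' z

theorem One.symm {T X₁ X₂ : Subgroup G} {C₁ C₂ : Set (Subgroup G)} (h : One T X₁ X₂ C₁ C₂) :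
    One T X₂ X₁ C₂ C₁ :=
  ⟨h.toPair.symm, fun N hN => let ⟨M, z, e⟩ := h.m2 N hN; ⟨M, z, e.symm⟩,
    fun N hN => let ⟨M, z, e⟩ := h.m1 N hN; ⟨M, z, e.symm⟩⟩

/-- the structure of the first parabolic when the critical distance is one. -/
structure Side (T X₁ X₂ : Subgroup G) (C₁ C₂ : Set (Subgroup G)) : Prop where
  ea : IsElementaryAbelian 2 (Qc T C₁)
  QE : Qc T C₁ = sSup C₁ ⊔ Yc T X₁ C₁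
  EY : sSup C₁ ⊓ Yc T X₁ C₁ = ⊥
  YI : Yc T X₁ C₁ ≤ Qc T C₂
  IR : Qc T C₁ ⊓ Qc T C₂ = (sSup C₁ ⊓ sSup C₂) ⊔ Yc T X₁ C₁
  YY : Yc T X₁ C₁ ⊓ Yc T X₂ C₂ = ⊥
  B0 : 𝐁(T) = sSup C₁ ⊔ sSup C₂ ⊔ Yc T X₁ C₁
  Bt : ∀ t ∈ T, ∀ N ∈ C₁, t ∈ 𝐍(N) → t ∈ 𝐁(T)
  TX : T ⊓ X₁ = sSup C₁
  cX : X₁ ⊓ 𝐂(sSup C₁) ≤ sSup C₁
  cm : ⁅Qc T C₁, X₁⁆ ≤ sSup C₁
  tY : T ≤ 𝐍(Yc T X₁ C₁)
  DY : (sSup C₁ ⊔ sSup C₂) ⊓ Yc T X₁ C₁ = ⊥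
  cardR : Nat.card (sSup C₁ ⊓ sSup C₂ : Subgroup G) ≤ 4
  cardY : Nat.card (Yc T X₁ C₁) ≤ Nat.card (sSup C₁ ⊓ sSup C₂ : Subgroup G)

structure Str (T X₁ X₂ : Subgroup G) (C₁ C₂ : Set (Subgroup G)) : Prop extends One T X₁ X₂ C₁ C₂ where
  s1 : Side T X₁ X₂ C₁ C₂
  s2 : Side T X₂ X₁ C₂ C₁

theorem Str.symm {T X₁ X₂ : Subgroup G} {C₁ C₂ : Set (Subgroup G)} (h : Str T X₁ X₂ C₁ C₂) :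
    Str T X₂ X₁ C₂ C₁ :=
  ⟨h.toOne.symm, h.s2, h.s1⟩

end H16Q
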