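import Mathlib
import Cfsg.Agent.Base
import Cfsg.Agent.Lib.QZ.GDefs

/-!
Automorphisms of four-groups; sets with at most two members.
-/

set_option autoImplicit false
set_option linter.unusedSectionVars false
set_option linter.unusedVariables false

namespace H16Q

open Subgroup H69 H70 Cfsg
open scoped commutatorElement Pointwise

variable {G : Type*} [Group G] [Finite G]

section four

variable {N W A : Subgroup G} {a b n x y z w g c : G}

private theorem f4_cc (hg : g ∈ 𝐂(N)) (hn : n ∈ N) : g * n * g⁻¹ = n := by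
  have := mem_centralizer_iff.1 hg n hn
  rw [← this]; group

private theorem f4_cent (h : ∀ n ∈ N, g * n * g⁻¹ = n) : g ∈ 𝐂(N) :=
  mem_centralizer_iff.2 fun n hn => by
    calc n * g = g * n * g⁻¹ * g := by rw [h n hn]
      _ = g * n := by group

private theorem f4_nm (hg : g ∈ 𝐍(N)) (hn : n ∈ N) : g * n * g⁻¹ ∈ N := (mem_normalizer_iff.1 hg n).1 hn

private theorem f4_mul : g * (a * b) * g⁻¹ = g * a * g⁻¹ * (g * b * g⁻¹) := by group

private theorem f4_ne1 (h : a ≠ 1) : g * a * g⁻¹ ≠ 1 := fun e => h (by simpa using e)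

private theorem f4_odd {i j : ℕ} (h : Nat.Coprime i j) (hi : g ^ i ∈ W) (hj : g ^ j ∈ W) : g ∈ W := by
  obtain ⟨u, v, e⟩ := Nat.isCoprime_iff_coprime.2 h
  have : g = (g ^ i) ^ u * (g ^ j) ^ v := by
    rw [← zpow_natCast, ← zpow_natCast, ← zpow_mul, ← zpow_mul, ← zpow_add, mul_comm _ u, mul_comm _ v, e,
      zpow_one]
  rw [this]
  exact mul_mem (zpow_mem hi u) (zpow_mem hj v)

theorem Four.sq (h : Four N) (hn : n ∈ N) : n * n = 1 := by
  have := h.ea.2 n hn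
  rwa [pow_two] at this

theorem Four.inv (h : Four N) (hn : n ∈ N) : n⁻¹ = n :=
  inv_eq_of_mul_eq_one_right (h.sq hn)

theorem Four.comm (h : Four N) (ha : a ∈ N) (hb : b ∈ N) : a * b = b * a := by
  calc a * b = (a * b)⁻¹ := (h.inv (mul_mem ha hb)).symm
    _ = b * a := by rw [mul_inv_rev, h.inv ha, h.inv hb]

theorem Four.le_cent (h : Four N) : N ≤ 𝐂(N) :=
  fun a ha => mem_centralizer_iff.2 fun b hb => h.comm hb ha

theorem Four.cj (h : Four N) (g : G) : Four (N ^ᶜ g) := by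
  refine ⟨by rw [card_cj, h.card], le_centralizer_iff_isMulCommutative.1 ?_, fun a ha => ?_⟩
  · rw [← cj_centralizer]; exact cj_mono g h.le_cent
  · obtain ⟨b, hb, rfl⟩ := mem_cj'.1 ha
    rw [conj_pow, h.ea.2 b hb]; simp

theorem Four.ne_bot (h : Four N) : N ≠ ⊥ := by
  intro e
  have := h.card
  rw [e] at this
  simp at this

theorem Four.isP (h : Four N) : IsPGroup 2 N :=
  IsPGroup.of_card (n := 2) h.card

theorem Four.exists_ne (h : Four N) (z : G) : ∃ n ∈ N, n ≠ 1 ∧ n ≠ z := by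
  by_contra hc
  push Not at hc
  have h1 : (N : Set G) ⊆ {1, z} := fun n hn => by
    by_cases e : n = 1
    · exact Or.inl e
    · exact Or.inr (hc n hn e)
  have h2 := Set.ncard_le_ncard h1 (Set.toFinite _)
  have h3 := Set.ncard_insert_le (1 : G) ({z} : Set G)
  rw [Set.ncard_singleton] at h3
  have h4 : (N : Set G).ncard = 4 := h.card
  omega

theorem Four.cases (h : Four N) (ha : a ∈ N) (hb : b ∈ N) (ha1 : a ≠ 1) (hb1 : b ≠ 1) (hab : a ≠ b)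
    (hn : n ∈ N) : n = 1 ∨ n = a ∨ n = b ∨ n = a * b := by
  by_contra hc
  push Not at hc
  obtain ⟨c1, c2, c3, c4⟩ := hc
  have h1 : ({n, 1, a, b, a * b} : Set G) ⊆ N := by
    intro x hx
    simp only [Set.mem_insert_iff, Set.mem_singleton_iff] at hx
    rcases hx with rfl | rfl | rfl | rfl | rfl
    exacts [hn, one_mem N, ha, hb, mul_mem ha hb]
  have h2 := Set.ncard_le_ncard h1 (Set.toFinite _)
  have e1 : (1 : G) ≠ a * b := fun e => hab (by rw [← h.inv hb]; exact eq_inv_of_mul_eq_one_left e.symm)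
  rw [Set.ncard_insert_of_notMem (by simp [c1, c2, c3, c4]),
    Set.ncard_insert_of_notMem (by simp [ha1.symm, hb1.symm, e1]),
    Set.ncard_insert_of_notMem (by simp [hab, hb1]), Set.ncard_insert_of_notMem (by simp [ha1]),
    Set.ncard_singleton] at h2
  have h4 : (N : Set G).ncard = 4 := h.card
  omega

theorem Four.le_of_two (h : Four N) (ha : a ∈ N) (hb : b ∈ N) (ha1 : a ≠ 1) (hb1 : b ≠ 1) (hab : a ≠ b)
    (haW : a ∈ W) (hbW : b ∈ W) : N ≤ W := by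
  intro n hn
  rcases h.cases ha hb ha1 hb1 hab hn with rfl | rfl | rfl | rfl
  exacts [one_mem W, haW, hbW, mul_mem haW hbW]

theorem Four.cent_of_two (h : Four N) (ha : a ∈ N) (hb : b ∈ N) (ha1 : a ≠ 1) (hb1 : b ≠ 1) (hab : a ≠ b)
    (h1 : g * a * g⁻¹ = a) (h2 : g * b * g⁻¹ = b) : g ∈ 𝐂(N) := by
  refine f4_cent fun n hn => ?_
  rcases h.cases ha hb ha1 hb1 hab hn with rfl | rfl | rfl | rfl
  exacts [by group, h1, h2, by rw [f4_mul, h1, h2]]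

theorem Four.tri (h : Four N) (hg : g ∈ 𝐍(N)) : g ∈ 𝐂(N) ∨ Fpf N g ∨ ∃ z, Trv N g z := by
  by_cases hc : g ∈ 𝐂(N)
  · exact Or.inl hc
  by_cases hf : ∀ n ∈ N, g * n * g⁻¹ = n → n = 1
  · exact Or.inr (Or.inl ⟨hg, hf⟩)
  push Not at hf
  obtain ⟨z, hz, e, hz1⟩ := hf
  exact Or.inr (Or.inr ⟨z, hg, hc, hz, hz1, e⟩)

theorem Four.two_fix (h : Four N) (hA : IsPGroup 2 A) (hn : A ≤ 𝐍(N)) :
    ∃ z ∈ N, z ≠ 1 ∧ A ≤ 𝐂(zpowers z) := by
  obtain ⟨⟨z, hz⟩, hz1⟩ := ne_bot_iff_exists_ne_one.1 (inf_centralizer_ne_bot h.isP hA hn h.ne_bot)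
  exact ⟨z, hz.1, fun e => hz1 (Subtype.ext e), le_centralizer_iff.1 (zpowers_le.2 hz.2)⟩

theorem Trv.uniq (h : Four N) (ha : Trv N a z) (hn : n ∈ N) (hf : a * n * a⁻¹ = n) : n = 1 ∨ n = z := by
  by_contra hc
  push Not at hc
  exact ha.nc (h.cent_of_two hn ha.mem hc.1 ha.ne hc.2 hf ha.fix)

theorem Trv.conj (h : Four N) (ha : Trv N a z) (hn : n ∈ N) (h1 : n ≠ 1) (h2 : n ≠ z) :
    a * n * a⁻¹ = n * z := by
  rcases h.cases hn ha.mem h1 ha.ne h2 (f4_nm ha.norm hn) with e | e | e | e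
  · exact absurd e (f4_ne1 h1)
  · rcases ha.uniq h hn e with j | j
    exacts [absurd j h1, absurd j h2]
  · rw [← ha.fix] at e
    exact absurd (by simpa using e) h2
  · exact e

theorem Trv.inv (ha : Trv N a z) : Trv N a⁻¹ z :=
  ⟨inv_mem ha.norm, fun e => ha.nc (inv_mem_iff.1 e), ha.mem, ha.ne, by
  calc a⁻¹ * z * a⁻¹⁻¹ = a⁻¹ * (a * z * a⁻¹) * a⁻¹⁻¹ := by rw [ha.fix]
    _ = z := by group⟩

theorem Trv.cj (ha : Trv N a z) (g : G) : Trv (N ^ᶜ g) (g * a * g⁻¹) (g * z * g⁻¹) := by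
  refine ⟨by rw [← cj_normalizer]; exact cj_mem g ha.norm, ?_, cj_mem g ha.mem, f4_ne1 ha.ne, ?_⟩
  · rw [← cj_centralizer, cj_mem_iff]; exact ha.nc
  · calc _ = g * (a * z * a⁻¹) * g⁻¹ := by group
      _ = _ := by rw [ha.fix]

theorem Trv.mul (h : Four N) (ha : Trv N a z) (hb : Trv N b z) : a * b ∈ 𝐂(N) := by
  refine f4_cent fun n hn => ?_
  have e : a * b * n * (a * b)⁻¹ = a * (b * n * b⁻¹) * a⁻¹ := by group
  rw [e]
  by_cases h1 : n = 1
  · rw [h1]; group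
  by_cases h2 : n = z
  · rw [h2, hb.fix, ha.fix]
  rw [hb.conj h hn h1 h2, f4_mul, ha.conj h hn h1 h2, ha.fix, mul_assoc, h.sq ha.mem, mul_one]

theorem Trv.mul_ne (h : Four N) (ha : Trv N a z) (hb : Trv N b w) (hzw : z ≠ w) : Fpf N (a * b) := by
  refine ⟨mul_mem ha.norm hb.norm, fun n hn e => ?_⟩
  have e0 : a * b * n * (a * b)⁻¹ = a * (b * n * b⁻¹) * a⁻¹ := by group
  rw [e0] at e
  by_contra h1
  have aw := ha.conj h hb.mem hb.ne hzw.symm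
  by_cases h2 : n = w
  · rw [h2, hb.fix, aw] at e
    exact ha.ne (by simpa using e)
  rw [hb.conj h hn h1 h2, f4_mul, aw] at e
  by_cases h3 : n = z
  · rw [h3, ha.fix] at e
    have : w * z = 1 := by simpa using e
    exact hzw (by rw [← h.inv hb.mem]; exact eq_inv_of_mul_eq_one_right this)
  · rw [ha.conj h hn h1 h3, h.comm hb.mem ha.mem, mul_assoc, ← mul_assoc z, h.sq ha.mem, one_mul] at e
    exact hb.ne (by simpa using e)

theorem Four.odd_cent (h : Four N) (ho : Odd (orderOf g)) (hg : g ∈ 𝐍(N)) (hz : z ∈ N) (hz1 : z ≠ 1)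
    (hf : g * z * g⁻¹ = z) : g ∈ 𝐂(N) := by
  by_contra hc
  have t : Trv N g z := ⟨hg, hc, hz, hz1, hf⟩
  exact hc (f4_odd ho.coprime_two_left (by rw [pow_two]; exact t.mul h t)
    (by rw [pow_orderOf_eq_one]; exact one_mem _))

theorem Four.odd_fpf (h : Four N) (ho : Odd (orderOf g)) (hg : g ∈ 𝐍(N)) (hc : g ∉ 𝐂(N)) : Fpf N g :=
  ⟨hg, fun n hn e => by
  by_contra h1
  exact hc (h.odd_cent ho hg hn h1 e)⟩

/-- elements fixing `z` act trivially on `N / ⟨z⟩`. -/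
theorem Four.comm_le (h : Four N) (hn : A ≤ 𝐍(N)) (hz : z ∈ N) (hz1 : z ≠ 1) (hc : A ≤ 𝐂(zpowers z)) :
    ⁅N, A⁆ ≤ zpowers z := by
  refine commutator_le.2 fun n hn' a ha => ?_
  have e : ⁅n, a⁆ = n * (a * n * a⁻¹) := by
    rw [commutatorElement_def, h.inv hn']; group
  rw [e]
  have fz : a * z * a⁻¹ = z := f4_cc (hc ha) (mem_zpowers z)
  by_cases c : a ∈ 𝐂(N)
  · rw [f4_cc c hn', h.sq hn']; exact one_mem _
  by_cases c1 : n = 1
  · simp [c1]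
  by_cases c2 : n = z
  · rw [c2, fz, h.sq hz]; exact one_mem _
  rw [Trv.conj h ⟨hn ha, c, hz, hz1, fz⟩ hn' c1 c2, ← mul_assoc, h.sq hn', one_mul]
  exact mem_zpowers z

private theorem f4_act (h : Four N) (hx : Fpf N x) (hn : n ∈ N) (h1 : n ≠ 1) :
    x * (x * n * x⁻¹) * x⁻¹ = n * (x * n * x⁻¹) := by
  have hn' := f4_nm hx.norm hn
  have hne : n ≠ x * n * x⁻¹ := fun e => h1 (hx.fix n hn e.symm)
  rcases h.cases hn hn' h1 (f4_ne1 h1) hne (f4_nm hx.norm hn') with e | e | e | e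
  · exact absurd e (f4_ne1 (f4_ne1 h1))
  · exfalso
    have := hx.fix _ (mul_mem hn hn') (by rw [f4_mul, e, h.comm hn' hn])
    exact hne (by rw [← h.inv hn']; exact eq_inv_of_mul_eq_one_left this)
  · exact absurd (hx.fix _ hn' e) (f4_ne1 h1)
  · exact e

private theorem f4_act2 (h : Four N) (hx : Fpf N x) (hn : n ∈ N) (h1 : n ≠ 1) :
    x * (n * (x * n * x⁻¹)) * x⁻¹ = n := by
  have hn' := f4_nm hx.norm hn
  rw [f4_mul, f4_act h hx hn h1, h.comm hn hn', ← mul_assoc, h.sq hn', one_mul]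

private theorem f4_same (h : Four N) (hx : Fpf N x) (hy : Fpf N y) (ha : a ∈ N) (ha1 : a ≠ 1)
    (e : y * a * y⁻¹ = x * a * x⁻¹) (hn : n ∈ N) : y * n * y⁻¹ = x * n * x⁻¹ := by
  have e2 : y * (x * a * x⁻¹) * y⁻¹ = x * (x * a * x⁻¹) * x⁻¹ := by
    rw [f4_act h hx ha ha1, ← e, f4_act h hy ha ha1]
  rcases h.cases ha (f4_nm hx.norm ha) ha1 (f4_ne1 ha1) (fun j => ha1 (hx.fix a ha j.symm)) hn with j | j | j | j
  · rw [j]; group
  · rw [j, e]
  · rw [j, e2]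
  · rw [j, f4_mul (g := y), f4_mul (g := x) (a := a), e, e2]

theorem Fpf.not_cent (h : Four N) (hx : Fpf N x) : x ∉ 𝐂(N) := by
  intro hc
  obtain ⟨n, hn, h1, -⟩ := h.exists_ne 1
  exact h1 (hx.fix n hn (f4_cc hc hn))

theorem Fpf.cube (h : Four N) (hx : Fpf N x) : x ^ 3 ∈ 𝐂(N) := by
  refine f4_cent fun n hn => ?_
  by_cases h1 : n = 1
  · rw [h1]; group
  calc x ^ 3 * n * (x ^ 3)⁻¹ = x * (x * (x * n * x⁻¹) * x⁻¹) * x⁻¹ := by
        rw [pow_succ, pow_two]; group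
    _ = n := by rw [f4_act h hx hn h1, f4_act2 h hx hn h1]

theorem Fpf.not_two (h : Four N) (hx : Fpf N x) (hA : IsPGroup 2 A) : x ∉ A := by
  intro hxA
  obtain ⟨k, hk⟩ := hA ⟨x, hxA⟩
  have hk' : x ^ 2 ^ k = 1 := by simpa using congrArg Subtype.val hk
  exact hx.not_cent h (f4_odd (i := 3) (j := 2 ^ k) (Nat.Coprime.pow_right k (by norm_num)) (hx.cube h)
    (by rw [hk']; exact one_mem _))

theorem Fpf.inv (hx : Fpf N x) : Fpf N x⁻¹ :=
  ⟨inv_mem hx.norm, fun n hn e => hx.fix n hn (by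
  calc x * n * x⁻¹ = x * (x⁻¹ * n * x⁻¹⁻¹) * x⁻¹ := by rw [e]
    _ = n := by group)⟩

theorem Fpf.mul_cent (hx : Fpf N x) (hc : c ∈ 𝐂(N)) : Fpf N (x * c) := by
  refine ⟨mul_mem hx.norm (centralizer_le_normalizer _ hc), fun n hn e => hx.fix n hn ?_⟩
  calc x * n * x⁻¹ = x * (c * n * c⁻¹) * x⁻¹ := by rw [f4_cc hc hn]
    _ = x * c * n * (x * c)⁻¹ := by group
    _ = n := e

theorem Fpf.cent_mul (hx : Fpf N x) (hc : c ∈ 𝐂(N)) : Fpf N (c * x) := by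
  refine ⟨mul_mem (centralizer_le_normalizer _ hc) hx.norm, fun n hn e => hx.fix n hn ?_⟩
  calc x * n * x⁻¹ = c * (x * n * x⁻¹) * c⁻¹ := by rw [f4_cc hc (f4_nm hx.norm hn)]
    _ = c * x * n * (c * x)⁻¹ := by group
    _ = n := e

theorem Fpf.sq (h : Four N) (hx : Fpf N x) : Fpf N (x * x) := by
  have := hx.inv.mul_cent (hx.cube h)
  have e : x⁻¹ * x ^ 3 = x * x := by rw [pow_succ, pow_two]; group
  rwa [e] at this

theorem Fpf.cj (hx : Fpf N x) (g : G) : Fpf (N ^ᶜ g) (g * x * g⁻¹) := by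
  refine ⟨by rw [← cj_normalizer]; exact cj_mem g hx.norm, fun n hn e => ?_⟩
  obtain ⟨m, hm, rfl⟩ := mem_cj'.1 hn
  have : x * m * x⁻¹ = m := by
    calc x * m * x⁻¹ = g⁻¹ * (g * x * g⁻¹ * (g * m * g⁻¹) * (g * x * g⁻¹)⁻¹) * g := by group
      _ = m := by rw [e]; group
  rw [hx.fix m hm this]; group

theorem Fpf.prod (h : Four N) (hx : Fpf N x) (hn : n ∈ N) :
    n * (x * n * x⁻¹) * (x * (x * n * x⁻¹) * x⁻¹) = 1 := by
  by_cases h1 : n = 1
  · rw [h1]; group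
  rw [f4_act h hx hn h1]
  exact h.sq (mul_mem hn (f4_nm hx.norm hn))

theorem Fpf.tr (h : Four N) (hx : Fpf N x) (ha : a ∈ N) (hb : b ∈ N) (ha1 : a ≠ 1) (hb1 : b ≠ 1) :
    b = a ∨ b = x * a * x⁻¹ ∨ b = x⁻¹ * a * x := by
  rcases h.cases ha (f4_nm hx.norm ha) ha1 (f4_ne1 ha1) (fun e => ha1 (hx.fix a ha e.symm)) hb with e | e | e | e
  · exact absurd e hb1
  · exact Or.inl e
  · exact Or.inr (Or.inl e)
  · right; right
    calc b = x⁻¹ * (x * (a * (x * a * x⁻¹)) * x⁻¹) * x := by rw [e]; group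
      _ = x⁻¹ * a * x := by rw [f4_act2 h hx ha ha1]

theorem Fpf.mul (h : Four N) (hx : Fpf N x) (hy : Fpf N y) : x * y ∈ 𝐂(N) ∨ x * y⁻¹ ∈ 𝐂(N) := by
  obtain ⟨a, ha, ha1, -⟩ := h.exists_ne 1
  rcases hx.tr h ha (f4_nm hy.norm ha) ha1 (f4_ne1 ha1) with e | e | e
  · exact absurd (hy.fix a ha e) ha1
  · right
    refine f4_cent fun n hn => ?_
    have := f4_same h hx hy ha ha1 e (f4_nm (inv_mem hy.norm) hn)
    calc x * y⁻¹ * n * (x * y⁻¹)⁻¹ = x * (y⁻¹ * n * y⁻¹⁻¹) * x⁻¹ := by group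
      _ = n := by rw [← this]; group
  · left
    refine f4_cent fun n hn => ?_
    have := f4_same h hx.inv hy ha ha1 (by rw [e, inv_inv]) hn
    calc x * y * n * (x * y)⁻¹ = x * (y * n * y⁻¹) * x⁻¹ := by group
      _ = n := by rw [this]; group

/-- the elements acting trivially or without fixed points are closed under products. -/
theorem Fpf.even_mul (h : Four N) (hx : x ∈ 𝐂(N) ∨ Fpf N x) (hy : y ∈ 𝐂(N) ∨ Fpf N y) :
    x * y ∈ 𝐂(N) ∨ Fpf N (x * y) := by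
  rcases hx with hx | hx <;> rcases hy with hy | hy
  · exact Or.inl (mul_mem hx hy)
  · exact Or.inr (hy.cent_mul hx)
  · exact Or.inr (hx.mul_cent hy)
  · rcases hx.mul h hy with e | e
    · exact Or.inl e
    · right
      have := (hy.sq h).cent_mul e
      have e' : x * y⁻¹ * (y * y) = x * y := by group
      rwa [e'] at this

theorem Fpf.surj (h : Four N) (hx : Fpf N x) (hn : n ∈ N) : ∃ m ∈ N, x * m * x⁻¹ * m⁻¹ = n := by
  by_cases h1 : n = 1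
  · exact ⟨1, one_mem N, by rw [h1]; group⟩
  exact ⟨_, f4_nm hx.norm hn, by rw [f4_act h hx hn h1]; group⟩

theorem Trv.inv_even (h : Four N) (ha : Trv N a z) (hx : x ∈ 𝐂(N) ∨ Fpf N x) : a * x * a⁻¹ * x ∈ 𝐂(N) := by
  have eN := cj_eq_of_mem_normalizer ha.norm
  rcases hx with hx | hx
  · have := cj_mem a hx
    rw [cj_centralizer, eN] at this
    exact mul_mem this hx
  · have hx' := hx.cj a
    rw [eN] at hx'
    rcases hx'.mul h hx with e | e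
    · exact e
    exfalso
    have hz := f4_nm hx.norm ha.mem
    have : a * (x * z * x⁻¹) * a⁻¹ = x * z * x⁻¹ := by
      calc a * (x * z * x⁻¹) * a⁻¹ = a * (x * (a⁻¹ * (a * z * a⁻¹) * a) * x⁻¹) * a⁻¹ := by group
        _ = a * x * a⁻¹ * x⁻¹ * (x * z * x⁻¹) * (a * x * a⁻¹ * x⁻¹)⁻¹ := by rw [ha.fix]; group
        _ = _ := f4_cc e hz
    rcases ha.uniq h hz this with j | j
    · exact f4_ne1 ha.ne j
    · exact ha.ne (hx.fix z ha.mem j)

theorem Trv.comm_fpf (h : Four N) (ha : Trv N a z) (hx : Fpf N x) : Fpf N (a * x * a⁻¹ * x⁻¹) := by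
  have := (hx.inv.sq h).cent_mul (ha.inv_even h (Or.inr hx))
  have e : a * x * a⁻¹ * x * (x⁻¹ * x⁻¹) = a * x * a⁻¹ * x⁻¹ := by group
  rwa [e] at this

theorem Trv.comm_fpf' (h : Four N) (ha : Trv N a z) (hx : Fpf N x) : Fpf N (x * a * x⁻¹ * a⁻¹) := by
  have := (ha.comm_fpf h hx).inv
  have e : (a * x * a⁻¹ * x⁻¹)⁻¹ = x * a * x⁻¹ * a⁻¹ := by group
  rwa [e] at this

end four

section pm

variable {C : Set (Subgroup G)} {N M : Subgroup G} {g h z e : G}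

theorem Disj.eq (hd : Disj C) (hN : N ∈ C) (hM : M ∈ C) (h1 : z ∈ N) (h2 : z ∈ M) (hz : z ≠ 1) : N = M := by
  by_contra hne
  have : z ∈ N ⊓ M := ⟨h1, h2⟩
  rw [hd N hN M hM hne] at this
  exact hz this

theorem Two.eq_other (h2 : Two C) (hN : N ∈ C) (hM : M ∈ C) (hne : M ≠ N) {K : Subgroup G} (hK : K ∈ C)
    (hKN : K ≠ N) : K = M := by
  rcases h2 M hM N hN K hK with e | e | e
  exacts [absurd e hne, e.symm, absurd e.symm hKN]

theorem Two.cases (h2 : Two C) (hne : C.Nonempty) : (∃ N, C = {N}) ∨ ∃ N M, N ≠ M ∧ C = {N, M} := by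
  obtain ⟨N, hN⟩ := hne
  by_cases c : ∀ M ∈ C, M = N
  · exact Or.inl ⟨N, Set.eq_singleton_iff_unique_mem.2 ⟨hN, c⟩⟩
  push Not at c
  obtain ⟨M, hM, hne⟩ := c
  refine Or.inr ⟨N, M, hne.symm, Set.ext fun K => ⟨fun hK => ?_, ?_⟩⟩
  · by_cases e : K = N
    · exact Or.inl e
    · exact Or.inr (h2.eq_other hN hM hne hK e)
  · rintro (rfl | rfl)
    exacts [hN, hM]

theorem Pm.mul (hg : Pm C g) (hh : Pm C h) : Pm C (g * h) :=
  fun N hN => by rw [← cj_cj]; exact hg _ (hh N hN)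

theorem Pm.inv (hg : Pm C g) : Pm C g⁻¹ := by
  have hp : ∀ k : ℕ, Pm C (g ^ k) := fun k => by
    induction k with
    | zero => intro N hN; rw [pow_zero, cj_one]; exact hN
    | succ k ih => rw [pow_succ]; exact ih.mul hg
  have e : g ^ (orderOf g - 1) = g⁻¹ := by
    refine eq_inv_of_mul_eq_one_left ?_
    rw [← pow_succ, Nat.sub_add_cancel (orderOf_pos g), pow_orderOf_eq_one]
  exact e ▸ hp _

theorem Pm.of_norm (hg : ∀ N ∈ C, g ∈ 𝐍(N)) : Pm C g :=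
  fun N hN => by rw [cj_eq_of_mem_normalizer (hg N hN)]; exact hN

theorem Pm.norm_sSup (hg : Pm C g) : g ∈ 𝐍(sSup C) :=
  mem_normalizer_of_cj_le (cj_le_iff.2 (sSup_le fun N hN => cj_le_iff.1 (le_sSup (hg N hN))))

theorem Pm.of_sup {A B : Subgroup G} (hA : ∀ a ∈ A, Pm C a) (hB : ∀ b ∈ B, Pm C b) : ∀ g ∈ A ⊔ B, Pm C g := by
  let K : Subgroup G :=
    { carrier := {g | Pm C g}
      one_mem' := fun N hN => by rw [cj_one]; exact hN
      mul_mem' := fun h1 h2 => Pm.mul h1 h2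
      inv_mem' := fun h1 => Pm.inv h1 }
  exact fun g hg => (sup_le (c := K) hA hB) hg

theorem Pm.other (h2 : Two C) (hg : Pm C g) (hN : N ∈ C) (hn : g ∈ 𝐍(N)) (hM : M ∈ C) : g ∈ 𝐍(M) := by
  rcases h2 M hM N hN _ (hg M hM) with e | e | e
  · exact e ▸ hn
  · exact cj_eq_self_iff.1 e.symm
  · rw [← cj_eq_of_mem_normalizer hn, cj_inj] at e
    exact e ▸ hn

theorem Pm.swap (h2 : Two C) (hg : Pm C g) (hN : N ∈ C) (hM : M ∈ C) (hne : M ≠ N) (hn : g ∉ 𝐍(N)) :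
    N ^ᶜ g = M ∧ M ^ᶜ g = N :=
  ⟨h2.eq_other hN hM hne (hg N hN) fun e => hn (cj_eq_self_iff.1 e),
    h2.eq_other hM hN hne.symm (hg M hM) fun e => hn (hg.other h2 hM (cj_eq_self_iff.1 e) hN)⟩

theorem Pm.mul_norm (h2 : Two C) (hg : Pm C g) (hh : Pm C h) (hN : N ∈ C) (h1 : g ∉ 𝐍(N)) (h3 : h ∉ 𝐍(N)) :
    g * h ∈ 𝐍(N) := by
  have hne : N ^ᶜ h ≠ N := fun e => h3 (cj_eq_self_iff.1 e)
  have := (hg.swap h2 hN (hh N hN) hne h1).2
  rw [cj_cj] at this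
  exact cj_eq_self_iff.1 this

theorem Pm.sq_norm (h2 : Two C) (hg : Pm C g) (hN : N ∈ C) : g * g ∈ 𝐍(N) := by
  by_cases c : g ∈ 𝐍(N)
  · exact mul_mem c c
  · exact hg.mul_norm h2 hg hN c c

theorem Pm.odd (h2 : Two C) (hg : Pm C g) (ho : Odd (orderOf g)) (hN : N ∈ C) : g ∈ 𝐍(N) :=
  f4_odd ho.coprime_two_left (by rw [pow_two]; exact hg.sq_norm h2 hN)
    (by rw [pow_orderOf_eq_one]; exact one_mem _)

theorem Pm.of_fix (hd : Disj C) (hg : Pm C g) (hN : N ∈ C) (hz : z ∈ N) (hz1 : z ≠ 1)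
    (hf : g * z * g⁻¹ ∈ N) : g ∈ 𝐍(N) :=
  cj_eq_self_iff.1 (hd.eq (hg N hN) hN (cj_mem g hz) hf (f4_ne1 hz1))

/-- a subgroup permuting `C` whose Sylow 2-subgroup normalizes `N` normalizes `N`. -/
theorem Pm.norm_of_sylow (h2 : Two C) {S K : Subgroup G} (hS : IsSylowIn 2 S K) (hK : ∀ k ∈ K, Pm C k)
    (hN : N ∈ C) (hn : S ≤ 𝐍(N)) : K ≤ 𝐍(N) := by
  intro k hk
  obtain ⟨j, m, hm, e⟩ := Nat.exists_eq_two_pow_mul_odd (orderOf_pos k).ne'
  have hy : IsPGroup 2 (zpowers (k ^ m)) := by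
    rintro ⟨_, i, rfl⟩
    refine ⟨j, Subtype.ext ?_⟩
    change ((k ^ m) ^ i) ^ 2 ^ j = 1
    rw [← zpow_natCast, ← zpow_mul, mul_comm, zpow_mul, zpow_natCast, ← pow_mul, mul_comm, ← e,
      pow_orderOf_eq_one, one_zpow]
  obtain ⟨g, hg, hle⟩ := hS.exists_cj_le hy (zpowers_le.2 (pow_mem hk m))
  have h3 := hn (hle (cj_mem g (mem_zpowers _)))
  have h4 : k ^ m ∈ 𝐍(N ^ᶜ g⁻¹) := by
    rw [← cj_normalizer, mem_cj, inv_inv]; exact h3
  have h5 := (hK _ (pow_mem hk m)).other h2 (hK _ (inv_mem hg) N hN) h4 hN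
  exact f4_odd hm.coprime_two_left (by rw [pow_two]; exact (hK k hk).sq_norm h2 hN) h5

theorem le_cent_sSup {A : Subgroup G} : A ≤ 𝐂(sSup C) ↔ ∀ N ∈ C, A ≤ 𝐂(N) := by
  rw [le_centralizer_iff, sSup_le_iff]
  exact forall₂_congr fun N _ => le_centralizer_iff

theorem mem_cent_sSup : g ∈ 𝐂(sSup C) ↔ ∀ N ∈ C, g ∈ 𝐂(N) := by
  rw [← zpowers_le, le_cent_sSup]
  simp only [zpowers_le]

theorem Two.mem_sSup (h2 : Two C) (hc : ∀ A ∈ C, ∀ B ∈ C, A ≤ 𝐂(B)) (hN : N ∈ C) (he : e ∈ sSup C) :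
    ∃ n ∈ N, ∃ m, (m = 1 ∨ ∃ M ∈ C, M ≠ N ∧ m ∈ M) ∧ e = n * m := by
  by_cases c : ∀ M ∈ C, M = N
  · exact ⟨e, (sSup_le fun M hM => (c M hM).le) he, 1, Or.inl rfl, (mul_one e).symm⟩
  push Not at c
  obtain ⟨M, hM, hne⟩ := c
  have h1 : sSup C ≤ N ⊔ M := sSup_le fun K hK => by
    by_cases j : K = N
    · exact j.le.trans le_sup_left
    · exact (h2.eq_other hN hM hne hK j).le.trans le_sup_right
  have h3 : e ∈ ((N ⊔ M : Subgroup G) : Set G) := h1 he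
  rw [coe_mul_of_left_le_normalizer_right N M ((hc N hN M hM).trans (centralizer_le_normalizer _))] at h3
  obtain ⟨n, hn, m, hm, rfl⟩ := h3
  exact ⟨n, hn, m, Or.inr ⟨M, hM, hne, hm⟩, rfl⟩

theorem ea_sSup (h4 : ∀ N ∈ C, Four N) (hc : ∀ A ∈ C, ∀ B ∈ C, A ≤ 𝐂(B)) :
    IsElementaryAbelian 2 (sSup C : Subgroup G) := by
  have h1 : sSup C ≤ 𝐂(sSup C) := sSup_le fun A hA => le_cent_sSup.2 (hc A hA)
  refine ⟨le_centralizer_iff_isMulCommutative.1 h1, ?_⟩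
  let K : Subgroup G :=
    { carrier := {g | g ∈ sSup C ∧ g ^ 2 = 1}
      one_mem' := ⟨one_mem _, one_pow 2⟩
      mul_mem' := fun {a b} ha hb => ⟨mul_mem ha.1 hb.1, by
        rw [Commute.mul_pow (mem_centralizer_iff.1 (h1 hb.1) a ha.1), ha.2, hb.2, mul_one]⟩
      inv_mem' := fun {a} ha => ⟨inv_mem ha.1, by rw [inv_pow, ha.2, inv_one]⟩ }
  exact fun a ha => ((sSup_le (a := K) fun N hN n hn => ⟨le_sSup hN hn, (h4 N hN).ea.2 n hn⟩) ha).2

end pm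

end H16Q
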