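import Mathlib
import Cfsg.Agent.Base
import Cfsg.Agent.Lib.QZ.Defs
import Cfsg.Agent.Lib.QZ.F4

/-!
Critical distance one: the 2-cores are elementary abelian.
-/

set_option autoImplicit false
set_option linter.unusedSectionVars false
set_option linter.unusedVariables false

namespace H16Q

open Subgroup H69 H70 Cfsg
open scoped commutatorElement Pointwise

variable {G : Type*} [Group G] [Finite G]

variable {T X X₁ X₂ H M R : Subgroup G} {C C₁ C₂ : Set (Subgroup G)}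

variable {N : Subgroup G} {t : G}

theorem b1_cc (p : Par T X C) : ∀ A ∈ C, ∀ B ∈ C, A ≤ 𝐂(B) := fun A hA B hB a ha =>
  mem_cent_sSup.1 (p.leQ A hA ha).2 B hB

theorem b1_EQ (p : Par T X C) : sSup C ≤ Qc T C := sSup_le p.leQ

theorem b1_zm {N' : Subgroup G} {z : G} (d : D8 N N' z) : z ∈ N ∧ z ∈ N' := by
  have : z ∈ N ⊓ N' := d.inf ▸ mem_zpowers z
  exact this

theorem b1_fix {N' : Subgroup G} {z g : G} (d : D8 N N' z) (h1 : g ∈ 𝐍(N)) (h2 : g ∈ 𝐍(N')) :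
    g * z * g⁻¹ = z := by
  obtain ⟨a, b⟩ := b1_zm d
  have hm : g * z * g⁻¹ ∈ zpowers z :=
    d.inf ▸ (⟨conj_mem_of_mem_normalizer h1 a, conj_mem_of_mem_normalizer h2 b⟩ :
      g * z * g⁻¹ ∈ N ⊓ N')
  have z2 : z * z = 1 := d.f.sq a
  have hle : zpowers z ≤
      { carrier := {x | x = 1 ∨ x = z}
        one_mem' := Or.inl rfl
        mul_mem' := by
          rintro x y (rfl | rfl) (rfl | rfl) <;> simp [z2]
        inv_mem' := by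
          rintro x (rfl | rfl)
          · simp
          · exact Or.inr (inv_eq_of_mul_eq_one_right z2) } := zpowers_le.2 (Or.inr rfl)
  rcases hle hm with e | e
  · exact (d.z1 (by simpa using e)).elim
  · exact e

theorem b1_trv {N' : Subgroup G} {z : G} (d : D8 N N' z) : ∃ a ∈ N', Trv N a z := by
  obtain ⟨a, b⟩ := b1_zm d
  have : ¬ N' ≤ 𝐂(N) := d.symm.nc
  obtain ⟨x, hx, hc⟩ := SetLike.not_le_iff_exists.1 this
  exact ⟨x, hx, d.n' hx, hc, a, d.z1, by rw [d.f'.comm hx b]; group⟩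

theorem One.nE (h : One T X₁ X₂ C₁ C₂) (hN : N ∈ C₁) : sSup C₂ ≤ 𝐍(N) := by
  obtain ⟨N', z, mt⟩ := h.m1 N hN
  refine sSup_le fun K hK => ?_
  by_cases e : K = N'
  · exact e ▸ mt.d.n'
  · exact le_normalizer_of_le_centralizer (le_centralizer_iff.1 (mt.o' K hK e))

theorem One.norm_all (h : One T X₁ X₂ C₁ C₂) {g : G} (h1 : Pm C₁ g) (h2 : Pm C₂ g) (hN : N ∈ C₁)
    (hn : g ∈ 𝐍(N)) : (∀ M ∈ C₁, g ∈ 𝐍(M)) ∧ ∀ M ∈ C₂, g ∈ 𝐍(M) := by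
  refine ⟨fun K hK => Pm.other h.p1.two h1 hN hn hK, fun K hK => ?_⟩
  obtain ⟨N', z, mt⟩ := h.m1 N hN
  refine Pm.other h.p2.two h2 mt.m' ?_ hK
  by_contra hc
  have := mt.o' _ (h2 N' mt.m') (fun e => hc (cj_eq_self_iff.1 e))
  rw [← cj_centralizer, ← cj_eq_of_mem_normalizer hn] at this
  exact mt.d.nc (cj_le_cj_iff.1 this)

theorem b1_step (h : One T X₁ X₂ C₁ C₂) (ht : t ∈ T) (hN : N ∈ C₁) (hn : t ∈ 𝐍(N)) :
    ∃ a ∈ sSup C₂, a * t ∈ 𝐂(N) ∧ ∀ K ∈ C₁, K ≠ N → a ∈ 𝐂(K) := by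
  by_cases hc : t ∈ 𝐂(N)
  · exact ⟨1, one_mem _, by rwa [one_mul], fun K _ _ => one_mem _⟩
  obtain ⟨N', z, mt⟩ := h.m1 N hN
  obtain ⟨a, ha, tr⟩ := b1_trv mt.d
  have hn' := (h.norm_all (h.p1.tperm t ht) (h.p2.tperm t ht) hN hn).2 N' mt.m'
  exact ⟨a, le_sSup mt.m' ha,
    Trv.mul mt.d.f tr ⟨hn, hc, tr.mem, tr.ne, b1_fix mt.d hn hn'⟩, fun K hK e => mt.o K hK e ha⟩

theorem b1_t0 (h : One T X₁ X₂ C₁ C₂) (ht : t ∈ T) (hN : N ∈ C₁) (hn : t ∈ 𝐍(N)) :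
    ∃ a ∈ sSup C₂, a * t ∈ Qc T C₁ := by
  obtain ⟨a, ha, c1, -⟩ := b1_step h ht hN hn
  have aT : a * t ∈ T := mul_mem (b1_EQ h.p2 ha).1 ht
  by_cases e : ∃ K ∈ C₁, K ≠ N
  · obtain ⟨K, hK, e⟩ := e
    have hn' : a * t ∈ 𝐍(K) :=
      (h.norm_all (h.p1.tperm _ aT) (h.p2.tperm _ aT) hN (centralizer_le_normalizer _ c1)).1 K hK
    obtain ⟨b, hb, c2, c3⟩ := b1_step h aT hK hn'
    refine ⟨b * a, mul_mem hb ha, ?_⟩
    rw [mul_assoc]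
    refine ⟨mul_mem (b1_EQ h.p2 hb).1 aT, mem_cent_sSup.2 fun L hL => ?_⟩
    by_cases e' : L = N
    · exact e' ▸ mul_mem (c3 N hN e.symm) c1
    · exact h.p1.two.eq_other hN hK e hL e' ▸ c2
  · refine ⟨a, ha, aT, mem_cent_sSup.2 fun L hL => ?_⟩
    by_cases e' : L = N
    · exact e' ▸ c1
    · exact (e ⟨L, hL, e'⟩).elim

theorem One.t0_le (h : One T X₁ X₂ C₁ C₂) (ht : t ∈ T) (hN : N ∈ C₁) (hn : t ∈ 𝐍(N)) :
    t ∈ sSup C₂ ⊔ Qc T C₁ := by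
  obtain ⟨a, ha, hq⟩ := b1_t0 h ht hN hn
  have := mul_mem (mem_sup_left (T := Qc T C₁) (inv_mem ha)) (mem_sup_right hq)
  rwa [inv_mul_cancel_left] at this

theorem b1_Q (h : One T X₁ X₂ C₁ C₂) (hq : t ∈ Qc T C₁) :
    ∃ a ∈ sSup C₁, a * t ∈ Qc T C₁ ⊓ Qc T C₂ := by
  obtain ⟨N, hN⟩ := h.p1.ne
  obtain ⟨N', hN'⟩ := h.p2.ne
  have hn := (h.norm_all (h.p1.tperm t hq.1) (h.p2.tperm t hq.1) hN
    (centralizer_le_normalizer _ (mem_cent_sSup.1 hq.2 N hN))).2 N' hN'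
  obtain ⟨a, ha, c⟩ := b1_t0 h.symm hq.1 hN' hn
  exact ⟨a, ha, mul_mem (b1_EQ h.p1 ha) hq, c⟩

theorem One.Q_eq (h : One T X₁ X₂ C₁ C₂) : Qc T C₁ = sSup C₁ ⊔ Qc T C₁ ⊓ Qc T C₂ := by
  refine le_antisymm (fun q hq => ?_) (sup_le (b1_EQ h.p1) inf_le_left)
  obtain ⟨a, ha, c⟩ := b1_Q h hq
  have := mul_mem (mem_sup_left (T := Qc T C₁ ⊓ Qc T C₂) (inv_mem ha)) (mem_sup_right c)
  rwa [inv_mul_cancel_left] at this

theorem b1_sq (h : One T X₁ X₂ C₁ C₂) :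
    closure {x | ∃ q ∈ Qc T C₁, x = q * q} ≤ closure {x | ∃ q ∈ Qc T C₂, x = q * q} := by
  refine closure_mono ?_
  rintro x ⟨q, hq, rfl⟩
  obtain ⟨a, ha, c⟩ := b1_Q h hq
  refine ⟨a * q, c.2, ?_⟩
  have e1 : a * q = q * a := mem_centralizer_iff_commute.1 hq.2 a ha
  have e2 : a * a = 1 := by
    rw [← sq]; exact (ea_sSup h.p1.four (b1_cc h.p1)).2 a ha
  calc q * q = (a * a) * (q * q) := by rw [e2, one_mul]
    _ = a * (a * q) * q := by group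
    _ = a * (q * a) * q := by rw [← e1]
    _ = a * q * (a * q) := by group

theorem b1_nsq {Q L : Subgroup G} (h : L ≤ 𝐍(Q)) : L ≤ 𝐍(closure {x | ∃ q ∈ Q, x = q * q}) := by
  refine le_normalizer_of_cj_le fun g hg => ?_
  rw [cj_le_iff, closure_le]
  rintro x ⟨q, hq, rfl⟩
  refine mem_cj.2 (subset_closure ⟨g * q * g⁻¹, conj_mem_of_mem_normalizer (h hg) hq, ?_⟩)
  group

theorem One.ea (h : One T X₁ X₂ C₁ C₂) : IsElementaryAbelian 2 (Qc T C₁) := by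
  have hU : closure {x | ∃ q ∈ Qc T C₁, x = q * q} = ⊥ := by
    refine h.core _ (h.qs.syl.isP.to_le ?_) (b1_nsq (sup_le h.p1.XQ h.p1.tQ)) ?_
    · rw [closure_le]
      rintro x ⟨q, hq, rfl⟩
      exact T.mul_mem hq.1 hq.1
    · rw [le_antisymm (b1_sq h) (b1_sq h.symm)]
      exact b1_nsq (sup_le h.p2.XQ h.p2.tQ)
  have sq1 : ∀ a ∈ Qc T C₁, a * a = 1 := fun a ha => by
    rw [← mem_bot, ← hU]; exact subset_closure ⟨a, ha, rfl⟩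
  refine ⟨⟨⟨fun a b => Subtype.ext ?_⟩⟩, fun a ha => by rw [sq]; exact sq1 a ha⟩
  have h1 := inv_eq_of_mul_eq_one_right (sq1 _ (mul_mem a.2 b.2))
  rw [mul_inv_rev, inv_eq_of_mul_eq_one_right (sq1 _ a.2),
    inv_eq_of_mul_eq_one_right (sq1 _ b.2)] at h1
  exact h1.symm

theorem b1_cen {N' : Subgroup G} {z n : G} (d : D8 N N' z) (hn : n ∈ N') (hc : n ∈ 𝐂(N)) :
    n = 1 ∨ n = z := by
  obtain ⟨a, ha, tr⟩ := b1_trv d.symm
  refine Trv.uniq d.f' tr hn ?_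
  rw [mem_centralizer_iff_commute.1 hc a ha]
  group

theorem b1_dec (h : One T X₁ X₂ C₁ C₂) {N' : Subgroup G} {z e : G} (mt : Mt C₁ C₂ N N' z)
    (he : e ∈ sSup C₂) (hc : e ∈ 𝐂(sSup C₁)) :
    ∃ n m, (n = 1 ∨ n = z) ∧ e = n * m ∧
      (m = 1 ∨ ∃ K ∈ C₂, K ≠ N' ∧ ∀ K₀ w, Mt C₁ C₂ K₀ K w → m = 1 ∨ m = w) := by
  obtain ⟨n, hn, m, hm, rfl⟩ := h.p2.two.mem_sSup (b1_cc h.p2) mt.m' he
  have mc : m ∈ 𝐂(N) := by
    rcases hm with rfl | ⟨K, hK, e, hm⟩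
    · exact one_mem _
    · exact le_centralizer_iff.1 (mt.o' K hK e) hm
  have nc : n ∈ 𝐂(N) := by
    have := mul_mem (mem_cent_sSup.1 hc N mt.m) (inv_mem mc)
    rwa [mul_inv_cancel_right] at this
  have n1 := b1_cen mt.d hn nc
  refine ⟨n, m, n1, rfl, ?_⟩
  rcases hm with rfl | ⟨K, hK, e, hm⟩
  · exact Or.inl rfl
  · refine Or.inr ⟨K, hK, e, fun K₀ w mt' => b1_cen mt'.d hm ?_⟩
    have nK : n ∈ 𝐂(K₀) := by
      rcases n1 with rfl | rfl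
      · exact one_mem _
      · exact b1_cc h.p1 N mt.m K₀ mt'.m (b1_zm mt.d).1
    have := mul_mem (inv_mem nK) (mem_cent_sSup.1 hc K₀ mt'.m)
    rwa [inv_mul_cancel_left] at this

theorem One.cE (h : One T X₁ X₂ C₁ C₂) : sSup C₂ ⊓ 𝐂(sSup C₁) ≤ sSup C₁ := by
  intro e he
  obtain ⟨N, hN⟩ := h.p1.ne
  obtain ⟨N', z, mt⟩ := h.m1 N hN
  obtain ⟨n, m, hn, rfl, hm⟩ := b1_dec h mt he.1 he.2
  refine mul_mem ?_ ?_
  · rcases hn with rfl | rfl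
    · exact one_mem _
    · exact le_sSup hN (b1_zm mt.d).1
  · rcases hm with rfl | ⟨K, hK, -, hm⟩
    · exact one_mem _
    · obtain ⟨K₀, w, mt'⟩ := h.m2 K hK
      rcases hm K₀ w mt' with rfl | rfl
      · exact one_mem _
      · exact le_sSup mt'.m (b1_zm mt'.d).1

theorem One.cardR (h : One T X₁ X₂ C₁ C₂) : Nat.card (sSup C₁ ⊓ sSup C₂ : Subgroup G) ≤ 4 := by
  classical
  obtain ⟨N, hN⟩ := h.p1.ne
  obtain ⟨N', z, mt⟩ := h.m1 N hN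
  obtain ⟨w, hw⟩ : ∃ w : G, ∀ K ∈ C₂, K ≠ N' → ∃ K₀, Mt C₁ C₂ K₀ K w := by
    by_cases e : ∃ K ∈ C₂, K ≠ N'
    · obtain ⟨K, hK, e⟩ := e
      obtain ⟨K₀, w, mt'⟩ := h.m2 K hK
      exact ⟨w, fun L hL e' => ⟨K₀, h.p2.two.eq_other mt.m' hK e hL e' ▸ mt'⟩⟩
    · exact ⟨1, fun K hK e' => (e ⟨K, hK, e'⟩).elim⟩
  have sub : ((sSup C₁ ⊓ sSup C₂ : Subgroup G) : Set G) ⊆ (({1, z, w, z * w} : Finset G) : Set G) := by
    intro e he
    obtain ⟨n, m, hn, rfl, hm⟩ := b1_dec h mt he.2 (b1_EQ h.p1 he.1).2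
    have hm' : m = 1 ∨ m = w := by
      rcases hm with rfl | ⟨K, hK, e', hm⟩
      · exact Or.inl rfl
      · obtain ⟨K₀, mt'⟩ := hw K hK e'
        exact hm K₀ w mt'
    rcases hn with rfl | rfl <;> rcases hm' with rfl | rfl <;> simp
  calc _ = ((sSup C₁ ⊓ sSup C₂ : Subgroup G) : Set G).ncard := rfl
    _ ≤ (({1, z, w, z * w} : Finset G) : Set G).ncard := Set.ncard_le_ncard sub (Set.toFinite _)
    _ ≤ 4 := by rw [Set.ncard_coe_finset]; exact Finset.card_le_four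

/-- an element of odd order permuting both sets of components centralizes them. -/
theorem One.odd_cent (h : One T X₁ X₂ C₁ C₂) {g : G} (h1 : Pm C₁ g) (h2 : Pm C₂ g) (ho : Odd (orderOf g)) :
    g ∈ 𝐂(sSup C₁) := by
  refine mem_cent_sSup.2 fun N hN => ?_
  obtain ⟨N', z, mt⟩ := h.m1 N hN
  have hn := Pm.odd h.p1.two h1 ho hN
  exact mt.d.f.odd_cent ho hn (b1_zm mt.d).1 mt.d.z1
    (b1_fix mt.d hn (Pm.odd h.p2.two h2 ho mt.m'))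

end H16Q
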