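import Mathlib
import Cfsg.Agent.Base
import Cfsg.Agent.Lib.QZ.B1

/-!
Critical distance one: the structure of the parabolics.
-/

set_option autoImplicit false
set_option linter.unusedSectionVars false
set_option linter.unusedVariables false

namespace H16Q

open Subgroup H69 H70 Cfsg
open scoped commutatorElement Pointwise

variable {G : Type*} [Group G] [Finite G]

variable {T X X₁ X₂ H M R : Subgroup G} {C C₁ C₂ : Set (Subgroup G)}

namespace B2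

variable (h : One T X₁ X₂ C₁ C₂)
include h

theorem EQ : sSup C₁ ≤ Qc T C₁ := sSup_le fun N hN => h.p1.leQ N hN

theorem ET : sSup C₁ ≤ T := (EQ h).trans inf_le_left

theorem cc : ∀ A ∈ C₁, ∀ B ∈ C₁, A ≤ 𝐂(B) := fun A hA B hB =>
  ((h.p1.leQ A hA).trans inf_le_right).trans (centralizer_anti (le_sSup hB))

theorem tE : T ≤ 𝐍(sSup C₁) := fun t ht => (h.p1.tperm t ht).norm_sSup

theorem XE : X₁ ≤ 𝐍(sSup C₁) := fun x hx => (Pm.of_norm fun N hN => h.p1.Xn N hN hx).norm_sSup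

theorem Qcomm {a b : G} (ha : a ∈ Qc T C₁) (hb : b ∈ Qc T C₁) : a * b = b * a :=
  congrArg Subtype.val (h.ea.1.is_comm.comm (⟨a, ha⟩ : Qc T C₁) ⟨b, hb⟩)

theorem Qsq {a : G} (ha : a ∈ Qc T C₁) : a * a = 1 := by
  rw [← pow_two]; exact h.ea.2 a ha

theorem QQ : Qc T C₁ ≤ 𝐂(Qc T C₁) := fun a ha b hb => Qcomm h hb ha

theorem cmE : ⁅Qc T C₁, sSup C₂⁆ ≤ sSup C₁ := by
  rw [h.Q_eq]
  refine commutator_sup_le_left le_normalizer ((inf_le_left.trans inf_le_left).trans (tE h))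
    (commutator_le_left_of_le_normalizer ((ET h.symm).trans (tE h))) ?_
  rw [commutator_eq_bot_of_le_centralizer (inf_le_right.trans inf_le_right)]
  exact bot_le

theorem cm : ⁅Qc T C₁, X₁⁆ ≤ sSup C₁ := by
  have h1 : sSup C₂ ≤ X₁ ⊔ T := (ET h.symm).trans le_sup_right
  rcases h.p1.gen (ncl (sSup C₂) (X₁ ⊔ T)) (ncl_le_self h1) (le_normalizer_ncl _ _) with e | e
  · exact (commutator_mono le_rfl e).trans (comm_ncl_le (cmE h) ((ET h.symm).trans (tE h))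
      (sup_le (XE h) (tE h)) (sup_le h.p1.XQ h.p1.tQ))
  · obtain ⟨N, hN⟩ := h.p1.ne
    obtain ⟨N', z, m⟩ := h.m1 N hN
    exact absurd (le_centralizer_iff.1 ((((le_sSup m.m').trans (le_ncl _ _)).trans e).trans
      (centralizer_anti (le_sSup hN)))) m.d.nc

theorem TX : T ⊓ X₁ = sSup C₁ := le_antisymm (h.p1.s2.trans (cm h)) (le_inf (ET h) h.p1.EX)

theorem cjq {x q : G} (hx : x ∈ X₁) (hq : q ∈ Qc T C₁) : ∃ e ∈ sSup C₁, x * q * x⁻¹ = e * q := by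
  refine ⟨⁅q, x⁆⁻¹, inv_mem (cm h (commutator_mem_commutator hq hx)), ?_⟩
  rw [commutatorElement_def]; group

theorem cX : X₁ ⊓ 𝐂(sSup C₁) ≤ sSup C₁ := by
  have pQ : IsPGroup 2 (Qc T C₁) := h.qs.syl.isP.to_inf_left
  refine (le_inf ((h.p1.syl _ (inf_le_left.trans le_sup_left) (H69.isPGroup_iff_mem.2 fun c hc => ?_)
    inf_le_right).trans inf_le_left) inf_le_left).trans (TX h).le
  have : c * c ∈ Qc T C₁ := h.p1.cQ fun q hq => by
    obtain ⟨e, he, e1⟩ := cjq h hc.1 hq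
    have e2 : c * e * c⁻¹ = e := conj_eq_of_mem_centralizer hc.2 he
    have e3 : c * c * q * (c * c)⁻¹ = q := by
      calc _ = c * (c * q * c⁻¹) * c⁻¹ := by group
        _ = (c * e * c⁻¹) * (c * q * c⁻¹) := by
            conv_lhs => rw [e1]
            group
        _ = q := by rw [e2, e1, ← mul_assoc, Qsq h (EQ h he), one_mul]
    exact (mul_inv_eq_iff_eq_mul.1 e3).symm
  exact ⟨2, by rw [show (2 : ℕ) ^ 2 = 2 * 2 from rfl, pow_mul, pow_two c, pow_two, Qsq h this]⟩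

theorem cXQ {c : G} (hc : c ∈ X₁) (h2 : ∀ N ∈ C₁, c ∈ 𝐂(N)) {q : G} (hq : q ∈ Qc T C₁) : Commute c q :=
  Qcomm h (EQ h (cX h ⟨hc, mem_cent_sSup.2 h2⟩)) hq

theorem step {N : Subgroup G} (hN : N ∈ C₁) : ∃ x ∈ X₁, Fpf N x ∧ (∀ M ∈ C₁, M ≠ N → x ∈ 𝐂(M)) ∧
    ∀ q ∈ Qc T C₁, ∃ a ∈ N, Commute x (a * q) := by
  obtain ⟨x, hx, x1, x2⟩ := h.p1.full N hN
  have f := h.p1.even N hN x hx x1
  have n4 := h.p1.four N hN
  refine ⟨x, hx, f, x2, fun q hq => ?_⟩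
  obtain ⟨e, he, e1⟩ := cjq h hx hq
  obtain ⟨n, hn, m, hm, rfl⟩ := h.p1.two.mem_sSup (cc h) hN he
  have mm : m ∈ Qc T C₁ ∧ x * m * x⁻¹ = m := by
    rcases hm with rfl | ⟨M, hM, ne, hm⟩
    · exact ⟨one_mem _, by group⟩
    · exact ⟨h.p1.leQ M hM hm, conj_eq_of_mem_centralizer (x2 M hM ne) hm⟩
  have c3 : Commute (x ^ 3) q := cXQ h (pow_mem hx 3) (fun K hK => by
    by_cases e : K = N
    · rw [e]; exact f.cube n4
    · exact pow_mem (x2 K hK e) 3) hq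
  have n1 := conj_mem_of_mem_normalizer f.norm hn
  have n2 := conj_mem_of_mem_normalizer f.norm n1
  have pr := f.prod n4 hn
  have NQ := h.p1.leQ N hN
  have m1 : m = 1 := by
    have a1 : x * (x * q * x⁻¹) * x⁻¹ = (x * n * x⁻¹) * n * q := by
      calc _ = (x * n * x⁻¹) * (x * m * x⁻¹) * (x * q * x⁻¹) := by
            conv_lhs => rw [e1]
            group
        _ = (x * n * x⁻¹) * (m * n) * m * q := by rw [mm.2, e1]; group
        _ = (x * n * x⁻¹) * n * (m * m) * q := by rw [Qcomm h mm.1 (NQ hn)]; group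
        _ = _ := by rw [Qsq h mm.1, mul_one]
    have a2 : x ^ 3 * q * (x ^ 3)⁻¹ =
        (x * (x * n * x⁻¹) * x⁻¹) * (x * n * x⁻¹) * n * m * q := by
      calc _ = x * (x * (x * q * x⁻¹) * x⁻¹) * x⁻¹ := by rw [pow_three]; group
        _ = (x * (x * n * x⁻¹) * x⁻¹) * (x * n * x⁻¹) * (x * q * x⁻¹) := by rw [a1]; group
        _ = _ := by rw [e1]; group
    rw [c3.eq, mul_inv_cancel_right] at a2
    generalize x * (x * n * x⁻¹) * x⁻¹ = n'' at n2 pr a2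
    generalize x * n * x⁻¹ = n' at n1 pr a2
    have a3 : n'' * n' * n = 1 := by
      rw [n4.comm (mul_mem n2 n1) hn, n4.comm n2 n1, ← mul_assoc, pr]
    rw [a3, one_mul] at a2
    exact (mul_eq_right.1 a2.symm)
  obtain ⟨a, ha, e2⟩ := f.surj n4 hn
  refine ⟨a, ha, mul_inv_eq_iff_eq_mul.1 ?_⟩
  calc x * (a * q) * x⁻¹ = (x * a * x⁻¹ * a⁻¹) * a * (x * q * x⁻¹) := by group
    _ = n * (a * n) * q := by rw [e2, e1, m1]; group
    _ = (n * n) * a * q := by rw [n4.comm ha hn]; group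
    _ = a * q := by rw [n4.sq hn, one_mul]

omit h in
theorem red {N : Subgroup G} (n4 : Four N) {x y : G} (f : Fpf N x) (hy : y ∈ 𝐂(N) ∨ Fpf N y) :
    ∃ k : ℤ, y * x ^ k ∈ 𝐂(N) := by
  rcases hy with e | e
  · exact ⟨0, by simpa using e⟩
  · rcases e.mul n4 f with e | e
    · exact ⟨1, by simpa using e⟩
    · exact ⟨-1, by simpa using e⟩

theorem ev {N : Subgroup G} (hN : N ∈ C₁) {y : G} (hy : y ∈ X₁) : y ∈ 𝐂(N) ∨ Fpf N y :=
  (em _).imp id (h.p1.even N hN y hy)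

theorem dec {q : G} (hq : q ∈ Qc T C₁) : ∃ e ∈ sSup C₁, ∃ y ∈ Yc T X₁ C₁, q = e * y := by
  suffices ∃ e ∈ sSup C₁, ∀ g ∈ X₁, Commute g (e * q) by
    obtain ⟨e, he, c⟩ := this
    exact ⟨e⁻¹, inv_mem he, e * q, ⟨mul_mem (EQ h he) hq, fun g hg => c g hg⟩, by group⟩
  rcases h.p1.two.cases h.p1.ne with ⟨N, e⟩ | ⟨N, M, ne, e⟩
  · have hN : N ∈ C₁ := by rw [e]; rfl
    obtain ⟨x, hx, f, -, x3⟩ := step h hN
    obtain ⟨a, ha, c⟩ := x3 q hq
    refine ⟨a, le_sSup hN ha, fun g hg => ?_⟩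
    obtain ⟨k, hk⟩ := red (h.p1.four N hN) f (ev h hN hg)
    have := (cXQ h (mul_mem hg (zpow_mem hx k)) (fun K hK => by
      rw [e] at hK
      rw [show K = N from hK]; exact hk) (mul_mem (h.p1.leQ N hN ha) hq)).mul_left (c.zpow_left (-k))
    simpa using this
  · have hN : N ∈ C₁ := by rw [e]; exact Or.inl rfl
    have hM : M ∈ C₁ := by rw [e]; exact Or.inr rfl
    obtain ⟨x, hx, f, x2, x3⟩ := step h hN
    obtain ⟨y, hy, f', y2, y3⟩ := step h hM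
    obtain ⟨a, ha, c⟩ := x3 q hq
    have aq := mul_mem (h.p1.leQ N hN ha) hq
    obtain ⟨b, hb, c'⟩ := y3 _ aq
    have c'' : Commute x (b * (a * q)) := Commute.mul_right (x2 M hM ne.symm b hb).symm c
    refine ⟨b * a, mul_mem (le_sSup hM hb) (le_sSup hN ha), fun g hg => ?_⟩
    rw [mul_assoc]
    obtain ⟨k, hk⟩ := red (h.p1.four N hN) f (ev h hN hg)
    have g1 := mul_mem hg (zpow_mem hx k)
    obtain ⟨l, hl⟩ := red (h.p1.four M hM) f' (ev h hM g1)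
    have := ((cXQ h (mul_mem g1 (zpow_mem hy l)) (fun K hK => by
      rw [e] at hK
      rcases hK with rfl | hK
      · exact mul_mem hk (zpow_mem (y2 K hN ne) l)
      · rw [show K = M from hK]; exact hl) (mul_mem (h.p1.leQ M hM hb) aq)).mul_left
        (c'.zpow_left (-l))).mul_left (c''.zpow_left (-k))
    simpa using this

theorem QE : Qc T C₁ = sSup C₁ ⊔ Yc T X₁ C₁ :=
  le_antisymm (fun q hq => let ⟨e, he, y, hy, e1⟩ := dec h hq; e1 ▸ mul_mem_sup he hy)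
    (sup_le (EQ h) inf_le_left)

theorem EY : sSup C₁ ⊓ Yc T X₁ C₁ = ⊥ := by
  refine eq_bot_iff.2 fun e he => mem_bot.2 ?_
  obtain ⟨N, hN⟩ := h.p1.ne
  obtain ⟨n, hn, m, hm, rfl⟩ := h.p1.two.mem_sSup (cc h) hN he.1
  obtain ⟨x, hx, f, x2, -⟩ := step h hN
  have c : ∀ g ∈ X₁, g * (n * m) * g⁻¹ = n * m := fun g hg => mul_inv_eq_iff_eq_mul.2 (he.2.2 g hg)
  rcases hm with rfl | ⟨M, hM, ne, hm⟩
  · exact f.fix _ (by simpa using hn) (c x hx)
  · have n1 : n = 1 := f.fix n hn (by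
      have := c x hx
      rw [← conj_mul, conj_eq_of_mem_centralizer (x2 M hM ne) hm] at this
      exact mul_right_cancel this)
    obtain ⟨y, hy, f', -⟩ := step h hM
    exact f'.fix _ (by rw [n1, one_mul]; exact hm) (c y hy)

theorem tY : T ≤ 𝐍(Yc T X₁ C₁) := H69.le_normalizer_inf h.p1.tQ (H69.le_normalizer_centralizer h.p1.tX)

theorem YI : Yc T X₁ C₁ ≤ Qc T C₂ := by
  refine le_inf (inf_le_left.trans inf_le_left) (le_centralizer_of_commutator_eq_bot (eq_bot_iff.2 ?_))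
  rw [← EY h]
  exact le_inf ((commutator_mono inf_le_left le_rfl).trans (cmE h))
    (commutator_le_left_of_le_normalizer ((ET h.symm).trans (tY h)))

theorem decI {q : G} (hq : q ∈ Qc T C₁ ⊓ Qc T C₂) :
    ∃ e ∈ sSup C₁ ⊓ sSup C₂, ∃ y ∈ Yc T X₁ C₁, q = e * y := by
  obtain ⟨e, he, y, hy, rfl⟩ := dec h hq.1
  exact ⟨e, ⟨he, h.symm.cE ⟨he, ((mul_mem_cancel_right (YI h hy)).1 hq.2).2⟩⟩, y, hy, rfl⟩

theorem IR : Qc T C₁ ⊓ Qc T C₂ = (sSup C₁ ⊓ sSup C₂) ⊔ Yc T X₁ C₁ :=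
  le_antisymm (fun q hq => let ⟨e, he, y, hy, e1⟩ := decI h hq; e1 ▸ mul_mem_sup he hy)
    (sup_le (inf_le_inf (EQ h) (EQ h.symm)) (le_inf inf_le_left (YI h)))

theorem YY : Yc T X₁ C₁ ⊓ Yc T X₂ C₂ = ⊥ := by
  have t := H69.le_normalizer_inf (tY h) (tY h.symm)
  exact h.core _ (h.qs.syl.isP.to_le ((inf_le_left.trans inf_le_left).trans inf_le_left))
    (sup_le (le_normalizer_of_le_centralizer (le_centralizer_iff.1 (inf_le_left.trans inf_le_right))) t)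
    (sup_le (le_normalizer_of_le_centralizer (le_centralizer_iff.1 (inf_le_right.trans inf_le_right))) t)

theorem t0 {t : G} (ht : t ∈ T) {N : Subgroup G} (hN : N ∈ C₁) (hn : t ∈ 𝐍(N)) :
    t ∈ sSup C₁ ⊔ sSup C₂ ⊔ Yc T X₁ C₁ := by
  have := h.t0_le ht hN hn
  rwa [QE h, ← sup_assoc, sup_comm (sSup C₂)] at this

theorem B0 : 𝐁(T) = sSup C₁ ⊔ sSup C₂ ⊔ Yc T X₁ C₁ := by
  obtain ⟨N, hN⟩ := h.p1.ne
  have h1 : 𝐁(T) ≤ sSup C₁ ⊔ sSup C₂ ⊔ Yc T X₁ C₁ := fun b hb => t0 h (B_le T hb) hN (h.p1.Bn N hN hb)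
  refine le_antisymm h1 (sup_le (sup_le ((TX h).ge.trans h.p1.XB) ((TX h.symm).ge.trans h.p2.XB)) ?_)
  rw [B_def]
  refine le_inf (inf_le_left.trans inf_le_left) (le_centralizer_iff.1
    ((((oz2_le _).trans (J_le_B T)).trans h1).trans (sup_le (sup_le ?_ ?_) ?_)))
  · exact le_centralizer_iff.1 (inf_le_left.trans inf_le_right)
  · exact le_centralizer_iff.1 ((YI h).trans inf_le_right)
  · exact (inf_le_left.trans (QQ h)).trans (centralizer_anti inf_le_left)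

theorem DY : (sSup C₁ ⊔ sSup C₂) ⊓ Yc T X₁ C₁ = ⊥ := by
  refine eq_bot_iff.2 fun d hd => ?_
  obtain ⟨a, ha, b, hb, rfl⟩ := (mem_sup_of_le_normalizer_left ((ET h.symm).trans (tE h))).1 hd.1
  rw [← EY h]
  exact ⟨mul_mem ha (h.cE ⟨hb, ((mul_mem_cancel_left (EQ h ha)).1 hd.2.1).2⟩), hd.2⟩

theorem cardY : Nat.card (Yc T X₁ C₁) ≤ Nat.card (sSup C₁ ⊓ sSup C₂ : Subgroup G) := by
  have : ∀ y : Yc T X₁ C₁, ∃ r : (sSup C₁ ⊓ sSup C₂ : Subgroup G), (r : G)⁻¹ * y ∈ Yc T X₂ C₂ := fun y => by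
    obtain ⟨e, he, u, hu, e1⟩ := decI h.symm (q := y) ⟨YI h y.2, y.2.1⟩
    exact ⟨⟨e, he.2, he.1⟩, by rw [e1]; simpa using hu⟩
  choose f hf using this
  refine Nat.card_le_card_of_injective f fun y y' e => Subtype.ext ?_
  have h1 := mul_mem (inv_mem (hf y)) (hf y')
  rw [e, show (((f y' : G))⁻¹ * y)⁻¹ * ((f y' : G)⁻¹ * y') = (y : G)⁻¹ * y' by group] at h1
  have h2 : (y : G)⁻¹ * y' ∈ Yc T X₁ C₁ := mul_mem (inv_mem y.2) y'.2
  exact inv_mul_eq_one.1 (mem_bot.1 ((YY h).le ⟨h2, h1⟩))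

theorem side : Side T X₁ X₂ C₁ C₂ :=
  ⟨h.ea, QE h, EY h, YI h, IR h, YY h, B0 h, fun t ht N hN hn => (B0 h).ge (t0 h ht hN hn), TX h, cX h, cm h,
    tY h, DY h, h.cardR, cardY h⟩

end B2

theorem One.str (h : One T X₁ X₂ C₁ C₂) : Str T X₁ X₂ C₁ C₂ := ⟨h, B2.side h, B2.side h.symm⟩

end H16Q
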