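import Mathlib
import Cfsg.Agent.Base
import Cfsg.Agent.Lib.QZ.B1

/-!
The centralizer of `Ω₁ Z(T)` is `T`.
-/

set_option autoImplicit false
set_option linter.unusedSectionVars false
set_option linter.unusedVariables false

namespace H16Q

open Subgroup H69 H70 Cfsg
open scoped commutatorElement Pointwise

variable {G : Type*} [Group G] [Finite G]

variable {T X X₁ X₂ H M R : Subgroup G} {C C₁ C₂ : Set (Subgroup G)}

theorem CT_le2 (h : Str T X₁ X₂ C₁ C₂) {D : Subgroup G} (hE : sSup C₁ ≤ D) (hZ : 𝐙(T) ≤ D) :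
    Le2 D (Qc T C₁) := by
  have ea := h.s1.ea
  have YQ : Yc T X₁ C₁ ≤ Qc T C₁ := inf_le_left
  have hY : Le2 D (Yc T X₁ C₁) := by
    by_cases hb : Yc T X₁ C₁ = ⊥
    · exact le2_of_le (hb ▸ bot_le)
    obtain ⟨ζ, hζ, z1⟩ := exists_ne_one_of_ne_bot (H69.inf_centralizer_ne_bot
      (h.qs.syl.isP.to_le (YQ.trans inf_le_left)) h.qs.syl.isP h.s1.tY hb)
    have z2 := ea.2 ζ (YQ hζ.1)
    have zl : zpowers ζ ≤ D ⊓ Yc T X₁ C₁ :=
      zpowers_le.2 ⟨hZ (mem_oz2.2 ⟨(YQ hζ.1).1, hζ.2, z2⟩), hζ.1⟩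
    have c1 := card_le_of_le zl
    rw [card_zpowers_of_sq z1 z2] at c1
    have c2 := h.s1.cardY.trans h.s1.cardR
    exact le2_of_card_le (by omega)
  have hn : Yc T X₁ C₁ ≤ 𝐍(sSup C₁) := (YQ.trans inf_le_right).trans (centralizer_le_normalizer _)
  intro x hx x' hx' nx nx'
  rw [h.s1.QE] at hx hx'
  obtain ⟨e, he, y, hy, rfl⟩ := (H69.mem_sup_of_le_normalizer_left hn).1 hx
  obtain ⟨e', he', y', hy', rfl⟩ := (H69.mem_sup_of_le_normalizer_left hn).1 hx'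
  have := mul_mem (mul_mem (hE he) (hE he'))
    (hY y hy y' hy' (fun c => nx (mul_mem (hE he) c)) fun c => nx' (mul_mem (hE he') c))
  rwa [mul_assoc, ← mul_assoc e', (YQ hy).2 e' he', mul_assoc, ← mul_assoc] at this

theorem CT_odd (h : Str T X₁ X₂ C₁ C₂) {ρ : G} (hρ : ρ ∈ 𝐂(𝐙(T))) (ho : Odd (orderOf ρ)) : ρ = 1 := by
  have TH : T ≤ 𝐍(sSup C₁) := fun t ht => (h.p1.tperm t ht).norm_sSup
  have XH : X₁ ≤ 𝐍(sSup C₁) := fun x hx => (Pm.of_norm fun N hN => h.p1.Xn N hN hx).norm_sSup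
  have ρH : ρ ∈ 𝐍(sSup C₁) := (h.c1 ρ hρ).norm_sSup
  have EQ : sSup C₁ ≤ Qc T C₁ := sSup_le h.p1.leQ
  have EA : sSup C₁ ≤ 𝐎(𝐍(sSup C₁)) :=
    le_pCoreOf (h.qs.syl.isP.to_le (EQ.trans inf_le_left)) le_normalizer le_rfl
  have hA := isPGroup_pCoreOf 2 𝐍(sSup C₁)
  have nA := le_normalizer_pCoreOf 2 𝐍(sSup C₁)
  have AT : 𝐎(𝐍(sSup C₁)) ≤ T := h.qs.syl.le_of_le_normalizer hA le_top (TH.trans nA)
  have AQ : 𝐎(𝐍(sSup C₁)) ≤ Qc T C₁ :=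
    h.p1.OP ▸ le_pCoreOf hA (AT.trans le_sup_right) ((sup_le XH TH).trans nA)
  have cE := h.toOne.odd_cent (h.c1 ρ hρ) (h.c2 ρ hρ) ho
  have l2 : Le2 (centralizer {ρ}) (Qc T C₁) :=
    CT_le2 h (fun e he => mem_centralizer_singleton_iff.2 (cE e he))
      fun z hz => mem_centralizer_singleton_iff.2 (hρ z hz)
  have cA : ρ ∈ 𝐂(𝐎(𝐍(sSup C₁))) := fun a ha => by
    by_contra hc
    have ha' : ρ * a * ρ⁻¹ ∈ 𝐎(𝐍(sSup C₁)) := (mem_normalizer_iff.1 (nA ρH) a).1 ha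
    have c1 := mem_centralizer_singleton_iff.1 (l2.mul_inv (AQ ha') (AQ ha) (fun c => hc (by
      have := mem_centralizer_singleton_iff.1 c
      rwa [inv_mul_cancel_right, mul_right_inj, eq_comm, mul_inv_eq_iff_eq_mul, eq_comm] at this)) fun c => hc (mem_centralizer_singleton_iff.1 c))
    have c2 := h.s1.ea.2 _ (AQ (mul_mem ha' (inv_mem ha)))
    obtain ⟨c, ec⟩ : ∃ c, c = ρ * a * ρ⁻¹ * a⁻¹ := ⟨_, rfl⟩
    have e : ρ * a = c * a * ρ := by rw [ec]; group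
    rw [← ec] at c1 c2
    have e2 : ρ ^ 2 ∈ centralizer {a} := mem_centralizer_singleton_iff.2 (by
      calc ρ ^ 2 * a = ρ * (ρ * a) := by rw [sq, mul_assoc]
        _ = (ρ * c) * a * ρ := by rw [e]; group
        _ = c * (ρ * a) * ρ := by rw [← c1]; group
        _ = c ^ 2 * a * ρ ^ 2 := by rw [e, sq, sq]; group
        _ = a * ρ ^ 2 := by rw [c2, one_mul])
    exact hc (mem_centralizer_singleton_iff.1 (zpowers_le.2 e2
      (mem_zpowers_pow_iff.2 (Nat.coprime_two_left.2 ho)))).symm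
  have hb : 𝐎(𝐍(sSup C₁)) ≠ ⊥ := fun c => h.p1.ne_bot (le_bot_iff.1 (c ▸ EA))
  obtain ⟨k, hk⟩ := H69.isPGroup_iff_mem.1 hA ρ (h.qs.chr _ TH hb ⟨ρH, cA⟩)
  exact orderOf_eq_one_iff.1 (Nat.Coprime.eq_one_of_dvd
    (Nat.Coprime.pow_right k (Nat.coprime_two_right.2 ho)) (orderOf_dvd_of_pow_eq_one hk))

theorem Str.ct (h : Str T X₁ X₂ C₁ C₂) : 𝐂(𝐙(T)) = T := by
  refine h.qs.syl.max _ (le_cent_oz2 T) le_top (H69.isPGroup_iff_mem.2 fun g hg => ?_)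
  obtain ⟨j, r, hr, ej⟩ := Nat.exists_eq_two_pow_mul_odd (orderOf_pos g).ne'
  refine ⟨j, CT_odd h (pow_mem hg _) ?_⟩
  rw [orderOf_pow_of_dvd (by positivity) ⟨r, ej⟩, ej, Nat.mul_div_cancel_left _ (by positivity)]
  exact hr

end H16Q
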