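import Mathlib
import Cfsg.Agent.Base
import Cfsg.Agent.Lib.QZ.F4

/-!
Basic properties of the geometry: centres, walks.
-/

set_option autoImplicit false
set_option linter.unusedSectionVars false
set_option linter.unusedVariables false

namespace H16Q

open Subgroup H69 H70 Cfsg MulAction
open scoped commutatorElement Pointwise

variable {G : Type*} [Group G] [Finite G] {V : Type*} [MulAction G V]

private theorem g0_cc {N : Subgroup G} {g n : G} (hg : g ∈ 𝐂(N)) (hn : n ∈ N) : g * n * g⁻¹ = n := by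
  have := mem_centralizer_iff.1 hg n hn
  rw [← this]; group

private theorem g0_cz {g z : G} : g ∈ 𝐂(zpowers z) ↔ g * z * g⁻¹ = z :=
  ⟨fun h => g0_cc h (mem_zpowers z), fun h => (zpowers_le).1 (le_centralizer_iff.1 ((zpowers_le).2
    (mem_centralizer_iff.2 fun k hk => by
      obtain ⟨i, rfl⟩ := hk
      exact (Commute.zpow_left (mul_inv_eq_iff_eq_mul.1 h) i).eq)))⟩

private theorem g0_ne {g a : G} (h : a ≠ 1) : g * a * g⁻¹ ≠ 1 := fun e => h (by simpa using e)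

namespace Geo

variable {Γ : Geo G V} {v w : V} {N N' M A : Subgroup G} {a c g m x y z z' : G} {b n : ℕ} {δ : ℕ → V}

theorem pm (hg : g ∈ stabilizer G v) : Pm (Γ.Cm v) g := fun N hN => by
  have := Γ.Cm_smul g hN
  rwa [mem_stabilizer_iff.1 hg] at this

theorem Cm_smul_inv (h : M ∈ Γ.Cm (g • v)) : M ^ᶜ g⁻¹ ∈ Γ.Cm v := by
  have := Γ.Cm_smul g⁻¹ h
  rwa [inv_smul_smul] at this

theorem E_smul (Γ : Geo G V) (g : G) (v : V) : Γ.E (g • v) = Γ.E v ^ᶜ g := le_antisymm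
  (sSup_le fun M hM => by rw [← cj_inv_cj M g]; exact cj_mono g (le_sSup (Cm_smul_inv hM)))
  (cj_le_iff.2 (sSup_le fun N hN => cj_le_iff.1 (le_sSup (Γ.Cm_smul g hN))))

theorem stab_X (Γ : Geo G V) (v : V) : stabilizer G v ≤ 𝐍(Γ.X v) := fun g hg =>
  cj_eq_self_iff.1 (by rw [← Γ.X_smul, mem_stabilizer_iff.1 hg])

theorem stab_Q (Γ : Geo G V) (v : V) : stabilizer G v ≤ 𝐍(Γ.Q v) := fun g hg =>
  cj_eq_self_iff.1 (by rw [← Γ.Q_smul, mem_stabilizer_iff.1 hg])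

theorem stab_E (Γ : Geo G V) (v : V) : stabilizer G v ≤ 𝐍(Γ.E v) := fun g hg =>
  cj_eq_self_iff.1 (by rw [← Γ.E_smul, mem_stabilizer_iff.1 hg])

theorem le_E (h : N ∈ Γ.Cm v) : N ≤ Γ.E v := le_sSup h

theorem E_le_Q (Γ : Geo G V) (v : V) : Γ.E v ≤ Γ.Q v := sSup_le fun N hN => Γ.leQ hN

theorem Q_le_cE (Γ : Geo G V) (v : V) : Γ.Q v ≤ 𝐂(Γ.E v) := le_cent_sSup.2 fun N hN => Γ.Qc hN

theorem E_ea (Γ : Geo G V) (v : V) : IsElementaryAbelian 2 (Γ.E v) := ea_sSup (fun N hN => Γ.four hN)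
  fun A hA B hB => (Γ.leQ hA).trans (Γ.Qc hB)

theorem cm_comm (h : N ∈ Γ.Cm v) (h' : M ∈ Γ.Cm v) : N ≤ 𝐂(M) := (Γ.leQ h).trans (Γ.Qc h')

/-- the element form of `syl`. -/
theorem mem_Q (hg : g ∈ stabilizer G v) (hA : IsPGroup 2 A) (hgA : g ∈ A) (hc : ∀ N ∈ Γ.Cm v, g ∈ 𝐂(N)) :
    g ∈ Γ.Q v := Γ.syl v (zpowers g) ((zpowers_le).2 hg) (hA.to_le ((zpowers_le).2 hgA))
  (fun N hN => (zpowers_le).2 (hc N hN)) (mem_zpowers g)

theorem norm_of_fix (hg : g ∈ stabilizer G v) (hN : N ∈ Γ.Cm v) (hz : z ∈ N) (hz1 : z ≠ 1)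
    (hf : g * z * g⁻¹ ∈ N) : g ∈ 𝐍(N) := Pm.of_fix (Γ.disj v) (pm hg) hN hz hz1 hf

theorem cube (hx : x ∈ Γ.X v) (hN : N ∈ Γ.Cm v) : x ^ 3 ∈ 𝐂(N) := by
  by_cases c : x ∈ 𝐂(N)
  · exact pow_mem c 3
  · exact (Γ.even hN hx c).cube (Γ.four hN)

theorem cent_of_fix (hx : x ∈ Γ.X v) (hN : N ∈ Γ.Cm v) (hz : z ∈ N) (hz1 : z ≠ 1) (hf : x * z * x⁻¹ = z) :
    x ∈ 𝐂(N) := by
  by_contra c
  exact hz1 ((Γ.even hN hx c).fix z hz hf)

theorem eq_one_of_cX (hz : z ∈ Γ.E v) (hc : Γ.X v ≤ 𝐂(zpowers z)) : z = 1 := by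
  obtain ⟨N, hN⟩ := Γ.ne v
  obtain ⟨n, hn, m, hm, rfl⟩ := (Γ.two v).mem_sSup (fun A hA B hB => cm_comm hA hB) hN hz
  obtain ⟨x, hx, xc, xo⟩ := Γ.full hN
  have e := g0_cz.1 (hc hx)
  have fm : x * m * x⁻¹ = m := by
    rcases hm with rfl | ⟨M, hM, hne, hm⟩
    · group
    · exact g0_cc (xo M hM hne) hm
  have n1 : n = 1 := (Γ.even hN hx xc).fix n hn (by
    have : x * n * x⁻¹ * m = n * m := by rw [← e]; nth_rewrite 1 [← fm]; group
    exact mul_right_cancel this)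
  subst n1
  rw [one_mul] at hc ⊢
  rcases hm with rfl | ⟨M, hM, hne, hm⟩
  · rfl
  · obtain ⟨y, hy, yc, -⟩ := Γ.full hM
    exact (Γ.even hM hy yc).fix m hm (g0_cz.1 (hc hy))

theorem stab_le (h : Γ.adj v w) : stabilizer G v ≤ Γ.X v ⊔ stabilizer G v ⊓ stabilizer G w := fun g hg => by
  have h1 := Γ.adj_smul g h
  rw [mem_stabilizer_iff.1 hg] at h1
  obtain ⟨x, hx, e⟩ := Γ.xtr h h1
  have : g = x * (x⁻¹ * g) := by group
  rw [this]
  refine mul_mem (mem_sup_left hx) (mem_sup_right (mem_inf.2 ⟨mul_mem (inv_mem (Γ.X_le v hx)) hg, ?_⟩))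
  change (x⁻¹ * g) • w = w
  rw [mul_smul, ← e, inv_smul_smul]

theorem adj_X (h : Γ.adj v w) (hx : x ∈ Γ.X v) : Γ.adj v (x • w) := by
  have := Γ.adj_smul x h
  rwa [mem_stabilizer_iff.1 (Γ.X_le v hx)] at this

theorem cen_ex (h : Γ.adj v w) (hN : N ∈ Γ.Cm v) : ∃ z, Γ.Cen v w N z := by
  obtain ⟨z, h1, h2, h3⟩ := (Γ.four hN).two_fix ((Γ.Q_p w).to_le inf_le_left) (Γ.On h hN)
  exact ⟨z, h, hN, h1, h2, h3⟩

theorem Cen.uniq (h : Γ.Cen v w N z) (h' : Γ.Cen v w N z') : z = z' := by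
  by_contra ne
  have c : Γ.Q w ⊓ Γ.X w ≤ 𝐂(N) := fun g hg => (Γ.four h.cm).cent_of_two h.mem h'.mem h.ne h'.ne ne
    (g0_cz.1 (h.cent hg)) (g0_cz.1 (h'.cent hg))
  refine Γ.S h.adj (Γ.syl v _ (inf_le_left.trans (Γ.Q_le' (Γ.symm h.adj))) ((Γ.Q_p w).to_le inf_le_left)
    fun M hM => ?_)
  obtain ⟨s, hs, rfl⟩ := Γ.ctr h.adj h.cm hM
  have := cj_mono s c
  rwa [cj_inf, cj_eq_of_mem_normalizer (Γ.stab_Q w hs.2), cj_eq_of_mem_normalizer (Γ.stab_X w hs.2),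
    cj_centralizer] at this

theorem Cen.smul (h : Γ.Cen v w N z) (g : G) : Γ.Cen (g • v) (g • w) (N ^ᶜ g) (g * z * g⁻¹) := ⟨Γ.adj_smul g h.adj,
  Γ.Cm_smul g h.cm, cj_mem g h.mem, g0_ne h.ne, by
    rw [Γ.Q_smul, Γ.X_smul, ← cj_inf, ← cj_zpowers, ← cj_centralizer]; exact cj_mono g h.cent⟩

/-- moving the neighbour by an element of `X v`. -/
theorem Cen.smul_X (h : Γ.Cen v w N z) (hx : x ∈ Γ.X v) : Γ.Cen v (x • w) N (x * z * x⁻¹) := by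
  have := h.smul x
  rwa [mem_stabilizer_iff.1 (Γ.X_le v hx), cj_eq_of_mem_normalizer (Γ.Xn h.cm hx)] at this

theorem Cen.fix (h : Γ.Cen v w N z) (h1 : g ∈ stabilizer G v) (h2 : g ∈ stabilizer G w) (h3 : g ∈ 𝐍(N)) :
    g * z * g⁻¹ = z := by
  have := h.smul g
  rw [mem_stabilizer_iff.1 h1, mem_stabilizer_iff.1 h2, cj_eq_of_mem_normalizer h3] at this
  exact this.uniq h

theorem Cen.comm_le (h : Γ.Cen v w N z) (h1 : A ≤ stabilizer G v) (h2 : A ≤ stabilizer G w) (h3 : A ≤ 𝐍(N)) :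
    ⁅N, A⁆ ≤ zpowers z := (Γ.four h.cm).comm_le h3 h.mem h.ne
  fun a ha => g0_cz.2 (h.fix (h1 ha) (h2 ha) (h3 ha))

theorem cen_of_trv (h : Γ.adj v w) (hN : N ∈ Γ.Cm v) (h1 : a ∈ stabilizer G v) (h2 : a ∈ stabilizer G w)
    (ha : Trv N a z) : Γ.Cen v w N z := by
  obtain ⟨y, hy⟩ := cen_ex h hN
  rcases ha.uniq (Γ.four hN) hy.mem (hy.fix h1 h2 ha.norm) with e | e
  · exact absurd e hy.ne
  · exact e ▸ hy

/-- an element of `X w` centralizing the components of `w` normalizes `N` and fixes its centre. -/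
theorem Cen.fix_K (h : Γ.Cen v w N z) (hc : c ∈ Γ.X w) (hE : ∀ M ∈ Γ.Cm w, c ∈ 𝐂(M)) :
    c ∈ 𝐍(N) ∧ c * z * c⁻¹ = z := by
  have n := Γ.K (Γ.symm h.adj) hc hE N h.cm
  have k := h.smul c
  rw [mem_stabilizer_iff.1 (Γ.X_le w hc), cj_eq_of_mem_normalizer n] at k
  exact ⟨n, Cen.uniq ⟨h.adj, h.cm, k.mem, k.ne, k.cent⟩ h⟩

/-- with `CX w` the centres at `(v, w)` are the centres at `(x • v, w)`. -/
theorem Cen.move (h : Γ.Cen v w N z) (hX : Γ.CX w) (hx : x ∈ Γ.X w) : Γ.Cen (x • v) w (N ^ᶜ x) z := by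
  have := h.smul x
  rwa [mem_stabilizer_iff.1 (Γ.X_le w hx), g0_cz.1 (hX v N z h hx)] at this

theorem CX.smul (h : Γ.CX v) (g : G) : Γ.CX (g • v) := fun w M m hm => by
  have k := hm.smul g⁻¹
  rw [inv_smul_smul] at k
  have := cj_mono g (h _ _ _ k)
  rwa [← Γ.X_smul, cj_centralizer, cj_zpowers, show g * (g⁻¹ * m * g⁻¹⁻¹) * g⁻¹ = m by group] at this

theorem Path.mono (h : Γ.Path n δ) {k : ℕ} (hk : k ≤ n) : Γ.Path k δ := fun i hi => h i (lt_of_lt_of_le hi hk)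

theorem Path.shift (h : Γ.Path n δ) (hn : 1 ≤ n) (hx : x ∈ Γ.X (δ 0)) : Γ.Path (n + 1) (shift x δ) := fun i hi => by
  cases i with
  | zero => exact Γ.symm (adj_X (h 0 hn) hx)
  | succ i => exact h i (by omega)

theorem Path.rev (h : Γ.Path n δ) : Γ.Path n fun i => δ (n - i) := fun i hi => by
  have := h (n - (i + 1)) (by omega)
  rw [show n - (i + 1) + 1 = n - i by omega] at this
  exact Γ.symm this

theorem near (hb : Γ.Below b) (h : Γ.Path n δ) {i j : ℕ} (hi : i ≤ n) (hj : j ≤ n) (h1 : i < j + b)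
    (h2 : j < i + b) : Γ.E (δ i) ≤ Γ.Q (δ j) := by
  rcases le_total i j with k | k
  · have := hb (j - i) (by omega) (fun k => δ (i + k)) fun k hk => h (i + k) (by omega)
    simpa only [Nat.add_zero, Nat.add_sub_cancel' k] using this
  · have := hb (i - j) (by omega) (fun k => δ (i - k)) fun k hk => by
      have := h (i - (k + 1)) (by omega)
      rw [show i - (k + 1) + 1 = i - k by omega] at this
      exact Γ.symm this
    simpa only [Nat.sub_zero, Nat.sub_sub_self k] using this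

theorem near1 (hb : Γ.Below b) (h2 : 2 ≤ b) (h : Γ.adj v w) : Γ.E v ≤ Γ.Q w := hb 1 (by omega)
  (fun i => if i = 0 then v else w) fun i hi => by
    obtain rfl : i = 0 := by omega
    exact h

theorem near2 (hb : Γ.Below b) (h3 : 3 ≤ b) {u : V} (h : Γ.adj v w) (h' : Γ.adj w u) : Γ.E v ≤ Γ.Q u := hb 2 (by omega)
  (fun i => if i = 0 then v else if i = 1 then w else u) fun i hi => by
    obtain rfl | rfl : i = 0 ∨ i = 1 := by omega
    exacts [h, h']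

theorem below_one (Γ : Geo G V) : Γ.Below 1 := fun m hm δ _ => by
  obtain rfl : m = 0 := by omega
  exact Γ.E_le_Q _

theorem Mat.symm (h : Γ.Mat b δ N N' z) : Γ.Mat b (fun i => δ (b - i)) N' N z := by
  have e : b - (b - 1) = 1 := by have := h.pos; omega
  refine ⟨h.pos, h.bel, h.path.rev, h.c1, ?_, fun e => h.nc (le_centralizer_iff.1 e), ?_, ?_, h.o1, ?_,
    by rw [inf_comm, h.inf]⟩
  · simpa only [Nat.sub_self, e] using h.c0
  · simpa only [Nat.sub_self, Nat.sub_zero] using h.n1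
  · simpa only [Nat.sub_self, Nat.sub_zero] using h.n0
  · simpa only [Nat.sub_self] using h.o0

/-- an element of `N'` outside `⟨z⟩`. -/
theorem Mat.exists_a (h : Γ.Mat b δ N N' z) : ∃ a ∈ N', a ∈ Γ.Q (δ 1) ∧ a ∈ stabilizer G (δ 0) ∧
    Trv N a z ∧ ∀ M ∈ Γ.Cm (δ 0), M ≠ N → a ∈ 𝐂(M) := by
  have := h.pos
  obtain ⟨a, ha, c⟩ := SetLike.not_le_iff_exists.1 fun e : N' ≤ 𝐂(N) => h.nc (le_centralizer_iff.1 e)
  have aE := le_E h.c1.cm ha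
  have aQ : a ∈ Γ.Q (δ 1) := near h.bel h.path le_rfl h.pos (by omega) (by omega) aE
  exact ⟨a, ha, aQ, Γ.Q_le' (Γ.symm h.c0.adj) aQ, ⟨h.n0 N h.c0.cm aE, c, h.c0.mem, h.c0.ne,
    g0_cc ((Γ.four h.c1.cm).le_cent ha) h.c1.mem⟩, fun M hM e => h.o0 M hM e ha⟩

theorem Mat.trv (h : Γ.Mat b δ N N' z) (ha : a ∈ N') (h1 : a ≠ 1) (h2 : a ≠ z) : Trv N a z := ⟨h.n0 N h.c0.cm (le_E h.c1.cm ha),
  fun c => h.nc (le_centralizer_iff.1 ((Γ.four h.c1.cm).le_of_two ha h.c1.mem h1 h.c1.ne h2 c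
    ((Γ.four h.c0.cm).le_cent h.c0.mem))), h.c0.mem, h.c0.ne,
  g0_cc ((Γ.four h.c1.cm).le_cent ha) h.c1.mem⟩

theorem Cov.le (h : Γ.Cov v N M) (ha : Γ.adj v w) (hN : N ∈ Γ.Cm v) (hM : M ∈ Γ.Cm w) (hx : x ∈ Γ.X v)
    (hc : ∀ N' ∈ Γ.Cm v, N' ≠ N → x ∈ 𝐂(N')) : x ∈ 𝐍(M ⊔ Γ.E v) := by
  obtain ⟨c, hcX, cn, cc, co⟩ := h
  have key : ∀ y ∈ Γ.X v, y ∈ 𝐂(N) → (∀ N' ∈ Γ.Cm v, N' ≠ N → y ∈ 𝐂(N')) → y ∈ 𝐍(M ⊔ Γ.E v) :=
    fun y hy y1 y2 => cj_eq_self_iff.1 (by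
      rw [cj_sup, cj_eq_of_mem_normalizer (Γ.stab_E v (Γ.X_le v hy)),
        cj_eq_of_mem_normalizer (Γ.K ha hy (fun K hK => by
          by_cases e : K = N
          · exact e ▸ y1
          · exact y2 K hK e) M hM)])
  by_cases xc : x ∈ 𝐂(N)
  · exact key x hx xc hc
  rcases (Γ.even hN hx xc).mul (Γ.four hN) (Γ.even hN hcX cc) with e | e
  · have := key _ (mul_mem hx hcX) e fun K hK k => mul_mem (hc K hK k) (co K hK k)
    exact (mul_mem_cancel_right cn).1 this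
  · have := key _ (mul_mem hx (inv_mem hcX)) e fun K hK k => mul_mem (hc K hK k) (inv_mem (co K hK k))
    exact (mul_mem_cancel_right (inv_mem cn)).1 this

theorem Cov.smul (h : Γ.Cov v N M) (g : G) : Γ.Cov (g • v) (N ^ᶜ g) (M ^ᶜ g) := by
  obtain ⟨c, hcX, cn, cc, co⟩ := h
  refine ⟨g * c * g⁻¹, by rw [Γ.X_smul]; exact cj_mem g hcX, ?_, ?_, fun K hK k => ?_⟩
  · rw [Γ.E_smul, ← cj_sup, ← cj_normalizer]; exact cj_mem g cn
  · rwa [← cj_centralizer, cj_mem_iff]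
  · rw [← cj_inv_cj K g, ← cj_centralizer]
    exact cj_mem g (co _ (Cm_smul_inv hK) fun e => k (by rw [← e, cj_inv_cj]))


end Geo

end H16Q
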