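import Mathlib
import Cfsg.Agent.Base
import Cfsg.Agent.Lib.QZ.G0

/-!
The ends of a critical walk are matched.
-/

set_option autoImplicit false
set_option linter.unusedSectionVars false
set_option linter.unusedVariables false

namespace H16Q

open Subgroup H69 H70 Cfsg MulAction
open scoped commutatorElement Pointwise

variable {G : Type*} [Group G] [Finite G] {V : Type*} [MulAction G V]

/-- two four-groups normalizing each other and not commuting. -/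
theorem g1_ex {N N' : Subgroup G} (h : Four N) (h' : Four N') (hn : N ≤ 𝐍(N')) (hn' : N' ≤ 𝐍(N))
    (hc : ¬ N ≤ 𝐂(N')) : ∃ z, ∃ n ∈ N, ∃ a ∈ N', Trv N a z ∧ Trv N' n z := by
  obtain ⟨n, hnN, hnc⟩ := SetLike.not_le_iff_exists.mp hc
  rw [mem_centralizer_iff_commute] at hnc
  push Not at hnc
  obtain ⟨a, ha, hne⟩ := hnc
  have hz : a * n * a⁻¹ * n⁻¹ ∈ N :=
    N.mul_mem (conj_mem_of_mem_normalizer (hn' ha) hnN) (N.inv_mem hnN)
  have hz' : a * n * a⁻¹ * n⁻¹ ∈ N' := by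
    have := N'.mul_mem ha (conj_mem_of_mem_normalizer (hn hnN) (N'.inv_mem ha))
    simpa only [mul_assoc] using this
  have hz1 : a * n * a⁻¹ * n⁻¹ ≠ 1 := by
    intro h1
    apply hne
    calc a * n = a * n * a⁻¹ * n⁻¹ * (n * a) := by group
      _ = n * a := by rw [h1, one_mul]
  refine ⟨_, n, hnN, a, ha, ⟨hn' ha, fun h1 => hne (h1 n hnN).symm, hz, hz1, ?_⟩,
    ⟨hn hnN, fun h1 => hne (h1 a ha), hz', hz1, ?_⟩⟩
  · rw [h'.comm ha hz']; group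
  · rw [h.comm hnN hz]; group

namespace Geo

variable {Γ : Geo G V} {v w : V} {N N' M A : Subgroup G} {a c g m x y z z' : G} {b n : ℕ} {δ : ℕ → V}

theorem g1_norm (h1 : Γ.E v ≤ stabilizer G w) (h2 : Γ.E w ≤ stabilizer G v) (hN' : N' ∈ Γ.Cm w) :
    Γ.E v ≤ 𝐍(N') := by
  refine sSup_le fun K hK => ?_
  by_contra hcon
  obtain ⟨e, heK, hen⟩ := SetLike.not_le_iff_exists.mp hcon
  have fK := Γ.four hK
  have fN := Γ.four hN'
  have heE : e ∈ Γ.E v := le_E hK heK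
  have hN'' : N' ^ᶜ e ∈ Γ.Cm w := pm (h1 heE) N' hN'
  have hne : N' ^ᶜ e ≠ N' := fun h => hen (cj_eq_self_iff.mp h)
  have hdis : ∀ y, y ∈ N' → y ∈ N' ^ᶜ e → y = 1 := fun y hy hy' => by
    by_contra hy1
    exact hne (Disj.eq (Γ.disj w) hN'' hN' hy' hy hy1)
  have hEc : Γ.E v ≤ 𝐂(Γ.E v) := (Γ.E_le_Q v).trans (Γ.Q_le_cE v)
  -- elements of `E v` normalizing `N'` centralize it
  have hA : ∀ g ∈ Γ.E v, g ∈ 𝐍(N') → ∀ n ∈ N', g * n * g⁻¹ = n := by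
    intro g hg hgn n hn
    have hg2 : g ∈ 𝐍(N' ^ᶜ e) := Pm.other (Γ.two w) (pm (h1 hg)) hN' hgn hN''
    have hd : n * (e * n * e⁻¹) ∈ Γ.E v := by
      have := (Γ.E v).mul_mem
        (conj_mem_of_mem_normalizer (Γ.stab_E v (h2 (le_E hN' hn))) heE) ((Γ.E v).inv_mem heE)
      rw [fN.inv hn] at this
      simpa only [mul_assoc] using this
    have hfix := conj_eq_of_mem_centralizer (hEc hg) hd
    have hm : e * n * e⁻¹ ∈ N' ^ᶜ e := cj_mem e hn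
    have e1 : n⁻¹ * (g * n * g⁻¹) = (e * n * e⁻¹) * (g * (e * n * e⁻¹) * g⁻¹)⁻¹ := by
      calc n⁻¹ * (g * n * g⁻¹)
          = n⁻¹ * (g * (n * (e * n * e⁻¹)) * g⁻¹) * (g * (e * n * e⁻¹) * g⁻¹)⁻¹ := by group
        _ = _ := by rw [hfix]; group
    have := hdis _ (N'.mul_mem (N'.inv_mem hn) (conj_mem_of_mem_normalizer hgn hn))
      (by rw [e1]; exact mul_mem hm (inv_mem (conj_mem_of_mem_normalizer hg2 hm)))
    exact (inv_mul_eq_one.mp this).symm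
  obtain ⟨k, hkK, hk1, hkn⟩ : ∃ k ∈ K, k ≠ 1 ∧ k ∈ 𝐍(N') := by
    obtain ⟨e', he', h1', h2'⟩ := fK.exists_ne e
    by_cases hc : e' ∈ 𝐍(N')
    · exact ⟨e', he', h1', hc⟩
    · refine ⟨e * e', K.mul_mem heK he', fun h => h2' ?_,
        Pm.mul_norm (Γ.two w) (pm (h1 heE)) (pm (h1 (le_E hK he'))) hN' hen hc⟩
      rw [← fK.inv heK]; exact (eq_inv_of_mul_eq_one_right h)
  have hnc : ∀ n ∈ N', n ≠ 1 → n ∉ 𝐂(K) := by
    intro n hn hn1 hc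
    apply hn1
    refine hdis n hn ?_
    have : e * n * e⁻¹ = n := by rw [hc e heK]; group
    rw [← this]; exact cj_mem e hn
  have htr : ∀ n ∈ N', n ≠ 1 → Trv K n k := by
    intro n hn hn1
    have hf : n * k * n⁻¹ = k := by
      have := hA k (le_E hK hkK) hkn n hn
      calc n * k * n⁻¹ = k * n * k⁻¹ * k * n⁻¹ := by rw [this]
        _ = k := by group
    exact ⟨norm_of_fix (h2 (le_E hN' hn)) hK hkK hk1 (by rw [hf]; exact hkK), hnc n hn hn1, hkK,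
      hk1, hf⟩
  obtain ⟨n1, hn1, hn11, -⟩ := fN.exists_ne 1
  obtain ⟨n2, hn2, hn21, hn22⟩ := fN.exists_ne n1
  refine hnc (n1 * n2) (N'.mul_mem hn1 hn2) (fun h => hn22 ?_)
    (Trv.mul fK (htr n1 hn1 hn11) (htr n2 hn2 hn21))
  rw [← fN.inv hn1]; exact eq_inv_of_mul_eq_one_right h

theorem g1_other (h1 : ∀ M ∈ Γ.Cm w, Γ.E v ≤ 𝐍(M)) (h2 : ∀ M ∈ Γ.Cm v, Γ.E w ≤ 𝐍(M))
    (hN : N ∈ Γ.Cm v) (hN' : N' ∈ Γ.Cm w) (ha : a ∈ N') (hz : z ∈ N') (ht : Trv N a z)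
    (hM : M ∈ Γ.Cm w) (hne : M ≠ N') : N ≤ 𝐂(M) := by
  by_contra hc
  obtain ⟨z', n, hn, a', ha', t1, t2⟩ := g1_ex (Γ.four hN) (Γ.four hM) ((le_E hN).trans (h1 M hM))
    ((le_E hM).trans (h2 N hN)) hc
  have hf : a * z' * a⁻¹ = z' := conj_eq_of_mem_centralizer (cm_comm hN' hM ha) t2.mem
  rcases Trv.uniq (Γ.four hN) ht t1.mem hf with h | h
  · exact t1.ne h
  · exact hne (Disj.eq (Γ.disj w) hM hN' t2.mem (h ▸ hz) t1.ne)

theorem g1_le0 (hb : Γ.Below b) (h1 : 1 ≤ b) (h : Γ.Path b δ) : Γ.E (δ 0) ≤ Γ.Q (δ (b - 1)) :=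
  near hb h (by omega) (by omega) (by omega) (by omega)

theorem g1_le1 (hb : Γ.Below b) (h1 : 1 ≤ b) (h : Γ.Path b δ) : Γ.E (δ b) ≤ Γ.Q (δ 1) :=
  near hb h (by omega) (by omega) (by omega) (by omega)

theorem g1_adj (h1 : 1 ≤ b) (h : Γ.Path b δ) : Γ.adj (δ (b - 1)) (δ b) := by
  have := h (b - 1) (by omega)
  rwa [Nat.sub_add_cancel h1] at this

theorem mat (hb : Γ.Below b) (h1 : 1 ≤ b) (h : Γ.Path b δ) (hN : N ∈ Γ.Cm (δ 0)) (hN' : N' ∈ Γ.Cm (δ b))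
    (hc : ¬ N ≤ 𝐂(N')) : ∃ z, Γ.Mat b δ N N' z := by
  have a0 : Γ.adj (δ 0) (δ 1) := h 0 (by omega)
  have a1 := g1_adj h1 h
  have l0 := g1_le0 hb h1 h
  have l1 := g1_le1 hb h1 h
  have s0 : Γ.E (δ 0) ≤ stabilizer G (δ b) := l0.trans (Γ.Q_le' a1)
  have s1 : Γ.E (δ b) ≤ stabilizer G (δ 0) := l1.trans (Γ.Q_le' (Γ.symm a0))
  have n0 : ∀ M ∈ Γ.Cm (δ 0), Γ.E (δ b) ≤ 𝐍(M) := fun M hM => g1_norm s1 s0 hM
  have n1 : ∀ M ∈ Γ.Cm (δ b), Γ.E (δ 0) ≤ 𝐍(M) := fun M hM => g1_norm s0 s1 hM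
  obtain ⟨z, n, hn, a, ha, t1, t2⟩ := g1_ex (Γ.four hN) (Γ.four hN') ((le_E hN).trans (n1 N' hN'))
    ((le_E hN').trans (n0 N hN)) hc
  refine ⟨z, h1, hb, h, ?_, ?_, hc, n0, n1, fun M hM hne => ?_, fun M hM hne => ?_, ?_⟩
  · exact cen_of_trv a0 hN (s1 (le_E hN' ha)) (Γ.Q_le _ (l1 (le_E hN' ha))) t1
  · exact cen_of_trv (Γ.symm a1) hN' (s0 (le_E hN hn)) (Γ.Q_le _ (l0 (le_E hN hn))) t2
  · exact g1_other n0 n1 hN' hN hn t1.mem t2 hM hne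
  · exact g1_other n1 n0 hN hN' ha t2.mem t1 hM hne
  · apply le_antisymm
    · rintro y ⟨hy, hy'⟩
      by_cases hy1 : y = 1
      · rw [hy1]; exact one_mem _
      by_cases hyz : y = z
      · rw [hyz]; exact mem_zpowers z
      exact absurd (((Γ.four hN).le_of_two hy t1.mem hy1 t1.ne hyz hy' t2.mem).trans
        (Γ.four hN').le_cent) hc
    · exact zpowers_le_of_mem ⟨t1.mem, t2.mem⟩

theorem mat_of_not_le (hb : Γ.Below b) (h1 : 1 ≤ b) (h : Γ.Path b δ) (hN : N ∈ Γ.Cm (δ 0))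
    (hc : ¬ N ≤ Γ.Q (δ b)) : ∃ N' z, Γ.Mat b δ N N' z := by
  have s0 : N ≤ stabilizer G (δ b) :=
    (le_E hN).trans ((g1_le0 hb h1 h).trans (Γ.Q_le' (g1_adj h1 h)))
  by_contra hcon
  refine hc (Γ.syl _ N s0 (Γ.four hN).isP fun N' hN' => ?_)
  by_contra hc'
  exact hcon ⟨N', mat hb h1 h hN hN' hc'⟩

theorem mat_ex (hb : Γ.Below b) (h1 : 1 ≤ b) (h : Γ.Path b δ) (hc : ¬ Γ.E (δ 0) ≤ Γ.Q (δ b)) :
    ∃ N N' z, Γ.Mat b δ N N' z := by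
  by_contra hcon
  refine hc (sSup_le fun N hN => ?_)
  by_contra hc'
  exact hcon ⟨N, mat_of_not_le hb h1 h hN hc'⟩


end Geo

end H16Q
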