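import Mathlib
import Cfsg.Agent.Base
import Cfsg.Agent.Lib.QZ.G1

/-!
Shifting a critical walk.
-/

set_option autoImplicit false
set_option linter.unusedSectionVars false
set_option linter.unusedVariables false

namespace H16Q

open Subgroup H69 H70 Cfsg MulAction
open scoped commutatorElement Pointwise

variable {G : Type*} [Group G] [Finite G] {V : Type*} [MulAction G V]

namespace Geo

variable {Γ : Geo G V} {v w : V} {N N' M A : Subgroup G} {a c g m x y z z' : G} {b n : ℕ} {δ : ℕ → V}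

theorem G2_cz : y ∈ 𝐂(zpowers m) ↔ y * m * y⁻¹ = m := by
  rw [H69.centralizer_zpowers, mem_centralizer_singleton_iff, mul_inv_eq_iff_eq_mul]

theorem G2_adjb (h : Γ.Mat b δ N N' z) : Γ.adj (δ (b - 1)) (δ b) := Γ.symm h.c1.adj

theorem Mat.cov_of_le (h : Γ.Mat b δ N N' z) (h2 : 2 ≤ b) (hM : M ∈ Γ.Cm (δ 1)) (hx : x ∈ Γ.X (δ 0))
    (hxN : x ∉ 𝐂(N)) (hle : M ^ᶜ x ≤ Γ.Q (δ (b - 1))) : Γ.Cov (δ 0) N M := by
  obtain ⟨a, aN, aQ, a0, tr, ao⟩ := h.exists_a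
  have hN := h.c0.cm
  have a01 := h.c0.adj
  have x0 : x ∈ stabilizer G (δ 0) := Γ.X_le _ hx
  have fx : Fpf N x := Γ.even hN hx hxN
  have hMx : M ^ᶜ x ∈ Γ.Cm (x • δ 1) := Γ.Cm_smul x hM
  have q0 : M ^ᶜ x ≤ Γ.Q (δ 0) := (le_E hMx).trans (near1 h.bel h2 (Γ.symm (adj_X a01 hx)))
  have s1 : M ^ᶜ x ≤ stabilizer G (δ (b - 1)) := hle.trans (Γ.Q_le _)
  have s2 : M ^ᶜ x ≤ stabilizer G (δ b) := hle.trans (Γ.Q_le' (G2_adjb h))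
  have nn : M ^ᶜ x ≤ 𝐍(N') := fun u hu => by
    refine norm_of_fix (s2 hu) h.c1.cm h.c1.mem h.c1.ne ?_
    rw [conj_eq_of_mem_centralizer (Γ.Qc hN (q0 hu)) h.c0.mem]
    exact h.c1.mem
  have cm : ⁅N', M ^ᶜ x⁆ ≤ Γ.E (δ 0) :=
    (h.c1.comm_le s2 s1 nn).trans ((zpowers_le.2 h.c0.mem).trans (le_E hN))
  have aE : a ∈ 𝐍(Γ.E (δ 0)) := Γ.stab_E _ a0
  have n1 : a ∈ 𝐍(M ^ᶜ x ⊔ Γ.E (δ 0)) := by
    refine mem_normalizer_of_cj_le ?_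
    rw [cj_sup, cj_eq_of_mem_normalizer aE]
    refine sup_le (fun u hu => ?_) le_sup_right
    obtain ⟨t, ht, rfl⟩ := mem_cj'.1 hu
    have e : a * t * a⁻¹ = ⁅a, t⁆ * t := by rw [commutatorElement_def]; group
    rw [e]
    exact mul_mem (mem_sup_right (cm (commutator_mem_commutator aN ht))) (mem_sup_left ht)
  have n2 : a ∈ 𝐍(M ⊔ Γ.E (δ 0)) := by
    refine cj_eq_self_iff.1 ?_
    rw [cj_sup, cj_eq_of_mem_normalizer aE, cj_eq_of_mem_centralizer (Γ.Qc hM aQ)]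
  have n3 : x⁻¹ * a⁻¹ * x ∈ 𝐍(M ⊔ Γ.E (δ 0)) := by
    rw [← mem_cj, cj_normalizer, cj_sup, cj_eq_of_mem_normalizer (Γ.stab_E _ x0)]
    exact inv_mem n1
  refine ⟨a * x⁻¹ * a⁻¹ * x, mul_mem (conj_mem_of_mem_normalizer (Γ.stab_X _ a0) (inv_mem hx)) hx, ?_, ?_, ?_⟩
  · have e : a * x⁻¹ * a⁻¹ * x = a * (x⁻¹ * a⁻¹ * x) := by group
    rw [e]
    exact mul_mem n2 n3
  · have := tr.comm_fpf (Γ.four hN) fx.inv
    rw [inv_inv] at this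
    exact this.not_cent (Γ.four hN)
  · intro K hK ne
    have e : a * x⁻¹ * a⁻¹ * x = a * (x⁻¹ * a⁻¹ * x) := by group
    rw [e]
    refine mul_mem (ao K hK ne) ?_
    rw [← mem_cj, cj_centralizer, cj_eq_of_mem_normalizer (Γ.Xn hK hx)]
    exact inv_mem (ao K hK ne)

/-- the elements of `S` acting trivially on `Q / I`. -/
def G2_L (S Q I : Subgroup G) (hI : S ≤ 𝐍(I)) : Subgroup G where
  carrier := {g | g ∈ S ∧ ∀ q ∈ Q, g * q * g⁻¹ * q⁻¹ ∈ I}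
  one_mem' := ⟨one_mem _, fun q _ => by simp⟩
  mul_mem' := by
    rintro g k ⟨g1, g2⟩ ⟨k1, k2⟩
    refine ⟨mul_mem g1 k1, fun q hq => ?_⟩
    have e : g * k * q * (g * k)⁻¹ * q⁻¹ = g * (k * q * k⁻¹ * q⁻¹) * g⁻¹ * (g * q * g⁻¹ * q⁻¹) := by group
    rw [e]
    exact mul_mem (conj_mem_of_mem_normalizer (hI g1) (k2 q hq)) (g2 q hq)
  inv_mem' := by
    rintro g ⟨g1, g2⟩
    refine ⟨inv_mem g1, fun q hq => ?_⟩
    have e : g⁻¹ * q * g⁻¹⁻¹ * q⁻¹ = g⁻¹ * (g * q * g⁻¹ * q⁻¹)⁻¹ * g⁻¹⁻¹ := by group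
    rw [e]
    exact conj_mem_of_mem_normalizer (hI (inv_mem g1)) (inv_mem (g2 q hq))

theorem Mat.not_norm (h : Γ.Mat b δ N N' z) (h2 : 2 ≤ b) : ¬ Γ.X (δ 0) ≤ 𝐍(Γ.E (δ 1) ⊔ Γ.E (δ 0)) := by
  intro hX
  obtain ⟨a, aN, aQ, a0, tr, ao⟩ := h.exists_a
  have hN := h.c0.cm
  have a01 := h.c0.adj
  have s0 : stabilizer G (δ 0) ≤ 𝐍(Γ.E (δ 1) ⊔ Γ.E (δ 0)) :=
    (stab_le a01).trans (sup_le hX (H69.le_normalizer_sup (inf_le_right.trans (Γ.stab_E _))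
      (inf_le_left.trans (Γ.stab_E _))))
  have hI : stabilizer G (δ 0) ≤ 𝐍(Γ.Q (δ 0) ⊓ 𝐂(Γ.E (δ 1) ⊔ Γ.E (δ 0))) :=
    H69.le_normalizer_inf (Γ.stab_Q _) (H69.le_normalizer_centralizer s0)
  have I1 : Γ.Q (δ 0) ⊓ 𝐂(Γ.E (δ 1) ⊔ Γ.E (δ 0)) ≤ Γ.Q (δ 1) :=
    Γ.syl _ _ (inf_le_left.trans (Γ.Q_le' a01)) ((Γ.Q_p _).to_le inf_le_left)
      fun K hK => inf_le_right.trans (centralizer_anti ((le_E hK).trans le_sup_left))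
  have aL : a ∈ G2_L _ (Γ.Q (δ 0)) _ hI := by
    refine ⟨a0, fun q hq => ?_⟩
    have m0 : a * q * a⁻¹ * q⁻¹ ∈ Γ.Q (δ 0) :=
      mul_mem (conj_mem_of_mem_normalizer (Γ.stab_Q _ a0) hq) (inv_mem hq)
    have m1 : a * q * a⁻¹ * q⁻¹ ∈ Γ.Q (δ 1) := by
      have e : a * q * a⁻¹ * q⁻¹ = a * (q * a⁻¹ * q⁻¹) := by group
      rw [e]
      exact mul_mem aQ (conj_mem_of_mem_normalizer (Γ.stab_Q _ (Γ.Q_le' a01 hq)) (inv_mem aQ))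
    refine ⟨m0, ?_⟩
    rw [centralizer_sup]
    exact ⟨Γ.Q_le_cE _ m1, Γ.Q_le_cE _ m0⟩
  have nL : stabilizer G (δ 0) ≤ 𝐍(G2_L _ (Γ.Q (δ 0)) _ hI) := by
    refine le_normalizer_of_cj_le fun s hs u hu => ?_
    obtain ⟨g, ⟨g1, g2⟩, rfl⟩ := mem_cj'.1 hu
    refine ⟨mul_mem (mul_mem hs g1) (inv_mem hs), fun q hq => ?_⟩
    have e : s * g * s⁻¹ * q * (s * g * s⁻¹)⁻¹ * q⁻¹ =
        s * (g * (s⁻¹ * q * s⁻¹⁻¹) * g⁻¹ * (s⁻¹ * q * s⁻¹⁻¹)⁻¹) * s⁻¹ := by group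
    rw [e]
    exact conj_mem_of_mem_normalizer (hI hs)
      (g2 _ (conj_mem_of_mem_normalizer (Γ.stab_Q _ (inv_mem hs)) hq))
  rcases Γ.gen _ (G2_L _ (Γ.Q (δ 0)) _ hI) (fun g hg => hg.1) nL with hL | hL
  · refine Γ.S (Γ.symm a01) ((Γ.s2 _).trans (le_trans ?_ I1))
    rw [Subgroup.commutator_le]
    intro q hq u hu
    have e : ⁅q, u⁆ = (u * q * u⁻¹ * q⁻¹)⁻¹ := by rw [commutatorElement_def]; group
    rw [e]
    exact inv_mem ((hL hu).2 q hq)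
  · exact tr.nc (hL N hN aL)

theorem Mat.exists_not_cov (h : Γ.Mat b δ N N' z) (h2 : 2 ≤ b) : ∃ M ∈ Γ.Cm (δ 1), ¬ Γ.Cov (δ 0) N M := by
  by_contra hc
  push Not at hc
  have hN := h.c0.cm
  have a01 := h.c0.adj
  have z1 : ∀ x ∈ Γ.X (δ 0), (∀ K ∈ Γ.Cm (δ 0), K ≠ N → x ∈ 𝐂(K)) → x ∈ 𝐍(Γ.E (δ 1) ⊔ Γ.E (δ 0)) := by
    intro x hx ho
    refine mem_normalizer_of_cj_le ?_
    rw [cj_sup, cj_eq_of_mem_normalizer (Γ.stab_E _ (Γ.X_le _ hx))]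
    refine sup_le ?_ le_sup_right
    rw [cj_le_iff]
    refine sSup_le fun M hM => ?_
    rw [← cj_le_iff]
    have e := cj_eq_of_mem_normalizer ((hc M hM).le a01 hN hM hx ho)
    exact (cj_mono x le_sup_left).trans (e.le.trans (sup_le_sup_right (le_E hM) _))
  have z2 : ∀ K ∈ Γ.Cm (δ 0), ∀ y ∈ Γ.X (δ 0), (∀ K' ∈ Γ.Cm (δ 0), K' ≠ K → y ∈ 𝐂(K')) →
      y ∈ 𝐍(Γ.E (δ 1) ⊔ Γ.E (δ 0)) := by
    intro K hK y hy ho
    obtain ⟨s, ⟨s0, s1⟩, es⟩ := Γ.ctr a01 hN hK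
    have sn : s ∈ 𝐍(Γ.E (δ 1) ⊔ Γ.E (δ 0)) := by
      refine cj_eq_self_iff.1 ?_
      rw [cj_sup, cj_eq_of_mem_normalizer (Γ.stab_E _ s0), cj_eq_of_mem_normalizer (Γ.stab_E _ s1)]
    have y1 := z1 (s⁻¹ * y * s) (conj_mem_of_mem_normalizer' (Γ.stab_X _ s0) hy) fun K' hK' ne => by
      rw [← mem_cj, cj_centralizer]
      exact ho _ (pm s0 K' hK') fun e => ne (cj_inj.1 (e.trans es.symm))
    have e : y = s * (s⁻¹ * y * s) * s⁻¹ := by group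
    rw [e]
    exact mul_mem (mul_mem sn y1) (inv_mem sn)
  refine h.not_norm h2 fun x hx => ?_
  by_cases ho : ∀ K ∈ Γ.Cm (δ 0), K ≠ N → x ∈ 𝐂(K)
  · exact z1 x hx ho
  push Not at ho
  obtain ⟨K, hK, ne, xK⟩ := ho
  obtain ⟨y, hy, yK, yo⟩ := Γ.full hK
  have yn := z2 K hK y hy yo
  rcases (Γ.even hK hx xK).mul (Γ.four hK) (Γ.even hK hy yK) with e | e
  · have := z1 _ (mul_mem hx hy) fun K' hK' ne' => by
      rw [(Γ.two _).eq_other hN hK ne hK' ne']; exact e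
    simpa using mul_mem this (inv_mem yn)
  · have := z1 _ (mul_mem hx (inv_mem hy)) fun K' hK' ne' => by
      rw [(Γ.two _).eq_other hN hK ne hK' ne']; exact e
    simpa using mul_mem this yn

theorem Mat.shift (h : Γ.Mat b δ N N' z) (h2 : 2 ≤ b) (hM : M ∈ Γ.Cm (δ 1)) (hc : ¬ Γ.Cov (δ 0) N M)
    (hx : x ∈ Γ.X (δ 0)) (hxN : x ∉ 𝐂(N)) : ∃ N₁ c, Γ.Mat b (shift x δ) (M ^ᶜ x) N₁ c := by
  have p : Γ.Path b (H16Q.shift x δ) := (h.path.shift h.pos hx).mono (Nat.le_succ b)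
  refine mat_of_not_le h.bel h.pos p (Γ.Cm_smul x hM) fun hle => hc (h.cov_of_le h2 hM hx hxN ?_)
  obtain ⟨k, rfl⟩ : ∃ k, b = k + 1 := ⟨b - 1, by omega⟩
  exact hle

theorem G2_three (h2 : y * (y * m * y⁻¹) * y⁻¹ = m) (h3 : y ^ 3 * m * (y ^ 3)⁻¹ = m) : y * m * y⁻¹ = m := by
  calc y * m * y⁻¹ = y * (y * (y * m * y⁻¹) * y⁻¹) * y⁻¹ := by rw [h2]
    _ = y ^ 3 * m * (y ^ 3)⁻¹ := by rw [pow_succ, pow_two]; group
    _ = m := h3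

theorem Mat.cx0 (h : Γ.Mat b δ N N' z) (h2 : 2 ≤ b) : Γ.CX (δ 0) := by
  obtain ⟨M, hM, nc⟩ := h.exists_not_cov h2
  obtain ⟨a, aN, aQ, a0, tr, ao⟩ := h.exists_a
  have hN := h.c0.cm
  have a01 := h.c0.adj
  obtain ⟨m, cm⟩ := cen_ex (Γ.symm a01) hM
  have aB : a ∈ Γ.Q (δ (b - 1)) := near1 h.bel h2 h.c1.adj (le_E h.c1.cm aN)
  obtain ⟨k, rfl⟩ : ∃ k, b = k + 2 := ⟨b - 2, by omega⟩
  have st : ∀ x ∈ Γ.X (δ 0), x ∉ 𝐂(N) → ∃ N₁, Γ.Cen (δ (k + 1)) (δ k) N₁ (x * m * x⁻¹) := by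
    intro x hx xN
    obtain ⟨N₁, c, h'⟩ := h.shift h2 hM nc hx xN
    have c0 : Γ.Cen (x • δ 1) (δ 0) (M ^ᶜ x) c := h'.c0
    have c1 : Γ.Cen (δ (k + 1)) (δ k) N₁ c := h'.c1
    have d0 := cm.smul x
    rw [show x • δ 0 = δ 0 from Γ.X_le _ hx] at d0
    rw [d0.uniq c0]
    exact ⟨N₁, c1⟩
  have cu : ∀ y ∈ Γ.X (δ 0), y ^ 3 * m * (y ^ 3)⁻¹ = m := fun y hy =>
    (cm.fix_K (pow_mem hy 3) fun K hK => cube hy hK).2
  obtain ⟨x, hx, xN, xo⟩ := Γ.full hN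
  have xm : x * m * x⁻¹ = m := by
    obtain ⟨N₁, c1⟩ := st x hx xN
    have f1 : a⁻¹ * (x * m * x⁻¹) * a⁻¹⁻¹ = x * m * x⁻¹ :=
      conj_eq_of_mem_centralizer (Γ.Qc c1.cm (inv_mem aB)) c1.mem
    have f2 : a⁻¹ * m * a⁻¹⁻¹ = m := conj_eq_of_mem_centralizer (Γ.Qc hM (inv_mem aQ)) cm.mem
    have f3 := (cm.fix_K (c := a * x * a⁻¹ * x)
      (mul_mem (conj_mem_of_mem_normalizer (Γ.stab_X _ a0) hx) hx) fun K hK => by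
        by_cases e : K = N
        · rw [e]; exact tr.inv_even (Γ.four hN) (Or.inr (Γ.even hN hx xN))
        · exact mul_mem (mul_mem (mul_mem (ao K hK e) (xo K hK e)) (inv_mem (ao K hK e))) (xo K hK e)).2
    refine G2_three ?_ (cu x hx)
    calc x * (x * m * x⁻¹) * x⁻¹ = x * (a⁻¹ * (x * m * x⁻¹) * a⁻¹⁻¹) * x⁻¹ := by rw [f1]
      _ = a⁻¹ * (a * x * a⁻¹ * x * m * (a * x * a⁻¹ * x)⁻¹) * a⁻¹⁻¹ := by group
      _ = m := by rw [f3, f2]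
  have st' : ∀ y ∈ Γ.X (δ 0), ∃ N₁, Γ.Cen (δ (k + 1)) (δ k) N₁ (y * m * y⁻¹) := by
    intro y hy
    by_cases yN : y ∈ 𝐂(N)
    · obtain ⟨N₁, c1⟩ := st (y * x) (mul_mem hy hx) fun e => xN (by simpa using mul_mem (inv_mem yN) e)
      have e : y * x * m * (y * x)⁻¹ = y * (x * m * x⁻¹) * y⁻¹ := by group
      rw [e, xm] at c1
      exact ⟨N₁, c1⟩
    · exact st y hy yN
  have key : ∀ y ∈ Γ.X (δ 0), y * m * y⁻¹ = m := by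
    intro y hy
    obtain ⟨N₀, c0⟩ := st' 1 (one_mem _)
    obtain ⟨N₁, c1⟩ := st' y hy
    obtain ⟨N₂, c2⟩ := st' (y * y) (mul_mem hy hy)
    have e2 : y * y * m * (y * y)⁻¹ = y * (y * m * y⁻¹) * y⁻¹ := by group
    rw [e2] at c2
    rw [one_mul, inv_one, mul_one] at c0
    rcases Γ.two _ _ c0.cm _ c1.cm _ c2.cm with e | e | e
    · rw [e] at c0; exact c1.uniq c0
    · rw [e] at c0; exact G2_three (c2.uniq c0) (cu y hy)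
    · rw [e] at c1
      have := c2.uniq c1
      calc y * m * y⁻¹ = y⁻¹ * (y * (y * m * y⁻¹) * y⁻¹) * y := by group
        _ = m := by rw [this]; group
  intro w M' m' c' y hy
  obtain ⟨u, hu, eu⟩ := Γ.xtr (Γ.symm c'.adj) a01
  have u0 : u ∈ stabilizer G (δ 0) := Γ.X_le _ hu
  have d1 := c'.smul u
  rw [eu, show u • δ 0 = δ 0 from u0] at d1
  obtain ⟨s, ⟨s1, s0⟩, es⟩ := Γ.ctr (Γ.symm a01) d1.cm hM
  have d2 := d1.smul s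
  rw [show s • δ 0 = δ 0 from s0, show s • δ 1 = δ 1 from s1, es] at d2
  have e := d2.uniq cm
  have k1 := key _ (conj_mem_of_mem_normalizer (Γ.stab_X _ (mul_mem s0 u0)) hy)
  rw [← e] at k1
  refine G2_cz.2 ?_
  calc y * m' * y⁻¹ = (s * u)⁻¹ * (s * u * y * (s * u)⁻¹ * (s * (u * m' * u⁻¹) * s⁻¹) *
        (s * u * y * (s * u)⁻¹)⁻¹) * (s * u) := by group
    _ = m' := by rw [k1]; group

theorem Mat.cx (h : Γ.Mat b δ N N' z) (h2 : 2 ≤ b) (ha : Γ.adj v w) : Γ.CX v := by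
  obtain ⟨g, ⟨e, -⟩ | ⟨-, e⟩⟩ := Γ.etr h.c0.adj ha
  · rw [← e]; exact (h.cx0 h2).smul g
  · obtain ⟨M, hM, nc⟩ := h.exists_not_cov h2
    obtain ⟨x, hx, xN, -⟩ := Γ.full h.c0.cm
    obtain ⟨N₁, c, h'⟩ := h.shift h2 hM nc hx xN
    have c1 : Γ.CX (x • δ 1) := h'.cx0 h2
    have c2 := (c1.smul x⁻¹).smul g
    rwa [inv_smul_smul, e] at c2

end Geo

end H16Q
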