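import Mathlib
import Cfsg.Agent.Base
import Cfsg.Agent.Lib.QZ.G2

/-!
The critical distance is not two.
-/

set_option autoImplicit false
set_option linter.unusedSectionVars false
set_option linter.unusedVariables false

namespace H16Q

open Subgroup H69 H70 Cfsg MulAction
open scoped commutatorElement Pointwise

variable {G : Type*} [Group G] [Finite G] {V : Type*} [MulAction G V]

namespace Geo

variable {Γ : Geo G V} {v w : V} {N N' M A : Subgroup G} {a c g m x y z z' : G} {b n : ℕ} {δ : ℕ → V}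

/-- `u` is a transvection on the component `M` of `β` lying in a component `L` of a neighbour `γ` of `α`. -/
structure G3Gd (Γ : Geo G V) (α β γ : V) (M L : Subgroup G) (m u : G) : Prop where
  cM : M ∈ Γ.Cm β
  cen : Γ.Cen γ α L m
  uL : u ∈ L
  uQ : u ∈ Γ.Q α
  uS : u ∈ stabilizer G β
  trv : Trv M u m
  oth : ∀ K ∈ Γ.Cm β, K ≠ M → u ∈ 𝐂(K)

theorem G3Gd.smul {α β γ : V} {L : Subgroup G} {u s : G} (h : G3Gd Γ α β γ M L m u)
    (h1 : s ∈ stabilizer G α) (h2 : s ∈ stabilizer G β) :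
    G3Gd Γ α β (s • γ) (M ^ᶜ s) (L ^ᶜ s) (s * m * s⁻¹) (s * u * s⁻¹) where
  cM := pm h2 M h.cM
  cen := by
    have := h.cen.smul s
    rwa [mem_stabilizer_iff.1 h1] at this
  uL := cj_mem s h.uL
  uQ := conj_mem_of_mem_normalizer (Γ.stab_Q α h1) h.uQ
  uS := mul_mem (mul_mem h2 h.uS) (inv_mem h2)
  trv := h.trv.cj s
  oth := fun K hK hne => by
    have h3 : K ^ᶜ s⁻¹ ∈ Γ.Cm β := pm (inv_mem h2) K hK
    have h4 : K ^ᶜ s⁻¹ ≠ M := fun e => hne (by rw [← e, cj_inv_cj])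
    have h5 := cj_mem s (h.oth _ h3 h4)
    rwa [cj_centralizer, cj_inv_cj] at h5

theorem g3_mem_cent (h : g * z * g⁻¹ = z) : g ∈ 𝐂(zpowers z) := by
  rw [H69.centralizer_zpowers, mem_centralizer_singleton_iff]
  calc g * z = g * z * g⁻¹ * g := by group
    _ = z * g := by rw [h]

theorem G3Gd.comm_mem {α β γ : V} {L : Subgroup G} {u i : G} (h : G3Gd Γ α β γ M L m u)
    (h1 : i ∈ Γ.Q α) (h2 : i ∈ Γ.Q β) : u * i * u⁻¹ * i⁻¹ ∈ Γ.E β := by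
  have hf : i * m * i⁻¹ = m := conj_eq_of_mem_centralizer (Γ.Qc h.cM h2) h.trv.mem
  have hs : i ∈ stabilizer G γ := Γ.Q_le' (Γ.symm h.cen.adj) h1
  have hn : i ∈ 𝐍(L) := norm_of_fix hs h.cen.cm h.cen.mem h.cen.ne (by rw [hf]; exact h.cen.mem)
  have hle : ⁅L, zpowers i⁆ ≤ zpowers m :=
    (Γ.four h.cen.cm).comm_le (zpowers_le.2 hn) h.cen.mem h.cen.ne (zpowers_le.2 (g3_mem_cent hf))
  have h3 : ⁅u, i⁆ ∈ zpowers m := hle (commutator_mem_commutator h.uL (mem_zpowers i))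
  exact (zpowers_le.2 (le_E h.cM h.trv.mem)) h3

theorem G3Gd.commute {α β γ γ' : V} {L L' M' : Subgroup G} {u u' m' : G} (hb : Γ.Below 2)
    (h : G3Gd Γ α β γ M L m u) (h' : G3Gd Γ α β γ' M' L' m' u') (hne : M ≠ M') :
    u' * u = u * u' := by
  by_cases hc : L ≤ 𝐂(L')
  · exact mem_centralizer_iff_commute.1 (hc h.uL) u' h'.uL
  exfalso
  let ε : ℕ → V := fun i => if i = 0 then γ else if i = 1 then α else γ'
  have hp : Γ.Path 2 ε := by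
    intro i hi
    interval_cases i
    · exact h.cen.adj
    · exact Γ.symm h'.cen.adj
  obtain ⟨z₀, hm⟩ := mat (δ := ε) hb (by norm_num) hp h.cen.cm h'.cen.cm hc
  have e1 : z₀ = m := Cen.uniq hm.c0 h.cen
  have e2 : z₀ = m' := Cen.uniq hm.c1 h'.cen
  exact hne ((Γ.disj β).eq h.cM h'.cM h.trv.mem (by rw [← e1, e2]; exact h'.trv.mem) h.trv.ne)

theorem g3_trv_mul {u c : G} (h : Trv M u m) (hc : c ∈ 𝐂(M)) : Trv M (u * c) m where
  norm := mul_mem h.norm (centralizer_le_normalizer _ hc)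
  nc := fun e => h.nc (by simpa using mul_mem e (inv_mem hc))
  mem := h.mem
  ne := h.ne
  fix := by
    have := conj_eq_of_mem_centralizer hc h.mem
    calc u * c * m * (u * c)⁻¹ = u * (c * m * c⁻¹) * u⁻¹ := by group
      _ = m := by rw [this, h.fix]

theorem Mat.g3_gd (h : Γ.Mat 2 δ N N' z) : ∃ γ M L m u, G3Gd Γ (δ 0) (δ 1) γ M L m u := by
  have h01 : Γ.adj (δ 0) (δ 1) := h.c0.adj
  obtain ⟨M, hM, hcov⟩ := h.exists_not_cov le_rfl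
  obtain ⟨x, hx, hxN, -⟩ := Γ.full h.c0.cm
  obtain ⟨M₁, c, h₂⟩ := h.shift le_rfl hM hcov hx hxN
  obtain ⟨m, hm⟩ := cen_ex (Γ.symm h01) hM
  have hm' : Γ.Cen (x • δ 1) (δ 0) (M ^ᶜ x) m := hm.move (h.cx0 le_rfl) hx
  have e : c = m := Cen.uniq h₂.c0 hm'
  subst e
  have hc1 : Γ.Cen (δ 1) (δ 0) M₁ c := h₂.c1
  have e : M₁ = M := (Γ.disj (δ 1)).eq hc1.cm hM hc1.mem hm.mem hm.ne
  subst e
  obtain ⟨u, h1, h2, h3, h4, h5⟩ := h₂.symm.exists_a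
  exact ⟨x • δ 1, M₁, M₁ ^ᶜ x, c, u, hM, hm', h1, h2, h3, h4, h5⟩

theorem Mat.g3_u (h : Γ.Mat 2 δ N N' z) : ∃ u ∈ Γ.Q (δ 0), u ∈ stabilizer G (δ 1) ∧ u * u = 1 ∧
    (∀ K ∈ Γ.Cm (δ 1), ∃ k, Trv K u k) ∧
    ∀ i ∈ Γ.Q (δ 0), i ∈ Γ.Q (δ 1) → u * i * u⁻¹ * i⁻¹ ∈ Γ.E (δ 1) := by
  have h01 : Γ.adj (δ 0) (δ 1) := h.c0.adj
  obtain ⟨γ, M, L, m, u, hg⟩ := h.g3_gd
  have hu2 : u * u = 1 := (Γ.four hg.cen.cm).sq hg.uL
  by_cases hone : ∀ K ∈ Γ.Cm (δ 1), K = M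
  · refine ⟨u, hg.uQ, hg.uS, hu2, fun K hK => ⟨m, ?_⟩, fun i h1 h2 => hg.comm_mem h1 h2⟩
    rw [hone K hK]
    exact hg.trv
  push Not at hone
  obtain ⟨M', hM', hne⟩ := hone
  obtain ⟨s, hs, e⟩ := Γ.ctr (Γ.symm h01) hg.cM hM'
  have hg' := hg.smul hs.2 hs.1
  rw [e] at hg'
  generalize s * u * s⁻¹ = u' at hg'
  generalize s * m * s⁻¹ = m' at hg'
  have hu2' : u' * u' = 1 := (Γ.four hg'.cen.cm).sq hg'.uL
  have hcm : u' * u = u * u' := hg.commute h.bel hg' hne.symm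
  refine ⟨u * u', mul_mem hg.uQ hg'.uQ, mul_mem hg.uS hg'.uS, ?_, fun K hK => ?_, fun i h1 h2 => ?_⟩
  · calc u * u' * (u * u') = u * (u' * u) * u' := by group
      _ = (u * u) * (u' * u') := by rw [hcm]; group
      _ = 1 := by rw [hu2, hu2', one_mul]
  · by_cases hK1 : K = M
    · subst hK1
      exact ⟨m, g3_trv_mul hg.trv (hg'.oth K hK hne.symm)⟩
    · have hK2 : K = M' := (Γ.two (δ 1)).eq_other hg.cM hM' hne hK hK1
      subst hK2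
      refine ⟨m', ?_⟩
      rw [← hcm]
      exact g3_trv_mul hg'.trv (hg.oth K hK hne)
  · have e1 : u * u' * i * (u * u')⁻¹ * i⁻¹ =
        u * (u' * i * u'⁻¹ * i⁻¹) * u⁻¹ * (u * i * u⁻¹ * i⁻¹) := by group
    rw [e1]
    exact mul_mem (conj_mem_of_mem_normalizer (Γ.stab_E _ hg.uS) (hg'.comm_mem h1 h2))
      (hg.comm_mem h1 h2)

theorem g3_conj_ne {p q : G} (hq : g * q * g⁻¹ = q) (hp : p ≠ q) : g * p * g⁻¹ ≠ q := fun e => hp (by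
  rw [← hq] at e
  simpa using e)

theorem Mat.not_two (h : Γ.Mat 2 δ N N' z) : False := by
  have h01 : Γ.adj (δ 0) (δ 1) := h.c0.adj
  have hc1 : Γ.Cen (δ 2) (δ 1) N' z := h.c1
  have hN := h.c0.cm
  have h4 := Γ.four hN
  have hX : Γ.CX (δ 1) := h.cx le_rfl (Γ.symm h01)
  have hXz : Γ.X (δ 1) ≤ 𝐂(zpowers z) := hX _ _ _ h.c0
  have hfix : ∀ g ∈ Γ.X (δ 1), g * z * g⁻¹ = z := fun g hg =>
    conj_eq_of_mem_centralizer (hXz hg) (mem_zpowers z)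
  obtain ⟨y, hy, hy2⟩ := Γ.xtr (Γ.symm h01) (Γ.symm hc1.adj)
  have hNy : N ^ᶜ y = N' := by
    have := h.c0.move hX hy
    rw [hy2] at this
    exact (Γ.disj (δ 2)).eq this.cm hc1.cm this.mem hc1.mem this.ne
  have hcm : Γ.Cen (y⁻¹ • δ 0) (δ 1) (N ^ᶜ y⁻¹) z := h.c0.move hX (inv_mem hy)
  have hy3 : y ^ 3 ∈ 𝐍(N) := (h.c0.fix_K (pow_mem hy 3) fun M hM => cube hy hM).1
  have hN2 : (N ^ᶜ y⁻¹) ^ᶜ y⁻¹ = N' := by
    rw [← hNy]
    conv_rhs => rw [← cj_eq_of_mem_normalizer (inv_mem hy3)]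
    rw [cj_cj, cj_cj]
    congr 3
    group
  obtain ⟨n, hn, hn1, hnz⟩ := h4.exists_ne z
  obtain ⟨u, huQ, huS, hu2, htrv, hcomm⟩ := h.g3_u
  have huc : ∀ K ∈ Γ.Cm (δ 0), u ∈ 𝐂(K) := fun K hK => Γ.Qc hK huQ
  have hun : u * n * u⁻¹ = n := conj_eq_of_mem_centralizer (huc N hN) hn
  have huz : u * z * u⁻¹ = z := conj_eq_of_mem_centralizer (huc N hN) h.c0.mem
  -- the elements `a`, `a'`
  obtain ⟨a, ha⟩ : ∃ a, a = y * n * y⁻¹ := ⟨_, rfl⟩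
  obtain ⟨a', ha'⟩ : ∃ a', a' = u * a * u⁻¹ := ⟨_, rfl⟩
  have haN : a ∈ N' := by rw [ha, ← hNy]; exact cj_mem y hn
  have ha1 : a ≠ 1 := by rw [ha]; exact g3_conj_ne (by group) hn1
  have haz : a ≠ z := by rw [ha]; exact g3_conj_ne (hfix y hy) hnz
  have ha'1 : a' ≠ 1 := by rw [ha']; exact g3_conj_ne (by group) ha1
  have ha'z : a' ≠ z := by rw [ha']; exact g3_conj_ne huz haz
  have hcX : u * y * u⁻¹ * y ∈ Γ.X (δ 1) :=
    mul_mem (conj_mem_of_mem_normalizer (Γ.stab_X _ huS) hy) hy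
  have hcE : ∀ K ∈ Γ.Cm (δ 1), u * y * u⁻¹ * y ∈ 𝐂(K) := fun K hK => by
    obtain ⟨k, hk⟩ := htrv K hK
    refine hk.inv_even (Γ.four hK) ?_
    by_cases e : y ∈ 𝐂(K)
    · exact Or.inl e
    · exact Or.inr (Γ.even hK hy e)
  have ha'N : a' ∈ N ^ᶜ y⁻¹ := by
    have h1 := conj_mem_of_mem_normalizer (hcm.fix_K hcX hcE).1 (cj_mem y⁻¹ hn)
    have e : u * y * u⁻¹ * y * (y⁻¹ * n * y⁻¹⁻¹) * (u * y * u⁻¹ * y)⁻¹ = a' := by
      have hun' : u⁻¹ * n * u = n := by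
        conv_lhs => rw [← hun]
        group
      calc u * y * u⁻¹ * y * (y⁻¹ * n * y⁻¹⁻¹) * (u * y * u⁻¹ * y)⁻¹
          = u * (y * (u⁻¹ * n * u) * y⁻¹) * u⁻¹ := by group
        _ = a' := by rw [hun', ha', ha]
    rwa [e] at h1
  -- `i = a a'` lies in both `Q`
  have hiβ : a * a' ∈ Γ.Q (δ 1) :=
    mul_mem (near1 h.bel le_rfl hc1.adj (le_E hc1.cm haN)) (near1 h.bel le_rfl hcm.adj (le_E hcm.cm ha'N))
  have hta : Trv N a z := h.trv haN ha1 haz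
  have hta' : Trv N a' z := by
    have := hta.cj u
    rwa [cj_eq_of_mem_centralizer (huc N hN), huz, ← ha'] at this
  have hiα : a * a' ∈ Γ.Q (δ 0) := by
    refine mem_Q (Γ.Q_le' (Γ.symm h01) hiβ) (Γ.Q_p (δ 1)) hiβ fun K hK => ?_
    by_cases e : K = N
    · subst e
      exact hta.mul h4 hta'
    · have h1 : a ∈ 𝐂(K) := h.o0 K hK e haN
      refine mul_mem h1 ?_
      rw [ha']
      exact mul_mem (mul_mem (huc K hK) h1) (inv_mem (huc K hK))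
  -- the commutator
  have hn' : y⁻¹ * a' * y⁻¹⁻¹ ∈ N' := by rw [← hN2]; exact cj_mem y⁻¹ ha'N
  have htn : Trv N (y⁻¹ * a' * y⁻¹⁻¹) z :=
    h.trv hn' (g3_conj_ne (by group) ha'1) (g3_conj_ne (hfix _ (inv_mem hy)) ha'z)
  have hk := htn.conj h4 hn hn1 hnz
  have hk2 : a' * a * a'⁻¹ * a⁻¹ = z := by
    have hnz' : n * z * n⁻¹ = z := by rw [h4.comm hn h.c0.mem]; group
    calc a' * a * a'⁻¹ * a⁻¹
        = y * ((y⁻¹ * a' * y⁻¹⁻¹) * n * (y⁻¹ * a' * y⁻¹⁻¹)⁻¹ * n⁻¹) * y⁻¹ := by rw [ha]; group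
      _ = z := by rw [hk, hnz', hfix y hy]
  have hua' : u * a' * u⁻¹ = a := by
    calc u * a' * u⁻¹ = (u * u) * a * (u * u)⁻¹ := by rw [ha']; group
      _ = a := by rw [hu2]; group
  have hz : z ∈ Γ.E (δ 1) := by
    have h1 := hcomm _ hiα hiβ
    have e : u * (a * a') * u⁻¹ * (a * a')⁻¹ = z := by
      calc u * (a * a') * u⁻¹ * (a * a')⁻¹
          = (u * a * u⁻¹) * (u * a' * u⁻¹) * a'⁻¹ * a⁻¹ := by group
        _ = z := by rw [← ha', hua', hk2]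
    rwa [e] at h1
  exact h.c0.ne (eq_one_of_cX hz hXz)


end Geo

end H16Q
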