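import Mathlib
import Cfsg.Agent.Base
import Cfsg.Agent.Lib.QZ.G2

/-!
The critical distance is not three and not at least five.
-/

set_option autoImplicit false
set_option linter.unusedSectionVars false
set_option linter.unusedVariables false

namespace H16Q

open Subgroup H69 H70 Cfsg MulAction
open scoped commutatorElement Pointwise

variable {G : Type*} [Group G] [Finite G] {V : Type*} [MulAction G V]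

namespace Geo

variable {Γ : Geo G V} {v w : V} {N N' M A : Subgroup G} {a c g m x y z z' : G} {b n : ℕ} {δ : ℕ → V}

private theorem g4_key (h : Γ.Mat b δ N N' z) (hx : x ∈ Γ.X (δ 0)) (hxN : x ∉ 𝐂(N)) {j : ℕ}
    (j0 : 0 < j) (hj : j ≤ b) (hc : x * z * x⁻¹ ∈ Γ.E (δ j)) : False := by
  obtain ⟨a, aN, -, -, trv, -⟩ := h.exists_a
  have hp := h.pos
  have aQ : a ∈ Γ.Q (δ j) :=
    near h.bel h.path le_rfl hj (by omega) (by omega) (le_E h.c1.cm aN)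
  have aC := mem_centralizer_iff.1 (Γ.Q_le_cE _ aQ) _ hc
  have fp := Γ.even h.c0.cm hx hxN
  have cN : x * z * x⁻¹ ∈ N := (mem_normalizer_iff.1 fp.norm z).1 h.c0.mem
  rcases trv.uniq (Γ.four h.c0.cm) cN (by rw [← aC, mul_inv_cancel_right]) with e | e
  · refine h.c0.ne ?_
    calc z = x⁻¹ * (x * z * x⁻¹) * x := by group
      _ = 1 := by rw [e]; group
  · exact h.c0.ne (fp.fix z h.c0.mem e)

private theorem g4_dbl {k : ℕ} (h : Γ.Mat (k + 2) δ N N' z) (k0 : 0 < k) (hx : x ∈ Γ.X (δ 0))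
    (hxN : x ∉ 𝐂(N)) (hy : y ∈ Γ.X (x • δ 1)) {N₂ : Subgroup G}
    (h2 : Γ.Mat (k + 2) (shift y (shift x δ)) (M ^ᶜ y) N₂ c) : M ≠ N := by
  rintro rfl
  have cx : Γ.CX (x • δ 1) := h.cx (by omega) (Γ.symm (adj_X h.c0.adj hx))
  have c1 : Γ.Cen (y • δ 0) (x • δ 1) (M ^ᶜ y) c := h2.c0
  have e := c1.uniq ((h.c0.smul_X hx).move cx hy)
  have c2 : c ∈ Γ.E (δ k) := le_E (v := δ k) h2.c1.cm h2.c1.mem
  exact g4_key h hx hxN k0 (by omega) (e ▸ c2)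

theorem Mat.not_three (h : Γ.Mat 3 δ N N' z) : False := by
  have a1 : Γ.adj (δ 1) (δ 2) := h.path 1 (by omega)
  obtain ⟨y, hy, e⟩ := Γ.xtr (Γ.symm h.c0.adj) a1
  have c := h.c0.move (h.cx (by omega) a1) hy
  rw [e] at c
  exact h.c0.ne (eq_one_of_cX (le_E c.cm c.mem) (h.cx (by omega) (Γ.symm a1) _ _ _ h.c1))

theorem Mat.not_five (h : Γ.Mat b δ N N' z) (h5 : 5 ≤ b) : False := by
  obtain ⟨k, rfl⟩ : ∃ k, b = k + 4 := ⟨b - 4, by omega⟩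
  have b2 : 2 ≤ k + 4 := by omega
  obtain ⟨x₀, hx₀, nx₀, -⟩ := Γ.full h.c0.cm
  obtain ⟨M₀, hM₀, cM₀⟩ := h.exists_not_cov b2
  obtain ⟨L₁, c₁, h₁⟩ := h.shift b2 hM₀ cM₀ hx₀ nx₀
  obtain ⟨x₁, hx₁, nx₁, -⟩ := Γ.full h₁.c0.cm
  obtain ⟨M₁, hM₁, cM₁⟩ := h₁.exists_not_cov b2
  obtain ⟨L₂, c₂, h₂⟩ := h₁.shift b2 hM₁ cM₁ hx₁ nx₁
  have n₁ : M₁ ≠ N := g4_dbl (k := k + 2) h (by omega) hx₀ nx₀ hx₁ h₂
  obtain ⟨x₂, hx₂, nx₂, ox₂⟩ := Γ.full h₂.c0.cm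
  obtain ⟨M₂, hM₂, cM₂⟩ := h₂.exists_not_cov b2
  obtain ⟨L₃, c₃, h₃⟩ := h₂.shift b2 hM₂ cM₂ hx₂ nx₂
  obtain ⟨x₃, hx₃, nx₃, -⟩ := Γ.full h₃.c0.cm
  obtain ⟨M₃, hM₃, cM₃⟩ := h₃.exists_not_cov b2
  obtain ⟨L₄, c₄, h₄⟩ := h₃.shift b2 hM₃ cM₃ hx₃ nx₃
  have n₃ : M₃ ≠ M₁ ^ᶜ x₁ := g4_dbl (k := k + 2) h₂ (by omega) hx₂ nx₂ hx₃ h₄
  have cx₁ : Γ.CX (x₀ • δ 1) := h.cx b2 (Γ.symm (adj_X h.c0.adj hx₀))
  have C1 : Γ.Cen (x₁ • δ 0) (x₀ • δ 1) (N ^ᶜ x₁) (x₀ * z * x₀⁻¹) :=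
    (h.c0.smul_X hx₀).move cx₁ hx₁
  have n₂ : N ^ᶜ x₁ ≠ M₁ ^ᶜ x₁ := fun e => n₁ (cj_inj.1 e).symm
  have e₃ : M₃ = N ^ᶜ x₁ := (Γ.two (x₁ • δ 0)).eq_other h₂.c0.cm C1.cm n₂ hM₃ n₃
  have C2 := C1.smul_X hx₂
  have f₂ : x₂ * (x₀ * z * x₀⁻¹) * x₂⁻¹ = x₀ * z * x₀⁻¹ := by
    rw [← mem_centralizer_iff.1 (ox₂ _ C1.cm n₂) _ C1.mem, mul_inv_cancel_right]
  rw [f₂] at C2
  have C3 := C2.move (h.cx b2 (Γ.symm C2.adj)) hx₃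
  have C4 : Γ.Cen (x₃ • x₁ • δ 0) (x₂ • x₀ • δ 1) (M₃ ^ᶜ x₃) c₄ := h₄.c0
  rw [e₃] at C4
  have e := C4.uniq C3
  have c2 : c₄ ∈ Γ.E (δ k) := le_E (v := δ k) h₄.c1.cm h₄.c1.mem
  exact g4_key h hx₀ nx₀ (j := k) (by omega) (by omega) (e ▸ c2)


end Geo

end H16Q
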