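import Mathlib
import Cfsg.Agent.Base
import Cfsg.Agent.Lib.QZ.G2

/-!
The critical distance is not four.
-/

set_option autoImplicit false
set_option linter.unusedSectionVars false
set_option linter.unusedVariables false

namespace H16Q

open Subgroup H69 H70 Cfsg MulAction
open scoped commutatorElement Pointwise

variable {G : Type*} [Group G] [Finite G] {V : Type*} [MulAction G V]

namespace Geo

variable {Γ : Geo G V} {v w : V} {N N' M A : Subgroup G} {a c g m x y z z' : G} {b n : ℕ} {δ : ℕ → V}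

theorem G5_step (h : Γ.Mat 4 δ N N' z) (hM : M ∈ Γ.Cm (δ 1)) (hx : x ∈ Γ.X (δ 0)) {k l : G}
    (hk : k ∈ Γ.X (δ 1)) (ek : k • δ 0 = δ 2) (hl : l ∈ Γ.X (δ 2)) (el : l • δ 1 = δ 3) {N₃ : Subgroup G}
    (h' : Γ.Mat 4 (shift x δ) (M ^ᶜ x) N₃ c) : k ∈ 𝐂(M) ∧ N₃ = M ^ᶜ l := by
  have c0 : Γ.Cen (x • δ 1) (δ 0) (M ^ᶜ x) c := h'.c0
  have c1 : Γ.Cen (δ 3) (δ 2) N₃ c := h'.c1
  have d0 := c0.move (h.cx0 (by norm_num)) (inv_mem hx)
  have d1 := c1.move (h.cx (by norm_num) (h.path 2 (by norm_num))) (inv_mem hl)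
  rw [inv_smul_smul, cj_cj_inv] at d0
  rw [← el, inv_smul_smul] at d1
  have e := (Γ.disj _).eq d1.cm hM d1.mem d0.mem d0.ne
  rw [e] at d1
  have d2 := d0.smul_X hk
  rw [ek] at d2
  exact ⟨cent_of_fix hk hM d0.mem d0.ne (d2.uniq d1), by rw [← e, cj_inv_cj]⟩

theorem Mat.not_four (h : Γ.Mat 4 δ N N' z) : False := by
  have h2 : 2 ≤ 4 := by norm_num
  have a01 : Γ.adj (δ 0) (δ 1) := h.path 0 (by norm_num)
  have a12 : Γ.adj (δ 1) (δ 2) := h.path 1 (by norm_num)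
  have a23 : Γ.adj (δ 2) (δ 3) := h.path 2 (by norm_num)
  have a34 : Γ.adj (δ 3) (δ 4) := h.path 3 (by norm_num)
  have hN := h.c0.cm
  obtain ⟨M, hM, nc⟩ := h.exists_not_cov h2
  obtain ⟨x, hx, xN, -⟩ := Γ.full hN
  obtain ⟨N₃, c, h'⟩ := h.shift h2 hM nc hx xN
  obtain ⟨k, hk, ek⟩ := Γ.xtr (Γ.symm a01) a12
  obtain ⟨l, hl, el⟩ := Γ.xtr (Γ.symm a12) a23
  obtain ⟨j, hj, ej⟩ := Γ.xtr a34 (Γ.symm a23)
  obtain ⟨kM, e3⟩ := G5_step h hM hx hk ek hl el h'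
  have E2 : Γ.E (δ 2) = Γ.E (δ 0) ^ᶜ k := by rw [← ek, E_smul]
  obtain ⟨M', hM', kM'⟩ : ∃ M' ∈ Γ.Cm (δ 1), k ∉ 𝐂(M') := by
    by_contra hc
    push Not at hc
    have e : Γ.E (δ 0) ^ᶜ k = Γ.E (δ 0) :=
      cj_eq_of_mem_normalizer (Pm.of_norm (Γ.K (Γ.symm a01) hk hc)).norm_sSup
    have le : Γ.E (δ 2) ≤ Γ.Q (δ 4) := near h.bel h.path h2 le_rfl (by norm_num) (by norm_num)
    rw [E2, e] at le
    exact h.nc ((le_E hN).trans (le.trans (Γ.Qc h.c1.cm)))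
  have cov : Γ.Cov (δ 0) N M' := by
    refine h.cov_of_le h2 hM' hx xN ?_
    by_contra hc
    obtain ⟨N'', c', h''⟩ := mat_of_not_le (δ := H16Q.shift x δ) h.bel h.pos h'.path (Γ.Cm_smul x hM') hc
    exact kM' (G5_step h hM' hx hk ek hl el h'').1
  obtain ⟨s, ⟨s1, s0⟩, es⟩ := Γ.ctr (Γ.symm a01) hM' hM
  have cov' := cov.smul s
  rw [show s • δ 0 = δ 0 from s0, es] at cov'
  have hs : N ^ᶜ s ∈ Γ.Cm (δ 0) := pm s0 N hN
  have ne : N ≠ N ^ᶜ s := fun e => nc (e ▸ cov')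
  have d1 := h.c0.move (h.cx h2 a12) hk
  have c1 : Γ.Cen (δ 4) (δ 3) N' z := h.c1
  have d2 := c1.move (h.cx h2 a34) hj
  rw [ek] at d1
  rw [ej] at d2
  rw [(Γ.disj _).eq d2.cm d1.cm d2.mem d1.mem d1.ne] at d2
  have d3 := d1.smul_X hl
  rw [el] at d3
  have lN := cent_of_fix hl d1.cm d1.mem d1.ne (d3.uniq d2)
  rw [← cj_centralizer, mem_cj] at lN
  have lX : k⁻¹ * l * k ∈ Γ.X (δ 0) := by rw [← mem_cj, ← Γ.X_smul, ek]; exact hl
  have ln := cov'.le a01 hs hM lX fun K hK hKn => by rw [(Γ.two _).eq_other hs hN ne hK hKn]; exact lN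
  rw [← mem_cj, cj_normalizer, cj_sup, cj_eq_of_mem_centralizer kM, ← E2] at ln
  have le3 : N₃ ≤ M ⊔ Γ.E (δ 2) := e3 ▸ cj_le_of_mem_normalizer le_sup_left ln
  have q1 : Γ.E (H16Q.shift x δ 0) ≤ Γ.Q (H16Q.shift x δ 2) :=
    near h.bel h'.path (by norm_num) h2 (by norm_num) (by norm_num)
  have q2 : Γ.E (H16Q.shift x δ 0) ≤ Γ.Q (H16Q.shift x δ 3) :=
    near h.bel h'.path (by norm_num) (by norm_num) (by norm_num) (by norm_num)
  have m := le_E h'.c0.cm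
  refine h'.nc (le_centralizer_iff.1 (le3.trans (sup_le (le_centralizer_iff.1 ?_) (le_centralizer_iff.1 ?_))))
  · exact m.trans (q1.trans (Γ.Qc hM))
  · exact m.trans (q2.trans (Γ.Q_le_cE _))


end Geo

end H16Q
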