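import Mathlib
import Cfsg.Agent.Base
import Cfsg.Agent.Lib.QZ.G3
import Cfsg.Agent.Lib.QZ.G4
import Cfsg.Agent.Lib.QZ.G5

/-!
The critical distance is one.
-/

set_option autoImplicit false
set_option linter.unusedSectionVars false
set_option linter.unusedVariables false

namespace H16Q

open Subgroup H69 H70 Cfsg MulAction
open scoped commutatorElement Pointwise

variable {G : Type*} [Group G] [Finite G] {V : Type*} [MulAction G V]

namespace Geo

variable {Γ : Geo G V} {v w : V} {N N' M A : Subgroup G} {a c g m x y z z' : G} {b n : ℕ} {δ : ℕ → V}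

/-- there is a walk from `u` to `v`. -/
private def G6Reach (Γ : Geo G V) (u v : V) : Prop := ∃ (n : ℕ) (δ : ℕ → V), Γ.Path n δ ∧ δ 0 = u ∧ δ n = v

private theorem g6_refl (Γ : Geo G V) (v : V) : G6Reach Γ v v :=
  ⟨0, fun _ => v, fun _ hi => absurd hi (Nat.not_lt_zero _), rfl, rfl⟩

private theorem g6_step {u : V} (h : G6Reach Γ u v) (ha : Γ.adj v w) : G6Reach Γ u w := by
  obtain ⟨n, δ, hp, h0, hn⟩ := h
  refine ⟨n + 1, fun i => if i ≤ n then δ i else w, fun i hi => ?_, by simp [h0], by simp⟩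
  rcases Nat.lt_succ_iff_lt_or_eq.1 hi with h1 | h1
  · simp only [if_pos h1.le, if_pos (Nat.succ_le_of_lt h1)]
    exact hp i h1
  · subst h1
    simp only [if_pos le_rfl, if_neg (Nat.not_succ_le_self i), hn]
    exact ha

private theorem g6_smul {u : V} (h : G6Reach Γ u v) (g : G) : G6Reach Γ (g • u) (g • v) := by
  obtain ⟨n, δ, hp, h0, hn⟩ := h
  exact ⟨n, fun i => g • δ i, fun i hi => Γ.adj_smul g (hp i hi), by simp [h0], by simp [hn]⟩

/-- the product of the components at all vertices from which `v` is reached. -/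
private def G6U (Γ : Geo G V) (v : V) : Subgroup G := ⨆ u : {u : V // G6Reach Γ u v}, Γ.E u.1

private theorem g6_le {u : V} (h : G6Reach Γ u v) : Γ.E u ≤ G6U Γ v :=
  le_iSup (fun u : {u : V // G6Reach Γ u v} => Γ.E u.1) ⟨u, h⟩

private theorem g6_mono (ha : Γ.adj v w) : G6U Γ v ≤ G6U Γ w :=
  iSup_le fun u => g6_le (g6_step u.2 ha)

private theorem g6_norm (Γ : Geo G V) (v : V) : stabilizer G v ≤ 𝐍(G6U Γ v) := by
  refine le_normalizer_of_cj_le fun g hg => ?_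
  unfold G6U
  rw [cj_iSup]
  refine iSup_le fun u => ?_
  rw [← Γ.E_smul]
  have h := g6_smul u.2 g
  rw [mem_stabilizer_iff.1 hg] at h
  exact g6_le h

theorem exists_not_far (Γ : Geo G V) : ∃ n, ¬ Γ.Far n := by
  by_contra hc
  have hf : ∀ n, Γ.Far n := fun n => by_contra fun h => hc ⟨n, h⟩
  obtain ⟨v, w, ha⟩ := Γ.ex
  have hQ : G6U Γ v ≤ Γ.Q v := by
    refine iSup_le fun u => ?_
    obtain ⟨u, n, δ, hp, h0, hn⟩ := u
    have h := hf n δ hp
    rw [h0, hn] at h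
    exact h
  have he : G6U Γ v = G6U Γ w := le_antisymm (g6_mono ha) (g6_mono (Γ.symm ha))
  have hb := Γ.core (G6U Γ v) ha hQ (g6_norm Γ v) (he ▸ g6_norm Γ w)
  obtain ⟨N, hN⟩ := Γ.ne v
  exact (Γ.four hN).ne_bot (eq_bot_iff.2 (hb ▸ (le_E hN).trans (g6_le (g6_refl Γ v))))

theorem b_one (Γ : Geo G V) : ∃ v w, Γ.adj v w ∧ ¬ Γ.E v ≤ Γ.Q w := by
  classical
  obtain ⟨b, hb, hB⟩ : ∃ b, ¬ Γ.Far b ∧ Γ.Below b :=
    ⟨Nat.find Γ.exists_not_far, Nat.find_spec Γ.exists_not_far, fun m hm =>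
      not_not.1 (Nat.find_min Γ.exists_not_far hm)⟩
  have h1 : 1 ≤ b := Nat.pos_of_ne_zero fun h0 => hb (Γ.below_one b (by omega))
  obtain ⟨δ, hp, hc⟩ : ∃ δ : ℕ → V, Γ.Path b δ ∧ ¬ Γ.E (δ 0) ≤ Γ.Q (δ b) := by
    by_contra hc
    exact hb fun δ hp => by_contra fun h => hc ⟨δ, hp, h⟩
  obtain ⟨N, N', z, hm⟩ := mat_ex hB h1 hp hc
  have : b = 1 ∨ b = 2 ∨ b = 3 ∨ b = 4 ∨ 5 ≤ b := by omega
  rcases this with rfl | rfl | rfl | rfl | h5
  · exact ⟨δ 0, δ 1, hp 0 one_pos, hc⟩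
  · exact hm.not_two.elim
  · exact hm.not_three.elim
  · exact hm.not_four.elim
  · exact (hm.not_five h5).elim


end Geo

end H16Q
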