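import Mathlib
import Cfsg.Agent.Base
import Cfsg.Agent.Lib.QZ.F4
import Cfsg.Agent.Lib.Tech58.Extremal
import Cfsg.Agent.Lib.TwoFusion.Tools

/-!
Dihedral groups of order eight, wreathed involutions, transfer.
-/

set_option autoImplicit false
set_option linter.unusedSectionVars false
set_option linter.unusedVariables false

namespace H16Q

open Subgroup H69 H70 Cfsg
open scoped commutatorElement Pointwise

variable {G : Type*} [Group G] [Finite G]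

variable {N N' T : Subgroup G} {z d : G}

theorem D8.tw_symm (h : D8 N N' z) : D8 N' N z :=
  ⟨h.f', h.f, h.n', h.n, fun e => h.nc (le_centralizer_iff.1 e), by rw [inf_comm, h.inf], h.z1⟩

theorem D8.z_mem (h : D8 N N' z) : z ∈ N ∧ z ∈ N' := by
  have : z ∈ N ⊓ N' := h.inf ▸ mem_zpowers z
  exact this

theorem D8.trv (h : D8 N N' z) {a : G} (ha : a ∈ N') (h1 : a ≠ 1) (h2 : a ≠ z) : Trv N a z := by
  refine ⟨h.n' ha, fun hc => h.nc (le_centralizer_iff.1 ?_), h.z_mem.1, h.z1, ?_⟩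
  · exact h.f'.le_of_two ha h.z_mem.2 h1 h.z1 h2 hc (h.f.le_cent h.z_mem.1)
  · rw [h.f'.comm ha h.z_mem.2, mul_inv_cancel_right]

theorem D8.mem (h : D8 N N' z) (hd : d ∈ N ⊔ N') : ∃ n ∈ N, ∃ n' ∈ N', d = n * n' :=
  (mem_sup_of_le_normalizer_left h.n').1 hd

theorem D8.tw_sq (h : D8 N N' z) {n n' : G} (hn : n ∈ N) (hn' : n' ∈ N') (a1 : n ≠ 1) (a2 : n ≠ z)
    (b1 : n' ≠ 1) (b2 : n' ≠ z) : n * n' * (n * n') = z := by
  have e := (h.trv hn' b1 b2).conj h.f hn a1 a2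
  calc n * n' * (n * n') = n * (n' * n * n'⁻¹) * (n' * n') := by group
    _ = z := by rw [e, h.f'.sq hn', mul_one, ← mul_assoc, h.f.sq hn, one_mul]

theorem D8.tw_tri (h : D8 N N' z) (hd : d ∈ N ⊔ N') : d ∈ N ∨ d ∈ N' ∨ d * d = z := by
  obtain ⟨n, hn, n', hn', rfl⟩ := h.mem hd
  by_cases a1 : n = 1
  · right; left; rw [a1, one_mul]; exact hn'
  by_cases a2 : n = z
  · right; left; rw [a2]; exact mul_mem h.z_mem.2 hn'
  by_cases b1 : n' = 1
  · left; rw [b1, mul_one]; exact hn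
  by_cases b2 : n' = z
  · left; rw [b2]; exact mul_mem hn h.z_mem.1
  exact Or.inr (Or.inr (h.tw_sq hn hn' a1 a2 b1 b2))

theorem D8.mem_or (h : D8 N N' z) (hd : d ∈ N ⊔ N') (h2 : d * d = 1) : d ∈ N ∨ d ∈ N' := by
  rcases h.tw_tri hd with e | e | e
  · exact Or.inl e
  · exact Or.inr e
  · exact absurd (e.symm.trans h2) h.z1

theorem D8.zc (h : D8 N N' z) : z ∈ 𝐂(N ⊔ N') := by
  have : N ⊔ N' ≤ 𝐂(zpowers z) :=
    sup_le (le_centralizer_iff.1 (zpowers_le.2 (h.f.le_cent h.z_mem.1)))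
      (le_centralizer_iff.1 (zpowers_le.2 (h.f'.le_cent h.z_mem.2)))
  exact le_centralizer_iff.1 this (mem_zpowers z)

theorem D8.cent' (h : D8 N N' z) (hd : d ∈ N) (hc : d ∈ 𝐂(N')) : d ∈ zpowers z := by
  by_cases a1 : d = 1
  · rw [a1]; exact one_mem _
  by_cases a2 : d = z
  · rw [a2]; exact mem_zpowers z
  exact absurd hc (h.tw_symm.trv hd a1 a2).nc

theorem D8.cent (h : D8 N N' z) (hd : d ∈ N ⊔ N') (hc : d ∈ 𝐂(N ⊔ N')) : d ∈ zpowers z := by
  obtain ⟨n, hn, n', hn', rfl⟩ := h.mem hd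
  have c1 : n * n' ∈ 𝐂(N) := centralizer_le (SetLike.coe_subset_coe.2 le_sup_left) hc
  have c2 : n * n' ∈ 𝐂(N') := centralizer_le (SetLike.coe_subset_coe.2 le_sup_right) hc
  exact mul_mem (h.cent' hn ((Subgroup.mul_mem_cancel_right _ (h.f'.le_cent hn')).1 c2))
    (h.tw_symm.cent' hn' ((Subgroup.mul_mem_cancel_left _ (h.f.le_cent hn)).1 c1))

theorem D8.sq_mem (h : D8 N N' z) (hd : d ∈ N ⊔ N') : d * d ∈ zpowers z := by
  rcases h.tw_tri hd with e | e | e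
  · rw [h.f.sq e]; exact one_mem _
  · rw [h.f'.sq e]; exact one_mem _
  · rw [e]; exact mem_zpowers z

theorem TW_comm_mem {D U : Subgroup G} (h : ∀ a ∈ D, a * a ∈ U) {a b : G} (ha : a ∈ D) (hb : b ∈ D) :
    ⁅a, b⁆ ∈ U := by
  have e : ⁅a, b⁆ = a * a * (a⁻¹ * b * (a⁻¹ * b)) * (b⁻¹ * b⁻¹) := by
    rw [commutatorElement_def]; group
  rw [e]
  exact mul_mem (mul_mem (h a ha) (h _ (mul_mem (inv_mem ha) hb))) (h _ (inv_mem hb))

theorem D8.exists_comm (h : D8 N N' z) : ∃ n ∈ N, ∃ n' ∈ N', ⁅n, n'⁆ = z := by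
  obtain ⟨n, hn, a1, a2⟩ := h.f.exists_ne z
  obtain ⟨n', hn', b1, b2⟩ := h.f'.exists_ne z
  refine ⟨n, hn, n', hn', ?_⟩
  rw [commutatorElement_def, h.f.inv hn, h.f'.inv hn', mul_assoc (n * n')]
  exact h.tw_sq hn hn' a1 a2 b1 b2

theorem D8.comm (h : D8 N N' z) : ⁅N ⊔ N', N ⊔ N'⁆ = zpowers z := by
  refine le_antisymm (commutator_le.2 fun a ha b hb => TW_comm_mem (fun c hc => h.sq_mem hc) ha hb) ?_
  obtain ⟨n, hn, n', hn', e⟩ := h.exists_comm
  rw [zpowers_le, ← e]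
  exact commutator_mem_commutator (mem_sup_left hn) (mem_sup_right hn')

theorem D8.card (h : D8 N N' z) : Nat.card (N ⊔ N' : Subgroup G) = 8 := by
  have e := H1.card_sup_mul_card_inf_of_le_normalizer h.n
  rw [h.inf, card_zpowers_of_sq h.z1 (by rw [pow_two, h.f.sq h.z_mem.1]), h.f.card, h.f'.card] at e
  omega

theorem D8.iso (h : D8 N N' z) : Nonempty ((N ⊔ N' : Subgroup G) ≃* DihedralGroup 4) := by
  haveI : Fact (Nat.Prime 2) := ⟨Nat.prime_two⟩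
  obtain ⟨n, hn, a1, a2⟩ := h.f.exists_ne z
  obtain ⟨n', hn', b1, b2⟩ := h.f'.exists_ne z
  have e := h.tw_sq hn hn' a1 a2 b1 b2
  have z2 := h.f.sq h.z_mem.1
  have n2 := h.f.sq hn
  have ho : orderOf (n * n') = 2 ^ (1 + 1) := by
    refine orderOf_eq_prime_pow ?_ ?_
    · rw [pow_one, pow_two, e]; exact h.z1
    · rw [pow_succ, pow_one, pow_mul, pow_two (n * n'), e, pow_two, z2]
  have hc : n * (n * n') * n⁻¹ = (n * n')⁻¹ := by
    rw [← mul_assoc, n2, one_mul, mul_inv_rev, h.f'.inv hn']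
  have hN : zpowers n ≤ 𝐍(zpowers (n * n')) := by
    rw [zpowers_le, ← cj_eq_self_iff, cj_zpowers, hc, zpowers_inv]
  have hz : z ∈ zpowers (n * n') ⊔ zpowers n := by
    rw [← e]; exact mem_sup_left (mul_mem (mem_zpowers _) (mem_zpowers _))
  have hle : N ⊔ N' ≤ zpowers (n * n') ⊔ zpowers n := by
    refine sup_le (h.f.le_of_two hn h.z_mem.1 a1 h.z1 a2 (mem_sup_right (mem_zpowers _)) hz)
      (h.f'.le_of_two hn' h.z_mem.2 b1 h.z1 b2 ?_ hz)
    have : n⁻¹ * (n * n') ∈ zpowers (n * n') ⊔ zpowers n :=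
      mul_mem (mem_sup_right (inv_mem (mem_zpowers _))) (mem_sup_left (mem_zpowers _))
    rwa [inv_mul_cancel_left] at this
  refine H41.nonempty_mulEquiv_dihedral (a := n * n') (b := n) (by norm_num) ho n2 hc ?_ fun g => ⟨?_, ?_⟩
  · rintro ⟨i, hi⟩
    have c : n * (n * n') = n * n' * n := by
      have := (Commute.refl (n * n')).zpow_left i
      simp only at hi
      rw [hi] at this
      exact this.eq
    rw [c, mul_inv_cancel_right] at hc
    exact h.z1 (by rw [← e]; exact mul_eq_one_iff_eq_inv.2 hc)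
  · intro hg
    obtain ⟨_, ⟨i, rfl⟩, c, hc', rfl⟩ := (mem_sup_of_le_normalizer_left hN).1 (hle hg)
    rcases mem_zpowers_of_sq (by rw [pow_two, n2]) hc' with rfl | rfl
    · exact ⟨i, Or.inl (mul_one _)⟩
    · exact ⟨i, Or.inr rfl⟩
  · have m : n * n' ∈ N ⊔ N' := mul_mem (mem_sup_left hn) (mem_sup_right hn')
    rintro ⟨i, rfl | rfl⟩
    · exact zpow_mem m i
    · exact mul_mem (zpow_mem m i) (mem_sup_left hn)

theorem D8.inf_eq_bot (h : D8 N N' z) {M M' : Subgroup G} {w : G} (h' : D8 M M' w)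
    (hc : N ⊔ N' ≤ 𝐂(M ⊔ M')) (hzw : z ≠ w) : (N ⊔ N') ⊓ (M ⊔ M') = ⊥ := by
  refine (eq_bot_iff_forall _).2 fun d hd => ?_
  have e1 := mem_zpowers_of_sq (by rw [pow_two, h.f.sq h.z_mem.1])
    (h.cent hd.1 (le_centralizer_iff.1 hc hd.2))
  have e2 := mem_zpowers_of_sq (by rw [pow_two, h'.f.sq h'.z_mem.1]) (h'.cent hd.2 (hc hd.1))
  rcases e1 with e1 | e1
  · exact e1
  rcases e2 with e2 | e2
  · exact e2
  exact absurd (e1.symm.trans e2) hzw

theorem TW_uniq {A A' : Subgroup G} (hi : A ⊓ A' = ⊥) {a b a' b' : G} (ha : a ∈ A) (hb : b ∈ A)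
    (ha' : a' ∈ A') (hb' : b' ∈ A') (e : a * a' = b * b') : a' = b' := by
  have e' : b⁻¹ * a = b' * a'⁻¹ := by
    rw [inv_mul_eq_iff_eq_mul, ← mul_assoc, ← e, mul_inv_cancel_right]
  have m : b' * a'⁻¹ ∈ A ⊓ A' := 
    mem_inf.2 ⟨e' ▸ A.mul_mem (A.inv_mem hb) ha, A'.mul_mem hb' (A'.inv_mem ha')⟩
  rw [hi, mem_bot, mul_inv_eq_one] at m
  exact m.symm

/-- the involutions of the coset `(A × A') s` are conjugate under `A`. -/
theorem wr {A A' : Subgroup G} (hc : A ≤ 𝐂(A')) (hi : A ⊓ A' = ⊥) {s s' : G} (h1 : A ^ᶜ s = A')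
    (h2 : A' ^ᶜ s = A) (hs : s * s = 1) (hs' : s' * s' = 1) (h : s' * s⁻¹ ∈ A ⊔ A') :
    ∃ a ∈ A, a * s * a⁻¹ = s' := by
  obtain ⟨a, ha, a', ha', e⟩ :=
    (mem_sup_of_le_normalizer_right (hc.trans (centralizer_le_normalizer _))).1 h
  obtain rfl : s' = a * a' * s := by rw [← e, inv_mul_cancel_right]
  have m1 : s * a * s⁻¹ ∈ A' := h1 ▸ cj_mem s ha
  have m2 : s * a' * s⁻¹ ∈ A := h2 ▸ cj_mem s ha'
  have c := hc m2 _ (mul_mem ha' m1)
  have e2 : a * (s * a' * s⁻¹) * (a' * (s * a * s⁻¹)) = 1 * 1 := by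
    rw [mul_assoc a, ← c, mul_one, ← hs']
    calc a * (a' * (s * a * s⁻¹) * (s * a' * s⁻¹)) = a * a' * s * (a * a' * s) * (s * s)⁻¹ := by group
      _ = _ := by rw [hs, inv_one, mul_one]
  have e3 := TW_uniq hi (mul_mem ha m2) (one_mem _) (mul_mem ha' m1) (one_mem _) e2
  refine ⟨a, ha, ?_⟩
  rw [eq_inv_of_mul_eq_one_left e3]
  group

/-- the coset `(A × A') s` contains an involution when `s² ∈ A × A'`. -/
theorem wr_ex {A A' : Subgroup G} (hc : A ≤ 𝐂(A')) (hi : A ⊓ A' = ⊥) {s : G} (h1 : A ^ᶜ s = A')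
    (h2 : A' ^ᶜ s = A) (hs : s * s ∈ A ⊔ A') : ∃ a ∈ A, a * s * (a * s) = 1 := by
  obtain ⟨a, ha, a', ha', e⟩ :=
    (mem_sup_of_le_normalizer_right (hc.trans (centralizer_le_normalizer _))).1 hs
  have m1 : s * a * s⁻¹ ∈ A' := h1 ▸ cj_mem s ha
  have m2 : s * a' * s⁻¹ ∈ A := h2 ▸ cj_mem s ha'
  have e2 : s * a' * s⁻¹ * (s * a * s⁻¹) = a * a' := by
    rw [← hc m2 _ m1, ← e]
    calc s * a * s⁻¹ * (s * a' * s⁻¹) = s * (a * a') * s⁻¹ := by group
      _ = _ := by rw [← e]; group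
  have e3 := TW_uniq hi m2 ha m1 ha' e2
  refine ⟨a⁻¹, inv_mem ha, ?_⟩
  calc a⁻¹ * s * (a⁻¹ * s) = ((s * a * s⁻¹) * a)⁻¹ * (s * s) := by group
    _ = 1 := by rw [e3, e, hc ha _ ha', inv_mul_cancel]

omit [Finite G] in
theorem TW_no_two [IsSimpleGroup G] (hG : ¬ IsMulCommutative G) (N : Subgroup G) : N.index ≠ 2 :=
  fun e => by
  rcases (normal_of_index_eq_two e).eq_bot_or_eq_top with rfl | rfl
  · rw [index_bot] at e
    exact hG (isCyclic_of_prime_card e).isMulCommutative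
  · simp at e

/-- Thompson transfer into `U` with `T / U` abelian having at most one coset of involutions. -/
theorem tt [IsSimpleGroup G] (hG : ¬ IsMulCommutative G) (hT : IsSylowIn 2 T ⊤) {U : Subgroup G}
    (hc : ∀ a ∈ T, ∀ b ∈ T, ⁅a, b⁆ ∈ U) {e : G} (he : e ∈ T) (hi : ∀ s ∈ T, s * s = 1 → s ∈ U ∨ s * e ∈ U)
    {y : G} (hy : y ∈ T) (h2 : y * y = 1) : ∃ g : G, g * y * g⁻¹ ∈ T ∧ g * y * g⁻¹ ∈ U := by
  obtain ⟨S, rfl⟩ := hT.exists_sylow_top
  have hN : (U.subgroupOf S).Normal := ⟨fun n hn g => by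
    have := mul_mem (hc _ g.2 _ n.2) (mem_subgroupOf.1 hn)
    rwa [commutatorElement_def, inv_mul_cancel_right] at this⟩
  letI : CommGroup (S.1 ⧸ U.subgroupOf S) := { (inferInstance : Group (S.1 ⧸ U.subgroupOf S)) with
    mul_comm := by
      rintro ⟨a⟩ ⟨b⟩
      refine QuotientGroup.eq.2 ?_
      simpa [mem_subgroupOf, mul_assoc, commutatorElement_def] using
        hc _ (inv_mem b.2) _ (inv_mem a.2) }
  obtain ⟨g, m, k, -⟩ := H58.exists_extremal_conj' (TW_no_two hG) S (QuotientGroup.mk' (U.subgroupOf S))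
    (QuotientGroup.mk' (U.subgroupOf S) ⟨e, he⟩)⁻¹ (fun s hs => (hi s s.2 (by
      simpa [pow_two] using congrArg Subtype.val hs)).imp
        (fun m => (QuotientGroup.eq_one_iff s).2 (mem_subgroupOf.2 m)) fun m =>
        eq_inv_of_mul_eq_one_left (by
          rw [← map_mul]; exact (QuotientGroup.eq_one_iff (s * ⟨e, he⟩)).2 (mem_subgroupOf.2 m)))
    (y := y) (by rw [pow_two, h2]) hy
  exact ⟨g, m, mem_subgroupOf.1 ((QuotientGroup.eq_one_iff (⟨_, m⟩ : S.1)).1 k)⟩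

/-- Thompson transfer into a subgroup of index at most two. -/
theorem tt2 [IsSimpleGroup G] (hG : ¬ IsMulCommutative G) (hT : IsSylowIn 2 T ⊤) {U : Subgroup G}
    (hU : Le2 U T) {y : G} (hy : y ∈ T) (h2 : y * y = 1) :
    ∃ g : G, g * y * g⁻¹ ∈ T ∧ g * y * g⁻¹ ∈ U := by
  by_cases hle : T ≤ U
  · exact ⟨1, by simpa using hy, by simpa using hle hy⟩
  obtain ⟨e, he, heU⟩ := exists_not_mem_of_not_le hle
  refine tt hG hT (fun a ha b hb => TW_comm_mem (fun c hc => ?_) ha hb) he (fun s hs _ => ?_) hy h2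
  · by_cases hcU : c ∈ U
    · exact mul_mem hcU hcU
    · exact hU c hc c hc hcU hcU
  · by_cases hsU : s ∈ U
    · exact Or.inl hsU
    · exact Or.inr (hU s hs e he hsU heU)

/-- extremal conjugation. -/
theorem ext_conj (hz : IsSylowIn 2 (T ⊓ centralizer {z}) (centralizer {z})) {y : G} (h : IsConj y z)
    {P : Subgroup G} (hP : IsPGroup 2 P) (hc : P ≤ centralizer {y}) :
    ∃ g : G, g * y * g⁻¹ = z ∧ ∀ c ∈ P, g * c * g⁻¹ ∈ T := by
  haveI : Fact (Nat.Prime 2) := ⟨Nat.prime_two⟩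
  obtain ⟨g, hg⟩ := isConj_iff.1 h
  have hle : P ^ᶜ g ≤ centralizer {z} := by
    rw [← hg, ← cj_centralizer_singleton]; exact cj_mono g hc
  obtain ⟨c, hcz, hcT⟩ := hz.exists_cj_le (isPGroup_cj hP g) hle
  refine ⟨c * g, ?_, fun x hx => ?_⟩
  · calc c * g * y * (c * g)⁻¹ = c * (g * y * g⁻¹) * c⁻¹ := by group
      _ = z := by rw [hg, mem_centralizer_singleton_iff.1 hcz, mul_inv_cancel_right]
  · rw [cj_cj] at hcT
    exact (hcT (cj_mem (c * g) hx)).1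

/-- either `C_T(z)` is Sylow in `C(z)` or `z` is conjugate into the centre of `T`. -/
theorem syl_or (hT : IsSylowIn 2 T ⊤) (hz : z ∈ T) (h2 : Le2 (centralizer {z}) T) :
    IsSylowIn 2 (T ⊓ centralizer {z}) (centralizer {z}) ∨ ∃ y ∈ T, T ≤ centralizer {y} ∧ IsConj z y := by
  haveI : Fact (Nat.Prime 2) := ⟨Nat.prime_two⟩
  obtain ⟨S, hS, hle⟩ := exists_isSylowIn_le
    (hT.isP.to_inf_left : IsPGroup 2 (T ⊓ centralizer {z} : Subgroup G)) inf_le_right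
  by_cases e : T ⊓ centralizer {z} = S
  · left; rwa [e]
  right
  have c1 := h2.card_le
  rw [inf_comm] at c1
  obtain ⟨k, hk⟩ := card_dvd_of_le hle
  have k1 : k ≠ 1 := by
    rintro rfl
    exact e (eq_of_le_of_card_ge hle (by omega))
  have k0 : k ≠ 0 := by
    rintro rfl
    exact (Nat.card_pos (α := S)).ne' (by omega)
  have c2 : Nat.card T ≤ Nat.card S := by
    rw [hk]
    exact c1.trans (by rw [mul_comm]; exact Nat.mul_le_mul_left _ (by omega))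
  obtain ⟨g, -, hg⟩ := (hT.of_card_le hS.isP le_top c2).conj hT
  have hzS : z ∈ S := hle ⟨hz, mem_centralizer_singleton_iff.2 rfl⟩
  refine ⟨g * z * g⁻¹, hg ▸ cj_mem g hzS, ?_, isConj_iff.2 ⟨g, rfl⟩⟩
  rw [← hg, ← cj_centralizer_singleton]
  exact cj_mono g hS.le

end H16Q
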