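import Mathlib
import Cfsg.Agent.Base
import Cfsg.Agent.Lib.QZ.B1
import Cfsg.Agent.Lib.QZ.TW

/-!
Fusion of involutions into `Q₁ ∩ Q₂`.
-/

set_option autoImplicit false
set_option linter.unusedSectionVars false
set_option linter.unusedVariables false

namespace H16Q

open Subgroup H69 H70 Cfsg
open scoped commutatorElement Pointwise

variable {G : Type*} [Group G] [Finite G]

variable {T X X₁ X₂ H M R : Subgroup G} {C C₁ C₂ : Set (Subgroup G)}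

namespace INV

variable {N N' M' : Subgroup G} {z w f n m u v : G}

theorem cc (p : Par T X C) : ∀ A ∈ C, ∀ B ∈ C, A ≤ 𝐂(B) := fun A hA B hB =>
  le_cent_sSup.1 ((p.leQ A hA).trans inf_le_right) B hB

theorem cjc {K : Subgroup G} {g c : G} (hg : g ∈ 𝐍(K)) (hc : c ∈ 𝐂(K)) : g * c * g⁻¹ ∈ 𝐂(K) :=
  H69.conj_mem_of_mem_normalizer (H69.normalizer_le_normalizer_centralizer K hg) hc

theorem cube (h4 : Four N) (hf : Fpf N f) (f3 : f ^ 3 = 1) (hn : n ∈ N) (hm : m ∈ 𝐂(N))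
    (c : Commute m f) (m2 : m * m = 1) (e : (n * m * f) ^ 3 = 1) : m = 1 := by
  have c1 : Commute m n := (mem_centralizer_iff.1 hm n hn).symm
  have e1 : (n * f) ^ 3 = n * (f * n * f⁻¹) * (f * (f * n * f⁻¹) * f⁻¹) * f ^ 3 := by
    simp only [pow_succ, pow_zero, one_mul, mul_assoc, inv_mul_cancel_left]
  rw [← c1.eq, mul_assoc, (c1.mul_right c).mul_pow, e1, hf.prod h4 hn, f3, mul_one, mul_one, pow_succ,
    sq, m2, one_mul] at e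
  exact e

theorem exists_f (h : Str T X₁ X₂ C₁ C₂) (hN : N ∈ C₁) :
    ∃ f ∈ X₁, f ^ 3 = 1 ∧ Fpf N f ∧ ∀ M ∈ C₁, M ≠ N → f ∈ 𝐂(M) := by
  obtain ⟨x, hx, hc, ho⟩ := h.p1.full N hN
  have fx := h.p1.even N hN x hx hc
  have h3 := fx.cube (h.p1.four N hN)
  have h4 : x ^ 3 ∈ sSup C₁ := h.s1.cX ⟨pow_mem hx 3, mem_cent_sSup.2 fun K hK => by
    by_cases e : K = N
    · exact e ▸ h3
    · exact pow_mem (ho K hK e) 3⟩
  have h5 : (x ^ 3) ^ 2 = 1 := (ea_sSup h.p1.four (cc h.p1)).2 _ h4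
  refine ⟨x * x ^ 3, mul_mem hx (pow_mem hx 3), ?_, fx.mul_cent h3,
    fun K hK e => mul_mem (ho K hK e) (pow_mem (ho K hK e) 3)⟩
  calc (x * x ^ 3) ^ 3 = ((x ^ 3) ^ 2) ^ 2 := by group
    _ = 1 := by rw [h5, one_pow]

theorem key (h : Str T X₁ X₂ C₁ C₂) (hN : N ∈ C₁) (hf : f ∈ X₁) (f3 : f ^ 3 = 1) (ff : Fpf N f)
    (ho : ∀ M ∈ C₁, M ≠ N → f ∈ 𝐂(M)) (hv : v ∈ 𝐍(X₁)) (hc : v ∈ 𝐂(N)) (hn : ∀ M ∈ C₁, v ∈ 𝐍(M)) :
    v * f * v⁻¹ * f⁻¹ ∈ N := by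
  have hx : v * f * v⁻¹ * f⁻¹ ∈ X₁ := mul_mem (H69.conj_mem_of_mem_normalizer hv hf) (inv_mem hf)
  have h1 : v * f * v⁻¹ * f⁻¹ ∈ sSup C₁ := h.s1.cX ⟨hx, mem_cent_sSup.2 fun K hK => by
      by_cases e : K = N
      · have := mul_mem hc (cjc ff.norm (inv_mem hc))
        rw [e]
        convert this using 1
        group
      · exact mul_mem (cjc (hn K hK) (ho K hK e)) (inv_mem (ho K hK e))⟩
  obtain ⟨n, hn', m, hm, e⟩ := h.p1.two.mem_sSup (cc h.p1) hN h1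
  rcases hm with rfl | ⟨K, hK, hne, hm⟩
  · rw [e, mul_one]; exact hn'
  have := cube (h.p1.four N hN) ff f3 hn' (cc h.p1 K hK N hN hm)
    (mem_centralizer_iff.1 (ho K hK hne) m hm) ((h.p1.four K hK).sq hm) (by
      rw [← e, inv_mul_cancel_right, conj_pow, f3, mul_one, mul_inv_cancel])
  rw [e, this, mul_one]; exact hn'

theorem mv1 (h : One T X₁ X₂ C₁ C₂) (hN : N ∈ C₁) (hn : n ∈ N) :
    ∃ g ∈ X₁, g * n * g⁻¹ ∈ sSup C₁ ⊓ sSup C₂ ∧ ∀ M ∈ C₁, M ≠ N → g ∈ 𝐂(M) := by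
  by_cases h1 : n = 1
  · exact ⟨1, one_mem _, by simp [h1], fun _ _ _ => one_mem _⟩
  obtain ⟨N', z, t⟩ := h.m1 N hN
  obtain ⟨x, hx, hc, ho⟩ := h.p1.full N hN
  have hz : z ∈ sSup C₁ ⊓ sSup C₂ := ⟨le_sSup hN t.d.z_mem.1, le_sSup t.m' t.d.z_mem.2⟩
  rcases (h.p1.even N hN x hx hc).tr t.d.f hn t.d.z_mem.1 h1 t.d.z1 with e | e | e
  · exact ⟨1, one_mem _, by simpa [← e] using hz, fun _ _ _ => one_mem _⟩
  · exact ⟨x, hx, e ▸ hz, ho⟩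
  · exact ⟨x⁻¹, inv_mem hx, by rw [inv_inv]; exact e ▸ hz, fun K hK e => inv_mem (ho K hK e)⟩

theorem mv (h : One T X₁ X₂ C₁ C₂) {d : G} (hd : d ∈ sSup C₁) :
    ∃ g ∈ X₁, g * d * g⁻¹ ∈ sSup C₁ ⊓ sSup C₂ := by
  obtain ⟨N, hN⟩ := h.p1.ne
  obtain ⟨n, hn, m, hm, rfl⟩ := h.p1.two.mem_sSup (cc h.p1) hN hd
  obtain ⟨g, hg, e, ho⟩ := mv1 h hN hn
  rcases hm with rfl | ⟨K, hK, hne, hm⟩
  · exact ⟨g, hg, by rwa [mul_one]⟩
  obtain ⟨k, hk, e', ho'⟩ := mv1 h hK hm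
  refine ⟨k * g, mul_mem hk hg, ?_⟩
  have e1 := H69.conj_eq_of_mem_centralizer (ho K hK hne) hm
  have e2 := H69.conj_eq_of_mem_centralizer (ho' N hN hne.symm)
    (H69.conj_mem_of_mem_normalizer (h.p1.Xn N hN hg) hn)
  have : k * g * (n * m) * (k * g)⁻¹ = k * (g * n * g⁻¹) * k⁻¹ * (k * (g * m * g⁻¹) * k⁻¹) := by group
  rw [this, e1, e2]
  exact mul_mem e e'

theorem mixed (h : Str T X₁ X₂ C₁ C₂) (t : Mt C₁ C₂ N N' z) (hM : M' ∈ C₂) (hne : M' ≠ N')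
    (hu : u ∈ N) (hv : v ∈ M') : ∃ g ∈ X₁ ⊔ sSup C₂, g * (u * v) * g⁻¹ ∈ sSup C₂ := by
  have h4 := t.d.f
  obtain ⟨f, hf, f3, ff, ho⟩ := exists_f h t.m
  have hvE : v ∈ sSup C₂ := le_sSup hM hv
  have hzE : z ∈ sSup C₂ := le_sSup t.m' t.d.z_mem.2
  have hvc : v⁻¹ ∈ 𝐂(N) := inv_mem (le_centralizer_iff.1 (t.o' M' hM hne) hv)
  have h0 := key h t.m hf f3 ff ho (inv_mem (h.p1.tX (h.p2.leQ M' hM hv).1)) hvc
    fun K hK => inv_mem (h.toOne.nE hK hvE)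
  obtain ⟨k, hk, ek⟩ := ff.surj h4 (inv_mem h0)
  have fx : f * (k * v) * f⁻¹ = k * v := by
    have c := mem_centralizer_iff.1 (inv_mem hvc) _ h0
    rw [inv_inv] at ek c
    calc f * (k * v) * f⁻¹ = f * k * f⁻¹ * k⁻¹ * k * (v * (v⁻¹ * f * v * f⁻¹)) := by group
      _ = (v⁻¹ * f * v * f⁻¹)⁻¹ * (k * (v⁻¹ * f * v * f⁻¹)) * v := by rw [ek, ← c]; group
      _ = k * v := by rw [h4.comm hk (by rwa [inv_inv] at h0)]; group
  have main : ∀ u ∈ N, u ≠ k → ∃ g ∈ X₁, g * (u * v) * g⁻¹ ∈ sSup C₂ := fun u hu hne => by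
    obtain ⟨c, hc, hck⟩ : ∃ c, (c ∈ N ∧ c ∈ sSup C₂) ∧ c ≠ k := by
      by_cases e : k = 1
      · exact ⟨z, ⟨t.d.z_mem.1, hzE⟩, e ▸ t.d.z1⟩
      · exact ⟨1, ⟨one_mem _, one_mem _⟩, Ne.symm e⟩
    have e0 : ∀ g : G, g * (k * v) * g⁻¹ = k * v → c * k⁻¹ = g * (u * k⁻¹) * g⁻¹ →
        g * (u * v) * g⁻¹ ∈ sSup C₂ := fun g e1 e2 => by
      have : g * (u * v) * g⁻¹ = g * (u * k⁻¹) * g⁻¹ * (g * (k * v) * g⁻¹) := by group
      rw [this, e1, ← e2, mul_assoc, inv_mul_cancel_left]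
      exact mul_mem hc.2 hvE
    rcases ff.tr h4 (mul_mem hu (inv_mem hk)) (mul_mem hc.1 (inv_mem hk)) (mul_inv_eq_one.not.2 hne)
      (mul_inv_eq_one.not.2 hck) with e | e | e
    · exact ⟨1, one_mem _, e0 1 (by group) (by rw [e]; group)⟩
    · exact ⟨f, hf, e0 f fx e⟩
    · refine ⟨f⁻¹, inv_mem hf, e0 f⁻¹ ?_ (by rw [inv_inv]; exact e)⟩
      conv_lhs => rw [← fx]
      group
  by_cases e : u = k
  swap
  · obtain ⟨g, hg, e1⟩ := main u hu e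
    exact ⟨g, mem_sup_left hg, e1⟩
  by_cases u1 : u = 1
  · exact ⟨1, one_mem _, by simpa [u1] using hvE⟩
  by_cases uz : u = z
  · exact ⟨1, one_mem _, by simpa [uz] using mul_mem hzE hvE⟩
  obtain ⟨a, ha, a1, az⟩ := t.d.f'.exists_ne z
  obtain ⟨g, hg, e1⟩ := main (u * z) (mul_mem hu t.d.z_mem.1) fun e2 => t.d.z1 (by
    rw [← e] at e2; simpa using e2)
  refine ⟨g * a, mul_mem (mem_sup_left hg) (mem_sup_right (le_sSup t.m' ha)), ?_⟩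
  have : g * a * (u * v) * (g * a)⁻¹ = g * (a * u * a⁻¹ * (a * v * a⁻¹)) * g⁻¹ := by group
  rwa [this, (t.d.trv ha a1 az).conj h4 hu u1 uz,
    H69.conj_eq_of_mem_centralizer (cc h.p2 N' t.m' M' hM ha) hv]

theorem mt_ne (t : Mt C₁ C₂ N N' z) (t' : Mt C₁ C₂ M M' w) (hne : M ≠ N) : M' ≠ N' := fun e =>
  t'.d.nc (le_centralizer_iff.1 (e ▸ t.o M t'.m hne))

theorem red (h : Str T X₁ X₂ C₁ C₂) {d : G} (hd : d ∈ sSup C₁ ⊔ sSup C₂) (h2 : d * d = 1) :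
    d ∈ sSup C₁ ∨ ∃ g ∈ X₁ ⊔ sSup C₂, g * d * g⁻¹ ∈ sSup C₂ := by
  have triv : d ∈ sSup C₂ → d ∈ sSup C₁ ∨ ∃ g ∈ X₁ ⊔ sSup C₂, g * d * g⁻¹ ∈ sSup C₂ :=
    fun e => Or.inr ⟨1, one_mem _, by simpa using e⟩
  rcases h.p1.two.cases h.p1.ne with ⟨N, e⟩ | ⟨N, M, hne, e⟩
  · have hN : N ∈ C₁ := by rw [e]; exact rfl
    obtain ⟨N', z, t⟩ := h.m1 N hN
    have h1 : sSup C₁ ⊔ sSup C₂ ≤ N ⊔ N' := by
      refine sup_le (by rw [e, sSup_singleton]; exact le_sup_left) (sSup_le fun K hK => ?_)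
      obtain ⟨L, w, t'⟩ := h.m2 K hK
      have hL := t'.m
      rw [e] at hL
      by_cases e1 : K = N'
      · exact e1 ▸ le_sup_right
      · exact absurd hL (mt_ne t.symm t'.symm e1)
    exact (t.d.mem_or (h1 hd) h2).elim (fun e => Or.inl (le_sSup hN e)) fun e => triv (le_sSup t.m' e)
  have hN : N ∈ C₁ := by rw [e]; exact Or.inl rfl
  have hM : M ∈ C₁ := by rw [e]; exact Or.inr rfl
  obtain ⟨N', z, t⟩ := h.m1 N hN
  obtain ⟨M', w, t'⟩ := h.m1 M hM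
  have hne' := mt_ne t t' hne.symm
  have hc : N ⊔ N' ≤ 𝐂(M ⊔ M') := by
    rw [H69.centralizer_sup]
    exact sup_le (le_inf (cc h.p1 N hN M hM) (t.o' M' t'.m' hne'))
      (le_inf (t.o M hM hne.symm) (cc h.p2 N' t.m' M' t'.m'))
  have hi := t.d.inf_eq_bot t'.d hc fun e1 =>
    hne (h.p1.disj.eq hN hM t.d.z_mem.1 (e1 ▸ t'.d.z_mem.1) t.d.z1)
  have h1 : sSup C₁ ⊔ sSup C₂ ≤ (N ⊔ N') ⊔ (M ⊔ M') := by
    refine sup_le (by rw [e, sSup_pair]; exact sup_le_sup le_sup_left le_sup_left)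
      (sSup_le fun K hK => ?_)
    by_cases e1 : K = N'
    · exact e1 ▸ le_sup_right.trans le_sup_left
    · exact h.p2.two.eq_other t.m' t'.m' hne' hK e1 ▸ le_sup_right.trans le_sup_right
  obtain ⟨a, ha, b, hb, rfl⟩ := (mem_sup_of_le_normalizer_right
    (hc.trans (centralizer_le_normalizer _))).1 (h1 hd)
  have c : b * a = a * b := mem_centralizer_iff.1 (hc ha) b hb
  have e1 : a * a * (b * b) = 1 := by
    rw [← h2]
    calc a * a * (b * b) = a * (a * b) * b := by group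
      _ = a * (b * a) * b := by rw [c]
      _ = a * b * (a * b) := by group
  have e3 : a * a ∈ M ⊔ M' := by
    rw [eq_inv_of_mul_eq_one_left e1]; exact inv_mem (mul_mem hb hb)
  have e2 : a * a = 1 := mem_bot.1 (hi ▸ mem_inf.2 ⟨mul_mem ha ha, e3⟩)
  rw [e2, one_mul] at e1
  rcases t.d.mem_or ha e2 with h3 | h3 <;> rcases t'.d.mem_or hb e1 with h4 | h4
  · exact Or.inl (mul_mem (le_sSup hN h3) (le_sSup hM h4))
  · exact Or.inr (mixed h t t'.m' hne' h3 h4)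
  · rw [← c]
    exact Or.inr (mixed h t' t.m' hne'.symm h4 h3)
  · exact triv (mul_mem (le_sSup t.m' h3) (le_sSup t'.m' h4))

end INV

open INV in
theorem Str.inv (h : Str T X₁ X₂ C₁ C₂) {d y : G} (hd : d ∈ sSup C₁ ⊔ sSup C₂) (hy : y ∈ Yc T X₁ C₁)
    (h2 : d * y * (d * y) = 1) : ∃ r ∈ sSup C₁ ⊓ sSup C₂, IsConj (d * y) (r * y) := by
  have hy2 := h.s1.YI hy
  have y2 : y * y = 1 := by rw [← sq]; exact h.s1.ea.2 y hy.1
  have cd : d * y = y * d := mem_centralizer_iff.1 (show y ∈ 𝐂(sSup C₁ ⊔ sSup C₂) by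
    rw [H69.centralizer_sup]; exact ⟨hy.1.2, hy2.2⟩) d hd
  have d2 : d * d = 1 := by
    rw [← h2]
    calc d * d = d * (y * y) * d := by rw [y2, mul_one]
      _ = d * y * (y * d) := by group
      _ = d * y * (d * y) := by rw [cd]
  have cj : ∀ g a b : G, g * b = b * g → IsConj (a * b) (g * a * g⁻¹ * b) := fun g a b e =>
    isConj_iff.2 ⟨g, by rw [mul_assoc (g * a), (show Commute g b from e).inv_left.eq]; group⟩
  rcases red h hd d2 with e | ⟨g, hg, e⟩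
  · obtain ⟨g, hg, e1⟩ := mv h.toOne e
    exact ⟨_, e1, cj g d y (mem_centralizer_iff.1 hy.2 g hg)⟩
  have c1 := cj g d y (mem_centralizer_iff.1 (show y ∈ 𝐂(X₁ ⊔ sSup C₂) by
    rw [H69.centralizer_sup]; exact ⟨hy.2, hy2.2⟩) g hg)
  have hy3 : y ∈ (sSup C₂ ⊓ sSup C₁) ⊔ Yc T X₂ C₂ := h.s2.IR ▸ ⟨hy2, hy.1⟩
  obtain ⟨r, hr, y', hy', rfl⟩ := (mem_sup_of_le_normalizer_left
    (show Yc T X₂ C₂ ≤ 𝐍(sSup C₂ ⊓ sSup C₁) from fun c hc => centralizer_le_normalizer _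
      (centralizer_le (SetLike.coe_subset_coe.2 inf_le_left) hc.1.2))).1 hy3
  obtain ⟨k, hk, e1⟩ := mv h.toOne.symm (mul_mem e hr.1)
  have c2 := cj k (g * d * g⁻¹ * r) y' (mem_centralizer_iff.1 hy'.2 k hk)
  refine ⟨k * (g * d * g⁻¹ * r) * k⁻¹ * r⁻¹, mul_mem ⟨e1.2, e1.1⟩ (inv_mem ⟨hr.2, hr.1⟩), c1.trans ?_⟩
  rw [← mul_assoc, mul_assoc _ r⁻¹, inv_mul_cancel_left]
  exact c2

open INV in
theorem Str.c3 (h : Str T X₁ X₂ C₁ C₂) {s : G} (hs : s ∈ T) (hB : s ∉ 𝐁(T)) (h2 : s * s = 1) :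
    ∃ f : G, orderOf f = 3 ∧ Commute f s := by
  obtain ⟨N, hN⟩ := h.p1.ne
  have hn : s ∉ 𝐍(N) := fun e => hB (h.s1.Bt s hs N hN e)
  have hM := h.p1.tperm s hs N hN
  have hne : N ^ᶜ s ≠ N := fun e => hn (cj_eq_self_iff.1 e)
  have e0 : (N ^ᶜ s) ^ᶜ s = N := by rw [cj_cj, h2, cj_one]
  obtain ⟨f, hf, f3, ff, ho⟩ := exists_f h hN
  have hg : s * f * s⁻¹ ∈ X₁ := H69.conj_mem_of_mem_normalizer (h.p1.tX hs) hf
  have gc : s * f * s⁻¹ ∈ 𝐂(N) := by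
    have := cj_mem s (ho _ hM hne)
    rwa [cj_centralizer, e0] at this
  have g3 : (s * f * s⁻¹) ^ 3 = 1 := by rw [conj_pow, f3, mul_one, mul_inv_cancel]
  have k1 := key h hN hf f3 ff ho (le_normalizer hg) gc fun K hK => h.p1.Xn K hK hg
  have k2 := key h hM hg g3 (ff.cj s) (fun K hK e =>
    h.p1.two.eq_other hM hN hne.symm hK e ▸ gc) (le_normalizer hf) (ho _ hM hne)
    fun K hK => h.p1.Xn K hK hf
  have c : Commute (s * f * s⁻¹) f := by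
    by_contra e
    refine hne (h.p1.disj.eq hM hN ?_ k1 fun e1 => e ?_)
    · convert inv_mem k2 using 1
      group
    · rwa [mul_inv_eq_one, mul_inv_eq_iff_eq_mul] at e1
  have : Fact (Nat.Prime 3) := ⟨Nat.prime_three⟩
  refine ⟨f * (s * f * s⁻¹), orderOf_eq_prime (by rw [c.symm.mul_pow, f3, g3, mul_one]) fun e =>
    (ff.mul_cent gc).not_cent (h.p1.four N hN) (e ▸ one_mem _), ?_⟩
  have si : s⁻¹ = s := inv_eq_of_mul_eq_one_right h2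
  show f * (s * f * s⁻¹) * s = s * (f * (s * f * s⁻¹))
  calc f * (s * f * s⁻¹) * s = s * s * f * s * f := by rw [h2]; group
    _ = s * (s * f * s⁻¹ * f) := by rw [si]; group
    _ = s * (f * (s * f * s⁻¹)) := by rw [c.eq]

end H16Q
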