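import Mathlib
import Cfsg.Agent.Base
import Cfsg.Agent.Lib.QZ.Defs
import Cfsg.Agent.Lib.QZ.F4

/-!
First properties of the parabolic.
-/

set_option autoImplicit false
set_option linter.unusedSectionVars false
set_option linter.unusedVariables false

namespace H16Q

open Subgroup H69 H70 Cfsg
open scoped commutatorElement Pointwise

variable {G : Type*} [Group G] [Finite G]

variable {T X X₁ X₂ H M R : Subgroup G} {C C₁ C₂ : Set (Subgroup G)}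

theorem P1_mem_of_odd {L : Subgroup G} (hT : IsPGroup 2 T) (hn : T ≤ 𝐍(L)) {x : G} (hx : x ∈ L ⊔ T)
    (ho : Odd (orderOf x)) : x ∈ L := by
  obtain ⟨l, hl, t, ht, rfl⟩ := (mem_sup_of_le_normalizer_left hn).1 hx
  have key : ∀ n : ℕ, (l * t) ^ n * (t ^ n)⁻¹ ∈ L := fun n => by
    induction n with
    | zero => simp
    | succ n ih =>
      have e : (l * t) ^ (n + 1) * (t ^ (n + 1))⁻¹ = l * (t * ((l * t) ^ n * (t ^ n)⁻¹) * t⁻¹) := by
        rw [pow_succ', pow_succ']; group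
      rw [e]
      exact mul_mem hl (conj_mem_of_mem_normalizer (hn ht) ih)
  obtain ⟨k, hk⟩ := H69.isPGroup_iff_mem.1 hT t ht
  have h1 := key (2 ^ k)
  rw [hk, inv_one, mul_one] at h1
  have h2 : l * t ∈ zpowers ((l * t) ^ 2 ^ k) :=
    mem_zpowers_pow_iff.2 (Nat.Coprime.pow_left k (Nat.coprime_two_left.2 ho))
  exact zpowers_le.2 h1 h2

theorem P1_perm (p : Par0 T X C) : ∀ g ∈ X ⊔ T, Pm C g :=
  Pm.of_sup (fun a ha => Pm.of_norm fun N hN => p.Xn N hN ha) p.tperm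

theorem P1_PE (p : Par0 T X C) : X ⊔ T ≤ 𝐍(sSup C) := fun g hg => (P1_perm p g hg).norm_sSup

theorem P1_PK (p : Par0 T X C) : X ⊔ T ≤ 𝐍((X ⊔ T) ⊓ 𝐂(sSup C)) :=
  H69.le_normalizer_inf le_normalizer (H69.le_normalizer_centralizer (P1_PE p))

theorem P1_notF (h : QS T) (p : Par0 T X C) {N : Subgroup G} (hN : N ∈ C) {a : G}
    (ha : a ∈ T ⊔ (X ⊔ T) ⊓ 𝐂(sSup C)) : ¬ Fpf N a := fun hf => by
  obtain ⟨t, ht, k, hk, rfl⟩ :=
    (mem_sup_of_le_normalizer_right (le_sup_right.trans (P1_PK p))).1 ha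
  have h1 := hf.mul_cent (inv_mem (mem_cent_sSup.1 hk.2 N hN))
  rw [mul_inv_cancel_right] at h1
  exact h1.not_two (p.four N hN) h.syl.isP ht

theorem P1_XnA (h : QS T) (p : Par0 T X C) : ¬ X ≤ T ⊔ (X ⊔ T) ⊓ 𝐂(sSup C) := fun hle => by
  obtain ⟨N, hN⟩ := p.ne
  obtain ⟨x, hx, hc, -⟩ := p.full N hN
  exact P1_notF h p hN (hle hx) (p.even N hN x hx hc)

theorem P1_sylQ (h : QS T) (p : Par0 T X C) : IsSylowIn 2 (Qc T C) ((X ⊔ T) ⊓ 𝐂(sSup C)) := by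
  have h1 := (h.syl.mono (le_sup_right (a := X)) le_top).inf_normal inf_le_left (P1_PK p)
  rwa [← inf_assoc, inf_eq_left.2 (le_sup_right (a := X))] at h1

theorem P1_tQ (p : Par0 T X C) : T ≤ 𝐍(Qc T C) :=
  H69.le_normalizer_inf le_normalizer
    (H69.le_normalizer_centralizer (le_sup_right.trans (P1_PE p)))

theorem P1_PQ (h : QS T) (p : Par0 T X C) : X ⊔ T ≤ 𝐍(Qc T C) := by
  rcases p.mx ((X ⊔ T) ⊓ 𝐍(Qc T C)) (le_inf le_sup_right (P1_tQ p)) inf_le_left with e | e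
  · exact e.ge.trans inf_le_right
  · have h1 := (P1_sylQ h p).frattini_sup inf_le_left (P1_PK p)
    exact absurd (le_sup_left.trans (h1.ge.trans (sup_le le_sup_right e))) (P1_XnA h p)

theorem P1_gen (h : QS T) (p : Par0 T X C) (L : Subgroup G) (hL : L ≤ X ⊔ T) (hn : X ⊔ T ≤ 𝐍(L)) :
    X ≤ L ∨ L ≤ 𝐂(sSup C) := by
  rcases p.mx (L ⊔ T) le_sup_right (sup_le hL le_sup_right) with e | e
  · refine Or.inl (p.og.ge.trans ((closure_le L).2 fun x hx => ?_))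
    exact P1_mem_of_odd h.syl.isP (le_sup_right.trans hn) (e.ge hx.1) hx.2
  · refine Or.inr (le_cent_sSup.2 fun N hN l hl => ?_)
    have hA := le_sup_left.trans e
    by_contra hc
    obtain ⟨x, hx, hxc, ho⟩ := p.full N hN
    have hf := p.even N hN x hx hxc
    have hcm : x * l * x⁻¹ * l⁻¹ ∈ L :=
      mul_mem (conj_mem_of_mem_normalizer (hn (mem_sup_left hx)) hl) (inv_mem hl)
    by_cases hl' : l ∈ 𝐍(N)
    · rcases (p.four N hN).tri hl' with h1 | h1 | ⟨z, h1⟩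
      · exact hc h1
      · exact P1_notF h p hN (hA hl) h1
      · exact P1_notF h p hN (hA hcm) (h1.comm_fpf' (p.four N hN) hf)
    · have hM : N ^ᶜ l⁻¹ ∈ C := (P1_perm p l (hL hl)).inv N hN
      have hne : N ^ᶜ l⁻¹ ≠ N := fun e1 => hl' (inv_mem_iff.1 (cj_eq_self_iff.1 e1))
      have h1 := cj_mem l (inv_mem (ho _ hM hne))
      rw [cj_centralizer, cj_inv_cj] at h1
      have h2 := hf.mul_cent h1
      refine P1_notF h p hN (hA hcm) ?_
      simpa only [mul_assoc] using h2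

theorem P1_uq (h : QS T) (p : Par0 T X C) :
    ∃! K : Subgroup (X ⊔ T : Subgroup G), IsCoatom K ∧ T.subgroupOf (X ⊔ T) ≤ K := by
  have hne : (T ⊔ (X ⊔ T) ⊓ 𝐂(sSup C)).subgroupOf (X ⊔ T) ≠ ⊤ := fun e =>
    P1_XnA h p (le_sup_left.trans (subgroupOf_eq_top.1 e))
  have key : ∀ K : Subgroup (X ⊔ T : Subgroup G), T.subgroupOf (X ⊔ T) ≤ K →
      K = ⊤ ∨ K ≤ (T ⊔ (X ⊔ T) ⊓ 𝐂(sSup C)).subgroupOf (X ⊔ T) := fun K hK => by
    rcases p.mx (K.map (X ⊔ T).subtype) ((subgroupOf_le_iff le_sup_right).1 hK) (map_subtype_le K)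
      with e | e
    · exact Or.inl (map_subtype_eq_self_iff.1 e)
    · exact Or.inr (le_subgroupOf_iff.2 e)
  have hT : T.subgroupOf (X ⊔ T) ≤ (T ⊔ (X ⊔ T) ⊓ 𝐂(sSup C)).subgroupOf (X ⊔ T) :=
    subgroupOf_mono _ le_sup_left
  refine ⟨_, ⟨⟨hne, fun b hb => (key b (hT.trans hb.le)).resolve_right hb.not_ge⟩, hT⟩, ?_⟩
  rintro K ⟨hK, hTK⟩
  exact ((hK.le_iff.1 ((key K hTK).resolve_left hK.1)).resolve_left hne).symm

theorem P1_syl (h : QS T) (p : Par0 T X C) (A : Subgroup G) (hA : A ≤ X ⊔ T) (h2 : IsPGroup 2 A)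
    (hc : A ≤ 𝐂(sSup C)) : A ≤ Qc T C :=
  (P1_sylQ h p).le_of_le_normalizer' h2 (le_inf hA hc) (hA.trans (P1_PQ h p))

theorem P1_OP (h : QS T) (p : Par0 T X C) : 𝐎(X ⊔ T) = Qc T C := by
  refine le_antisymm ?_
    (H70.le_pCoreOf (P1_sylQ h p).isP (inf_le_left.trans le_sup_right) (P1_PQ h p))
  rcases P1_gen h p _ (H70.pCoreOf_le 2 _) (H70.le_normalizer_pCoreOf 2 _) with e | e
  · have h1 : 𝐎(X ⊔ T) ≤ T := (h.syl.mono le_sup_right le_top).le_of_le_normalizer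
      (H70.isPGroup_pCoreOf 2 _) (H70.pCoreOf_le 2 _)
      (le_sup_right.trans (H70.le_normalizer_pCoreOf 2 _))
    exact absurd (e.trans (h1.trans le_sup_left)) (P1_XnA h p)
  · exact P1_syl h p _ (H70.pCoreOf_le 2 _) (H70.isPGroup_pCoreOf 2 _) e

theorem P1_cQ (h : QS T) (p : Par0 T X C) : 𝐂(Qc T C) ≤ Qc T C := by
  obtain ⟨N, hN⟩ := p.ne
  have h1 : Qc T C ≤ 𝐎(𝐍(Qc T C)) := H70.le_pCoreOf (P1_sylQ h p).isP le_normalizer le_rfl
  have h2 : 𝐎(𝐍(Qc T C)) ≠ ⊥ := fun e =>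
    (p.four N hN).ne_bot (eq_bot_iff.2 ((p.leQ N hN).trans (h1.trans e.le)))
  have h3 : 𝐎(𝐍(Qc T C)) ≤ T := (h.syl.mono (P1_tQ p) le_top).le_of_le_normalizer
    (H70.isPGroup_pCoreOf 2 _) (H70.pCoreOf_le 2 _)
    ((P1_tQ p).trans (H70.le_normalizer_pCoreOf 2 _))
  have h4 : 𝐎(𝐍(Qc T C)) ≤ Qc T C :=
    (H70.le_pCoreOf (H70.isPGroup_pCoreOf 2 _) (h3.trans le_sup_right)
      ((P1_PQ h p).trans (H70.le_normalizer_pCoreOf 2 _))).trans (P1_OP h p).le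
  exact (le_inf (le_normalizer_of_le_centralizer le_rfl) (centralizer_anti h4)).trans
    ((h.chr _ (P1_tQ p) h2).trans h4)

theorem P1_EX (p : Par0 T X C) : sSup C ≤ X := by
  refine sSup_le fun N hN n hn => ?_
  obtain ⟨x, hx, hc, -⟩ := p.full N hN
  obtain ⟨m, hm, rfl⟩ := (p.even N hN x hx hc).surj (p.four N hN) hn
  have h1 := mul_mem hx (conj_mem_of_mem_normalizer (p.tX (p.leQ N hN hm).1) (inv_mem hx))
  simpa only [mul_assoc] using h1

theorem Par0.par1 (h : QS T) (p : Par0 T X C) : Par1 T X C :=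
  { toPar0 := p
    XQ := le_sup_left.trans (P1_PQ h p)
    tQ := P1_tQ p
    gen := P1_gen h p
    uq := P1_uq h p
    syl := P1_syl h p
    OP := P1_OP h p
    cQ := P1_cQ h p
    EX := P1_EX p
    ne_bot := fun e => by
      obtain ⟨N, hN⟩ := p.ne
      exact (p.four N hN).ne_bot (eq_bot_iff.2 ((le_sSup hN).trans e.le)) }

end H16Q
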