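import Mathlib
import Cfsg.Agent.Base
import Cfsg.Agent.Lib.QZ.Defs
import Cfsg.Agent.Lib.QZ.F4

/-!
Further properties of the parabolic.
-/

set_option autoImplicit false
set_option linter.unusedSectionVars false
set_option linter.unusedVariables false

namespace H16Q

open Subgroup H69 H70 Cfsg
open scoped commutatorElement Pointwise

variable {G : Type*} [Group G] [Finite G]

variable {T X X₁ X₂ H M R : Subgroup G} {C C₁ C₂ : Set (Subgroup G)}

namespace P2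

theorem res_X (p : Par1 T X C) : 𝐑(2, X) = X := by
  have e : 𝐑(2, (X ⊔ T : Subgroup G)) = X := (closure_odd_eq (X ⊔ T)).symm.trans p.og
  have := res_res (p := 2) (X ⊔ T)
  rw [e] at this
  exact this

theorem cm (p : Par1 T X C) : ∀ A ∈ C, ∀ B ∈ C, A ≤ 𝐂(B) := fun A hA B hB =>
  ((p.leQ A hA).trans inf_le_right).trans (H69.centralizer_anti (le_sSup hB))

theorem TXQ (h : QS T) (p : Par1 T X C) : T ⊓ X ≤ Qc T C := fun t ht =>
  ⟨ht.1, mem_cent_sSup.2 fun N hN => by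
    by_contra e
    exact (p.even N hN t ht.2 e).not_two (p.four N hN) h.syl.isP ht.1⟩

theorem s2 (h : QS T) (p : Par1 T X C) : T ⊓ X ≤ ⁅Qc T C, X⁆ := by
  have hS : IsSylowIn 2 (T ⊓ X) X := (h.syl.mono (K := X ⊔ T) le_sup_right le_top).inf_normal le_sup_left
    (sup_le le_normalizer p.tX)
  refine le_trans (le_inf (le_inf le_rfl (TXQ h p)) ?_) (inf_res_le_of_transfer (E := Qc T C) hS
    (commutator_mono (TXQ h p) inf_le_right) le_rfl)
  rw [res_X p]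
  exact inf_le_right

theorem le_ncl_of (p : Par1 T X C) {N : Subgroup G} (hN : N ∈ C) {n m : G} (hn : n ∈ N) (hn1 : n ≠ 1)
    (hm : m = 1 ∨ ∃ M ∈ C, M ≠ N ∧ m ∈ M) : N ≤ ncl (zpowers (n * m)) X := by
  obtain ⟨x, hx, hxN, hxM⟩ := p.full N hN
  have hf := p.even N hN x hx hxN
  have hxm : x * m * x⁻¹ = m := by
    rcases hm with rfl | ⟨M, hM, hne, hm⟩
    · group
    · exact conj_eq_of_mem_centralizer (hxM M hM hne) hm
  have h0 : n * m ∈ ncl (zpowers (n * m)) X := le_ncl _ _ (mem_zpowers _)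
  have hxn : x ∈ 𝐍(ncl (zpowers (n * m)) X) := le_normalizer_ncl _ _ hx
  have ha : x * n * x⁻¹ * n⁻¹ ∈ ncl (zpowers (n * m)) X := by
    have h1 := mul_mem (conj_mem_of_mem_normalizer hxn h0) (inv_mem h0)
    have e : x * (n * m) * x⁻¹ * (n * m)⁻¹ = x * n * x⁻¹ * (x * m * x⁻¹) * m⁻¹ * n⁻¹ := by group
    rw [e, hxm, mul_inv_cancel_right] at h1
    exact h1
  have haN : x * n * x⁻¹ * n⁻¹ ∈ N := mul_mem (conj_mem_of_mem_normalizer hf.norm hn) (inv_mem hn)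
  have ha1 : x * n * x⁻¹ * n⁻¹ ≠ 1 := fun e => hn1 (hf.fix n hn (mul_inv_eq_one.1 e))
  refine (p.four N hN).le_of_two haN (conj_mem_of_mem_normalizer hf.norm haN) ha1 (fun e => ha1 ?_)
    (fun e => ha1 (hf.fix _ haN e.symm)) ha (conj_mem_of_mem_normalizer hxn ha)
  rwa [mul_inv_eq_one, mul_eq_left] at e

theorem zeta (h : QS T) (p : Par1 T X C) : ∃ ζ ∈ 𝐙(T), sSup C ≤ ncl (zpowers ζ) X := by
  obtain ⟨N, hN⟩ := p.ne
  obtain ⟨z, hz, hz1, hzc⟩ := (p.four N hN).two_fix (A := T ⊓ 𝐍(N)) (h.syl.isP.to_le inf_le_left)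
    inf_le_right
  have hzT : z ∈ T := (p.leQ N hN hz).1
  have fix : ∀ t ∈ T, t ∈ 𝐍(N) → t * z * t⁻¹ = z := fun t ht hn =>
    conj_eq_of_mem_centralizer (hzc ⟨ht, hn⟩) (mem_zpowers z)
  by_cases hT : T ≤ 𝐍(N)
  · refine ⟨z, mem_oz2.2 ⟨hzT, mem_centralizer_iff_commute.2 fun t ht =>
      mul_inv_eq_iff_eq_mul.1 (fix t ht (hT ht)), by rw [sq]; exact (p.four N hN).sq hz⟩, sSup_le fun B hB => ?_⟩
    obtain ⟨t, ht, rfl⟩ := p.ttr N hN B hB
    rw [cj_eq_of_mem_normalizer (hT ht)]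
    have := le_ncl_of p hN hz hz1 (m := 1) (Or.inl rfl)
    rwa [mul_one] at this
  obtain ⟨s, hs, hsN⟩ := SetLike.not_le_iff_exists.1 hT
  have hM : N ^ᶜ s ∈ C := p.tperm s hs N hN
  have hne : N ^ᶜ s ≠ N := fun e => hsN (cj_eq_self_iff.1 e)
  have hw : s * z * s⁻¹ ∈ N ^ᶜ s := cj_mem s hz
  have hw1 : s * z * s⁻¹ ≠ 1 := fun e => hz1 (by rwa [mul_inv_eq_one, mul_eq_left] at e)
  have hc : z * (s * z * s⁻¹) = s * z * s⁻¹ * z :=
    (mem_centralizer_iff_commute.1 (cm p N hN _ hM hz) _ hw).symm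
  refine ⟨z * (s * z * s⁻¹), mem_oz2.2 ⟨mul_mem hzT (mul_mem (mul_mem hs hzT) (inv_mem hs)),
    mem_centralizer_iff_commute.2 fun t ht => mul_inv_eq_iff_eq_mul.1 ?_, ?_⟩, sSup_le fun B hB => ?_⟩
  · have e : t * (z * (s * z * s⁻¹)) * t⁻¹ = (t * z * t⁻¹) * (t * s * z * (t * s)⁻¹) := by group
    rw [e]
    by_cases htN : t ∈ 𝐍(N)
    · have h1 : t ∈ 𝐍(N ^ᶜ s) := (p.tperm t ht).other p.two hN htN hM
      rw [← cj_normalizer, mem_cj] at h1
      have h2 := fix _ (mul_mem (mul_mem (inv_mem hs) ht) hs) h1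
      rw [fix t ht htN]
      congr 1
      conv_rhs => rw [← h2]
      group
    · have h1 : s⁻¹ * t ∈ 𝐍(N) := (p.tperm s hs).inv.mul_norm p.two (p.tperm t ht) hN
        (fun e => hsN (inv_mem_iff.1 e)) htN
      have h2 : t * s ∈ 𝐍(N) := (p.tperm t ht).mul_norm p.two (p.tperm s hs) hN htN hsN
      have h3 := fix _ (mul_mem (inv_mem hs) ht) h1
      rw [fix _ (mul_mem ht hs) h2, hc]
      congr 1
      conv_rhs => rw [← h3]
      group
  · rw [sq]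
    calc z * (s * z * s⁻¹) * (z * (s * z * s⁻¹)) = z * (s * z * s⁻¹ * z) * (s * z * s⁻¹) := by group
      _ = (z * z) * (s * z * s⁻¹ * (s * z * s⁻¹)) := by rw [← hc]; group
      _ = 1 := by rw [(p.four N hN).sq hz, (p.four _ hM).sq hw, one_mul]
  · by_cases e : B = N
    · rw [e]
      exact le_ncl_of p hN hz hz1 (Or.inr ⟨_, hM, hne, hw⟩)
    · rw [p.two.eq_other hN hM hne hB e, hc]
      exact le_ncl_of p hM hw hw1 (Or.inr ⟨_, hN, hne.symm, hz⟩)

theorem not_X_le (p : Par1 T X C) : ¬ X ≤ 𝐂(sSup C) := fun e => by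
  obtain ⟨N, hN⟩ := p.ne
  obtain ⟨x, hx, hxN, -⟩ := p.full N hN
  exact hxN (mem_cent_sSup.1 (e hx) N hN)

theorem pred (p : Par1 T X C) : PRed 2 (sSup C) (X ⊔ T) := by
  refine ⟨p.EX.trans le_sup_left, sup_le (fun x hx => (Pm.of_norm fun N hN => p.Xn N hN hx).norm_sSup)
    fun t ht => (p.tperm t ht).norm_sSup, ea_sSup p.four (cm p), red_def.2 fun L h1 h2 h3 => ?_⟩
  refine (p.gen L h1 h2).resolve_left fun e => not_X_le p ?_
  exact ((res_X p).ge.trans (res_mono e)).trans h3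

theorem XB (h : QS T) (p : Par1 T X C) : T ⊓ X ≤ 𝐁(T) := by
  have hO : 𝐎(X ⊔ T) ≠ ⊥ := by
    rw [p.OP]
    exact fun e => p.ne_bot (le_bot_iff.1 ((sSup_le p.leQ).trans e.le))
  have hT : IsSylowIn 2 T (X ⊔ T) := h.syl.mono le_sup_right le_top
  have hB := (baumann_sylow (h.solv _ le_sup_right hO) hT (h.chr _ le_sup_right hO) (pred p) p.OP.ge).1
  have hX : X ≤ ncl 𝐁(T) (X ⊔ T) := (p.gen _ (ncl_le_self ((B_le T).trans le_sup_right))
    (le_normalizer_ncl _ _)).resolve_right fun e => p.Jc (((J_le_B T).trans (le_ncl _ _)).trans e)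
  exact hB.le_of_le_normalizer' (h.syl.isP.to_le inf_le_left) (inf_le_right.trans hX)
    (inf_le_left.trans (le_normalizer.trans (norm_le_norm_B T)))

end P2

theorem Par1.par (h : QS T) (p : Par1 T X C) : Par T X C :=
  ⟨p, P2.TXQ h p, P2.s2 h p, P2.zeta h p, P2.XB h p⟩

end H16Q
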