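import Mathlib
import Cfsg.Agent.Base
import Cfsg.Agent.Lib.QZ.TW

/-!
Two components on each side, `Y = 1`.
-/

set_option autoImplicit false
set_option linter.unusedSectionVars false
set_option linter.unusedVariables false

namespace H16Q

open Subgroup H69 H70 Cfsg
open scoped commutatorElement Pointwise

variable {G : Type*} [Group G] [Finite G]

variable [IsSimpleGroup G] {T N N' M M' Y : Subgroup G} {z w : G}

theorem tr2a_comm {a b c d : G} (h1 : b * c = c * b) (h2 : a * c = c * a) (h3 : a * d = d * a)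
    (h4 : b * d = d * b) : ⁅a * c, b * d⁆ = ⁅a, b⁆ * ⁅c, d⁆ := by
  have k1 : Commute a (c * d * c⁻¹) :=
    (Commute.mul_right h2 h3).mul_right (Commute.inv_right h2)
  have k2 : Commute b ⁅c, d⁆ := by
    rw [commutatorElement_def]
    exact ((Commute.mul_right h1 h4).mul_right (Commute.inv_right h1)).mul_right (Commute.inv_right h4)
  calc ⁅a * c, b * d⁆ = a * (c * b) * d * c⁻¹ * a⁻¹ * d⁻¹ * b⁻¹ := by
        simp only [commutatorElement_def]; group
    _ = a * b * (c * d * c⁻¹ * a⁻¹) * d⁻¹ * b⁻¹ := by rw [← h1]; group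
    _ = a * b * a⁻¹ * (⁅c, d⁆ * b⁻¹) := by
        rw [← k1.inv_left.eq]; simp only [commutatorElement_def]; group
    _ = ⁅a, b⁆ * ⁅c, d⁆ := by
        rw [← k2.inv_left.eq, commutatorElement_def a b]; group

theorem tr2a_sw {A A' B B' : Subgroup G} {x y s : G} (h : D8 A A' x) (h' : D8 B B' y)
    (e : A ^ᶜ s = B) (e' : A' ^ᶜ s = B') : s * x * s⁻¹ = y := by
  have m : s * x * s⁻¹ ∈ zpowers y := h'.inf ▸ ⟨e ▸ cj_mem s h.z_mem.1, e' ▸ cj_mem s h.z_mem.2⟩
  exact (mem_zpowers_of_sq ((pow_two y).trans (h'.f.sq h'.z_mem.1)) m).resolve_left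
    fun k => h.z1 (conj_eq_one_iff.1 k)

theorem Fin2.not_one (hG : ¬ IsMulCommutative G) (h : Fin2 T N N' M M' Y z w) (hY : Nat.card Y = 1) : False := by
  obtain rfl : Y = ⊥ := card_eq_one.1 hY
  obtain ⟨syl, d1, d2, cm, zw, le, -, -, -, -, -, idx, nle, sw, ct, fus, inv, c3⟩ := h
  rw [sup_bot_eq] at le idx nle sw fus c3
  set A := N ⊔ N' with hA
  set B := M ⊔ M' with hB
  have zA : z ∈ A := mem_sup_left d1.z_mem.1
  have wB : w ∈ B := mem_sup_left d2.z_mem.1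
  have z2 : z ^ 2 = 1 := (pow_two z).trans (d1.f.sq d1.z_mem.1)
  have w2 : w ^ 2 = 1 := (pow_two w).trans (d2.f.sq d2.z_mem.1)
  have cab : ∀ a ∈ A, ∀ b ∈ B, b * a = a * b := fun a ha b hb => cm ha b hb
  have dec : ∀ x ∈ A ⊔ B, ∃ a ∈ A, ∃ b ∈ B, x = a * b := fun x hx =>
    (mem_sup_of_le_normalizer_right (le_normalizer_of_le_centralizer cm)).1 hx
  have cz : ∀ x ∈ A ⊔ B, x * z = z * x := fun x hx => by
    obtain ⟨a, ha, b, hb, rfl⟩ := dec x hx
    rw [mul_assoc, cab z zA b hb, ← mul_assoc, d1.zc a ha, mul_assoc]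
  have cw : ∀ x ∈ A ⊔ B, x * w = w * x := fun x hx => by
    obtain ⟨a, ha, b, hb, rfl⟩ := dec x hx
    rw [mul_assoc, d2.zc b hb, ← mul_assoc, ← cab a ha w wB, mul_assoc]
  have sz : ∀ s ∈ T, s ∉ A ⊔ B → s * z * s⁻¹ = w := fun s hs hn =>
    tr2a_sw d1 d2 (sw s hs hn).1 (sw s hs hn).2.1
  have sw' : ∀ s ∈ T, s ∉ A ⊔ B → s * w * s⁻¹ = z := fun s hs hn =>
    tr2a_sw d2 d1 (sw s hs hn).2.2.1 (sw s hs hn).2.2.2
  have inD : ∀ s ∈ T, s * z = z * s → s ∈ A ⊔ B := fun s hs e => by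
    by_contra hn
    exact zw (by rw [← sz s hs hn, e, mul_inv_cancel_right])
  have zeta : ∀ t ∈ T, t * (z * w) * t⁻¹ = z * w := fun t ht => by
    by_cases hn : t ∈ A ⊔ B
    · rw [← mul_assoc, cz t hn, mul_assoc z, cw t hn]; group
    · rw [← conj_mul, sz t ht hn, sw' t ht hn, cab z zA w wB]
  have R4 : ∀ r ∈ zpowers z ⊔ zpowers w, r = 1 ∨ r = z ∨ r = w ∨ r = z * w := fun r hr => by
    obtain ⟨a, ha, b, hb, rfl⟩ := (mem_sup_of_le_normalizer_right (le_normalizer_of_le_centralizer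
      (((zpowers_le.2 zA).trans cm).trans (centralizer_anti (zpowers_le.2 wB))))).1 hr
    rcases mem_zpowers_of_sq z2 ha with rfl | rfl <;> rcases mem_zpowers_of_sq w2 hb with rfl | rfl <;> simp
  have cen : ∀ x ∈ T, (∀ t ∈ T, t * x = x * t) → x ∈ zpowers z ⊔ zpowers w := fun x hx hc => by
    obtain ⟨a, ha, b, hb, rfl⟩ := dec x (inD x hx (hc z (le (mem_sup_left zA))).symm)
    refine mul_mem_sup (d1.cent ha fun t ht => ?_) (d2.cent hb fun t ht => ?_)
    · have := hc t (le (mem_sup_left ht))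
      rw [mul_assoc, cab t ht b hb, ← mul_assoc, ← mul_assoc] at this
      exact mul_right_cancel this
    · have := hc t (le (mem_sup_right ht))
      rw [← mul_assoc, cab a ha t ht, mul_assoc, mul_assoc] at this
      exact mul_left_cancel this
  obtain ⟨s, hs, hsn⟩ := exists_not_mem_of_not_le nle
  have cT : ∀ g : G, g * (z * w) * g⁻¹ = z * w → g ∈ T := fun g hg => by
    rw [← ct]
    intro x hx
    obtain ⟨x1, x2, -⟩ := mem_oz2.1 hx
    rcases R4 x (cen x x1 fun t ht => x2 t ht) with rfl | rfl | rfl | rfl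
    · simp
    · exact absurd (inD s hs (x2 s hs)) hsn
    · exact absurd (by rw [← sw' s hs hsn, x2 s hs, mul_inv_cancel_right]) zw
    · exact (mul_inv_eq_iff_eq_mul.1 hg).symm
  have cj2 : ∀ t ∈ T, t ∉ A ⊔ B → A ^ᶜ t = B ∧ B ^ᶜ t = A := fun t ht hn => by
    obtain ⟨e1, e2, e3, e4⟩ := sw t ht hn
    rw [hA, hB, cj_sup, cj_sup, e1, e2, e3, e4]
    exact ⟨rfl, rfl⟩
  obtain ⟨a, ha, h2⟩ := wr_ex cm (d1.inf_eq_bot d2 cm zw) (cj2 s hs hsn).1 (cj2 s hs hsn).2
    (idx s hs s hs hsn hsn)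
  have tT : a * s ∈ T := mul_mem (le (mem_sup_left ha)) hs
  have tn : a * s ∉ A ⊔ B := fun e => hsn ((mul_mem_cancel_left (mem_sup_left ha)).1 e)
  generalize a * s = τ at h2 tT tn
  have zR : z ∈ zpowers z ⊔ zpowers w := mem_sup_left (mem_zpowers z)
  have ζR : z * w ∈ zpowers z ⊔ zpowers w := mul_mem_sup (mem_zpowers z) (mem_zpowers w)
  have τz : IsConj τ z := by
    obtain ⟨g, -, hg⟩ := tt2 hG syl idx tT h2
    obtain ⟨r, hr, e⟩ := inv _ hg 1 (one_mem _) (by rw [mul_one, conj_mul, h2, mul_one, mul_inv_cancel])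
    rw [mul_one, mul_one] at e
    have e' : IsConj τ r := (isConj_iff.2 ⟨g, rfl⟩).trans e
    rcases R4 r hr with rfl | rfl | rfl | rfl
    · exact absurd (isConj_one_left.1 e' ▸ one_mem _) tn
    · exact e'
    · exact e'.trans (isConj_iff.2 ⟨s, sw' s hs hsn⟩)
    · obtain ⟨f, f3, fc⟩ := c3 τ tT tn h2
      obtain ⟨k, hk⟩ := isConj_iff.1 e'
      have m : k * f * k⁻¹ ∈ T := cT _ (by
        rw [← hk, mul_inv_eq_iff_eq_mul, conj_mul, conj_mul, fc.eq])
      obtain ⟨n, hn⟩ := syl.isP ⟨_, m⟩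
      have e2 : f ^ 2 ^ n = 1 := by
        have := congrArg Subtype.val hn
        rwa [SubmonoidClass.coe_pow, conj_pow, OneMemClass.coe_one, conj_eq_one_iff] at this
      exact absurd (Nat.prime_three.dvd_of_dvd_pow (f3 ▸ orderOf_dvd_of_pow_eq_one e2)) (by norm_num)
  rcases syl_or syl (le (mem_sup_left zA)) (idx.mono_left fun x hx =>
    mem_centralizer_singleton_iff.2 (cz x hx)) with hz | ⟨y, hy, yc, e⟩
  · obtain ⟨g, hg, hP⟩ := ext_conj hz τz (P := T ⊓ centralizer {τ}) (syl.isP.to_le inf_le_left) inf_le_right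
    have tB : ∀ n ∈ A, τ * n * τ⁻¹ ∈ B := fun n hn => (cj2 τ tT tn).1 ▸ cj_mem τ hn
    have u : ∀ n ∈ A, g * (n * (τ * n * τ⁻¹)) * g⁻¹ ∈ A ⊔ B := fun n hn => by
      have c : n * (τ * n * τ⁻¹) * τ = τ * (n * (τ * n * τ⁻¹)) := by
        rw [← cab n hn _ (tB n hn), inv_eq_of_mul_eq_one_right h2]
        have := cab n hn _ (tB n hn)
        rw [inv_eq_of_mul_eq_one_right h2] at this
        calc τ * n * τ * n * τ = τ * (n * (τ * n * τ)) := by group
          _ = _ := by rw [this]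
      refine inD _ (hP _ ⟨le (mul_mem_sup hn (tB n hn)), mem_centralizer_singleton_iff.2 c⟩) ?_
      rw [← hg, conj_mul, conj_mul, c]
    obtain ⟨n, hn, n', hn', e⟩ := d1.exists_comm
    have nA : n ∈ A := mem_sup_left hn
    have nA' : n' ∈ A := mem_sup_right hn'
    have k1 : ⁅n * (τ * n * τ⁻¹), n' * (τ * n' * τ⁻¹)⁆ = z * w := by
      rw [tr2a_comm (cab _ nA' _ (tB n nA)).symm (cab _ nA _ (tB n nA)).symm (cab _ nA _ (tB n' nA')).symm
        (cab _ nA' _ (tB n' nA')).symm, ← conjugate_commutatorElement, e, sz τ tT tn]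
    have k2 : g * (z * w) * g⁻¹ ∈ zpowers z ⊔ zpowers w := by
      rw [← k1, conjugate_commutatorElement]
      obtain ⟨a1, ha1, b1, hb1, e1⟩ := dec _ (u n nA)
      obtain ⟨a2, ha2, b2, hb2, e2⟩ := dec _ (u n' nA')
      rw [e1, e2, tr2a_comm (cab _ ha2 _ hb1).symm (cab _ ha1 _ hb1).symm (cab _ ha1 _ hb2).symm
        (cab _ ha2 _ hb2).symm]
      exact mul_mem_sup (d1.comm ▸ commutator_mem_commutator ha1 ha2)
        (d2.comm ▸ commutator_mem_commutator hb1 hb2)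
    obtain ⟨t, ht, e3⟩ := fus _ ζR _ k2 (isConj_iff.2 ⟨g, rfl⟩)
    have gT : g ∈ T := cT g (e3.symm.trans (zeta t ht))
    have e4 : τ = g⁻¹ * z * g⁻¹⁻¹ := by rw [← hg]; group
    refine tn (e4 ▸ ?_)
    by_cases hn : g⁻¹ ∈ A ⊔ B
    · exact mul_mem (mul_mem hn (mem_sup_left zA)) (inv_mem hn)
    · rw [sz _ (inv_mem gT) hn]; exact mem_sup_right wB
  · have yc' : ∀ t ∈ T, t * y = y * t := fun t ht => mem_centralizer_singleton_iff.1 (yc ht)
    obtain ⟨t, ht, e⟩ := fus _ zR _ (cen y hy yc') e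
    have : z = y := by
      rw [mul_inv_eq_iff_eq_mul, ← yc' t ht] at e
      exact mul_left_cancel e
    exact hsn (inD s hs (this ▸ yc' s hs))

end H16Q
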