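import Mathlib
import Cfsg.Agent.Base
import Cfsg.Agent.Lib.QZ.TW

/-!
Two components on each side, `|Y| = 2`.
-/

set_option autoImplicit false
set_option linter.unusedSectionVars false
set_option linter.unusedVariables false

namespace H16Q

open Subgroup H69 H70 Cfsg
open scoped commutatorElement Pointwise

variable {G : Type*} [Group G] [Finite G]

namespace TR2B

theorem exists_ext {D : Subgroup G} {u : G} (hn : ∀ d ∈ D, u * d * u⁻¹ ∈ D) (h2 : u * u ∈ D) :
    ∃ K : Subgroup G, ∀ x, x ∈ K ↔ x ∈ D ∨ x * u⁻¹ ∈ D := by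
  refine ⟨{ carrier := {x | x ∈ D ∨ x * u⁻¹ ∈ D}, one_mem' := Or.inl D.one_mem,
            mul_mem' := ?_, inv_mem' := ?_ }, fun x => Iff.rfl⟩
  · rintro a b (ha | ha) (hb | hb)
    · exact Or.inl (D.mul_mem ha hb)
    · right
      rw [mul_assoc]
      exact D.mul_mem ha hb
    · right
      have := D.mul_mem ha (hn b hb)
      convert this using 1
      group
    · left
      have := D.mul_mem (D.mul_mem ha (hn _ hb)) h2
      convert this using 1
      group
  · rintro a (ha | ha)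
    · exact Or.inl (D.inv_mem ha)
    · right
      have := D.mul_mem (D.inv_mem h2) (hn _ (D.inv_mem ha))
      convert this using 1
      group

theorem comm_mem {D : Subgroup G} {d d' u v : G} (hd : d ∈ D) (hd' : d' ∈ D)
    (hu : ∀ x ∈ D, u * x * u⁻¹ ∈ D) (hv : ∀ x ∈ D, v * x * v⁻¹ ∈ D) (huv : u * v = v * u) :
    ⁅d * u, d' * v⁆ ∈ D := by
  have := D.mul_mem (D.mul_mem (D.mul_mem hd (hu _ hd')) (hv _ (D.inv_mem hd))) (D.inv_mem hd')
  convert this using 1
  rw [commutatorElement_def]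
  calc d * u * (d' * v) * (d * u)⁻¹ * (d' * v)⁻¹
      = d * (u * d' * u⁻¹) * (u * v) * u⁻¹ * d⁻¹ * v⁻¹ * d'⁻¹ := by group
    _ = _ := by rw [huv]; group

theorem swap {N N' M M' : Subgroup G} {z w s : G} (h1 : D8 N N' z) (h2 : D8 M M' w)
    (e : N ^ᶜ s = M) (e' : N' ^ᶜ s = M') : s * z * s⁻¹ = w := by
  have hm : s * z * s⁻¹ ∈ zpowers w := by
    rw [← h2.inf, ← e, ← e']
    exact ⟨cj_mem s h1.z_mem.1, cj_mem s h1.z_mem.2⟩
  rcases mem_zpowers_of_sq (by rw [sq]; exact h2.f.sq h2.z_mem.1) hm with e1 | e1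
  · exact absurd (by simpa using e1) h1.z1
  · exact e1

end TR2B

open TR2B

variable [IsSimpleGroup G] {T N N' M M' Y : Subgroup G} {z w : G}

theorem Fin2.not_two (hG : ¬ IsMulCommutative G) (h : Fin2 T N N' M M' Y z w) (hY : Nat.card Y = 2) : False := by
  set D : Subgroup G := N ⊔ N' ⊔ (M ⊔ M') with hD
  obtain ⟨c, hcY, hc1⟩ : ∃ c ∈ Y, c ≠ 1 :=
    exists_ne_one_of_ne_bot (by rintro rfl; simp at hY)
  have hcc : c * c = 1 := by rw [← sq]; exact h.Yea.2 c hcY
  have hci : c⁻¹ = c := inv_eq_of_mul_eq_one_right hcc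
  have hDT : D ≤ T := le_sup_left.trans h.le
  have hcT : c ∈ T := h.le (mem_sup_right hcY)
  have hcD : c ∉ D := fun hc => hc1 (by
    have : c ∈ D ⊓ Y := ⟨hc, hcY⟩
    rwa [hD, h.inf, mem_bot] at this)
  have htc : ∀ t ∈ T, c * t = t * c := fun t ht =>
    mem_centralizer_iff.1 (normalizer_le_centralizer_of_card_le_two hY.le (h.tY ht)) c hcY
  have htc' : ∀ t ∈ T, t * c * t⁻¹ = c := fun t ht => by rw [← htc t ht, mul_inv_cancel_right]
  have hT0 : ∀ x ∈ D ⊔ Y, x ∈ D ∨ x * c ∈ D := by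
    obtain ⟨K, hK⟩ := exists_ext (D := D) (u := c)
      (fun d hd => by rwa [htc d (hDT hd), mul_inv_cancel_right]) (by rw [hcc]; exact D.one_mem)
    have : D ⊔ Y ≤ K := by
      refine sup_le (fun x hx => (hK x).2 (Or.inl hx)) fun y hy => (hK y).2 ?_
      by_cases hy1 : y = 1
      · left
        rw [hy1]
        exact D.one_mem
      · right
        rw [eq_of_card_two hY hy hcY hy1 hc1, mul_inv_cancel]
        exact D.one_mem
    intro x hx
    have := (hK x).1 (this hx)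
    rwa [hci] at this
  have hT0' : ∀ x, x * c ∈ D → x ∈ D ⊔ Y := fun x hx => by
    have := (D ⊔ Y).mul_mem (mem_sup_left hx) (mem_sup_right hcY)
    rwa [mul_assoc, hcc, mul_one] at this
  have hsw : ∀ s ∈ T, s ∉ D ⊔ Y → (N ⊔ N') ^ᶜ s = M ⊔ M' ∧ (M ⊔ M') ^ᶜ s = N ⊔ N' := by
    intro s hs hs0
    obtain ⟨e1, e2, e3, e4⟩ := h.sw s hs hs0
    rw [cj_sup, cj_sup, e1, e2, e3, e4]
    exact ⟨rfl, rfl⟩
  have hnD : ∀ t ∈ T, ∀ d ∈ D, t * d * t⁻¹ ∈ D := by
    intro t ht d hd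
    by_cases ht0 : t ∈ D ⊔ Y
    · rcases hT0 t ht0 with h1 | h1
      · exact D.mul_mem (D.mul_mem h1 hd) (D.inv_mem h1)
      · have := D.mul_mem (D.mul_mem h1 hd) (D.inv_mem h1)
        rwa [mul_assoc t, htc d (hDT hd), show t * (d * c) * (t * c)⁻¹ = t * d * t⁻¹ by group] at this
    · obtain ⟨e1, e2⟩ := hsw t ht ht0
      have := cj_mem t hd
      rwa [hD, cj_sup, e1, e2, sup_comm] at this
  -- the central involution `z w`
  have hz1 : z ∈ N ⊔ N' := mem_sup_left h.d1.z_mem.1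
  have hw2 : w ∈ M ⊔ M' := mem_sup_left h.d2.z_mem.1
  have hzD : z ∈ D := mem_sup_left hz1
  have hwD : w ∈ D := mem_sup_right hw2
  have hzz : z * z = 1 := h.d1.f.sq h.d1.z_mem.1
  have hww : w * w = 1 := h.d2.f.sq h.d2.z_mem.1
  have hzC : z ∈ 𝐂(D) := by
    rw [hD, centralizer_sup]
    exact ⟨h.d1.zc, h.cm hz1⟩
  have hwC : w ∈ 𝐂(D) := by
    rw [hD, centralizer_sup]
    exact ⟨le_centralizer_iff.1 h.cm hw2, h.d2.zc⟩
  have hzw : z * w = w * z := mem_centralizer_iff.1 hwC z hzD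
  have hζ : ∀ t ∈ T, t * (z * w) * t⁻¹ = z * w := by
    intro t ht
    have hζC : z * w ∈ 𝐂(D) := mul_mem hzC hwC
    by_cases ht0 : t ∈ D ⊔ Y
    · rcases hT0 t ht0 with h1 | h1
      · rw [mem_centralizer_iff.1 hζC t h1, mul_inv_cancel_right]
      · have e := mem_centralizer_iff.1 hζC _ h1
        rw [mul_assoc t, htc _ (hDT (D.mul_mem hzD hwD)), ← mul_assoc, ← mul_assoc (z * w)] at e
        rw [mul_right_cancel e, mul_inv_cancel_right]
    · obtain ⟨e1, e2, e3, e4⟩ := h.sw t ht ht0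
      have a := swap h.d1 h.d2 e1 e2
      have b := swap h.d2 h.d1 e3 e4
      calc t * (z * w) * t⁻¹ = (t * z * t⁻¹) * (t * w * t⁻¹) := by group
        _ = z * w := by rw [a, b, hzw]
  have hRD : zpowers z ⊔ zpowers w ≤ D := sup_le (zpowers_le.2 hzD) (zpowers_le.2 hwD)
  have hζR : z * w ∈ zpowers z ⊔ zpowers w :=
    mul_mem (mem_sup_left (mem_zpowers z)) (mem_sup_right (mem_zpowers w))
  -- central elements of the coset `⟨z, w⟩ c` are not fused into `D`
  have key : ∀ r ∈ zpowers z ⊔ zpowers w, (∀ t ∈ T, t * r * t⁻¹ = r) → r * c * (r * c) = 1 →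
      ∀ g : G, g * (r * c) * g⁻¹ ∉ D := by
    intro r hr hrT h2 g hg
    obtain ⟨r', hr', hc⟩ := h.inv _ hg 1 Y.one_mem (by
      calc _ = g * (r * c * (r * c)) * g⁻¹ := by group
        _ = 1 := by rw [h2]; group)
    rw [mul_one, mul_one] at hc
    obtain ⟨t, ht, e⟩ := h.fus (r * c) (mul_mem (mem_sup_left hr) (mem_sup_right hcY)) r'
      (mem_sup_left hr') ((isConj_iff.2 ⟨g, rfl⟩).trans hc)
    have e' : r * c = r' := by
      rw [← e]
      calc r * c = (t * r * t⁻¹) * (t * c * t⁻¹) := by rw [hrT t ht, htc' t ht]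
        _ = _ := by group
    exact hcD ((D.mul_mem_cancel_left (hRD hr)).1 (e' ▸ hRD hr'))
  have h1c : (1 : G) * c * (1 * c) = 1 := by rw [one_mul, hcc]
  have hζc : z * w * c * (z * w * c) = 1 := by
    calc z * w * c * (z * w * c) = z * w * (c * (z * w)) * c := by group
      _ = z * (w * z) * w * (c * c) := by rw [htc _ (hDT (D.mul_mem hzD hwD))]; group
      _ = (z * z) * (w * w) := by rw [← hzw, hcc]; group
      _ = 1 := by rw [hzz, hww, one_mul]
  have k1 := key 1 (one_mem _) (fun t _ => by group) h1c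
  have k2 := key (z * w) hζR hζ hζc
  obtain ⟨s, hs, hs0⟩ := exists_not_mem_of_not_le h.nle
  -- the cosets of `D` in `T`
  have hcos : ∀ x ∈ T, x ∉ D ⊔ Y → x * s⁻¹ ∈ D ∨ x * s⁻¹ * c ∈ D := fun x hx hx0 =>
    hT0 _ (h.idx.mul_inv hx hs hx0 hs0)
  by_cases hss : s * s ∈ D
  · obtain ⟨U, hU⟩ := exists_ext (hnD s hs) hss
    have hmem : ∀ x ∈ T, x ∈ U ∨ x * c ∈ U := by
      intro x hx
      by_cases hx0 : x ∈ D ⊔ Y
      · exact (hT0 x hx0).imp (fun a => (hU _).2 (Or.inl a)) fun a => (hU _).2 (Or.inl a)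
      · refine (hcos x hx hx0).imp (fun a => (hU _).2 (Or.inr a)) fun a => (hU _).2 (Or.inr ?_)
        rwa [mul_assoc, htc _ (T.inv_mem hs), ← mul_assoc]
    have hle : Le2 U T := by
      intro x hx y hy hxU hyU
      have := U.mul_mem ((hmem x hx).resolve_left hxU) ((hmem y hy).resolve_left hyU)
      rwa [mul_assoc x, ← mul_assoc c, htc y hy, mul_assoc y, hcc, mul_one] at this
    obtain ⟨g₁, hg₁T, hg₁⟩ := tt2 hG h.syl hle (T.mul_mem T.one_mem hcT) h1c
    obtain ⟨g₂, hg₂T, hg₂⟩ := tt2 hG h.syl hle (T.mul_mem (hDT (hRD hζR)) hcT) hζc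
    have a₁ := ((hU _).1 hg₁).resolve_left (k1 g₁)
    have a₂ := ((hU _).1 hg₂).resolve_left (k2 g₂)
    have hn : g₁ * (1 * c) * g₁⁻¹ ∉ D ⊔ Y := fun hm => hs0 (by
      have := (D ⊔ Y).mul_mem ((D ⊔ Y).inv_mem (mem_sup_left a₁)) hm
      convert this using 1
      group)
    obtain ⟨e1, e2⟩ := hsw _ hg₁T hn
    obtain ⟨a, -, ha⟩ := wr h.cm (h.d1.inf_eq_bot h.d2 h.cm h.zw) e1 e2
      (s' := g₂ * (z * w * c) * g₂⁻¹)
      (by calc _ = g₁ * (1 * c * (1 * c)) * g₁⁻¹ := by group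
            _ = 1 := by rw [h1c]; group)
      (by calc _ = g₂ * (z * w * c * (z * w * c)) * g₂⁻¹ := by group
            _ = 1 := by rw [hζc]; group)
      (by have := D.mul_mem a₂ (D.inv_mem a₁)
          convert this using 1
          group)
    obtain ⟨t, ht, e⟩ := h.fus c (mem_sup_right hcY) (z * w * c)
      (mul_mem (mem_sup_left hζR) (mem_sup_right hcY))
      (isConj_iff.2 ⟨g₂⁻¹ * a * g₁, by
        calc _ = g₂⁻¹ * (a * (g₁ * (1 * c) * g₁⁻¹) * a⁻¹) * g₂ := by group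
          _ = _ := by rw [ha]; group⟩)
    rw [htc' t ht] at e
    have e1 : z * w = 1 := by simpa using e.symm
    exact h.zw (mul_right_cancel (e1.trans hww.symm))
  · have hdec : ∀ x ∈ T, ∃ d ∈ D, ∃ u, (u = 1 ∨ u = c ∨ u = s ∨ u = c * s) ∧ x = d * u := by
      intro x hx
      by_cases hx0 : x ∈ D ⊔ Y
      · rcases hT0 x hx0 with a | a
        · exact ⟨x, a, 1, Or.inl rfl, by group⟩
        · exact ⟨_, a, c, Or.inr (Or.inl rfl), by rw [mul_assoc, hcc, mul_one]⟩
      · rcases hcos x hx hx0 with a | a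
        · exact ⟨_, a, s, Or.inr (Or.inr (Or.inl rfl)), by group⟩
        · refine ⟨_, a, c * s, Or.inr (Or.inr (Or.inr rfl)), ?_⟩
          calc x = x * s⁻¹ * (c * c) * s := by rw [hcc]; group
            _ = _ := by group
    have huT : ∀ u, (u = 1 ∨ u = c ∨ u = s ∨ u = c * s) → u ∈ T ∧ u * s = s * u := by
      rintro u (rfl | rfl | rfl | rfl)
      · exact ⟨T.one_mem, by group⟩
      · exact ⟨hcT, htc s hs⟩
      · exact ⟨hs, rfl⟩
      · exact ⟨T.mul_mem hcT hs, by rw [← mul_assoc s, ← htc s hs]⟩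
    obtain ⟨g, -, hg⟩ := tt hG h.syl (U := D) (e := c) (y := 1 * c) (by
      intro a ha b hb
      obtain ⟨d, hd, u, hu, rfl⟩ := hdec a ha
      obtain ⟨d', hd', v, hv, rfl⟩ := hdec b hb
      refine comm_mem hd hd' (hnD u (huT u hu).1) (hnD v (huT v hv).1) ?_
      rcases hv with rfl | rfl | rfl | rfl
      · group
      · exact (htc u (huT u hu).1).symm
      · exact (huT u hu).2
      · rw [← mul_assoc, ← htc u (huT u hu).1, mul_assoc, (huT u hu).2, mul_assoc]) hcT (by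
      intro x hx h2
      by_cases hx0 : x ∈ D ⊔ Y
      · exact hT0 x hx0
      · exfalso
        apply hss
        rcases hcos x hx hx0 with a | a
        · have := D.inv_mem (D.mul_mem a (hnD s hs _ a))
          convert this using 1
          calc s * s = s * s * (x * x)⁻¹ := by rw [h2]; group
            _ = _ := by simp only [mul_inv_rev, inv_inv, mul_assoc, inv_mul_cancel_left]
        · have := D.inv_mem (D.mul_mem a (hnD s hs _ a))
          convert this using 1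
          have e1 : x * s⁻¹ * c * (s * (x * s⁻¹ * c) * s⁻¹) = x * x * (c * c) * s⁻¹ * s⁻¹ := by
            calc _ = x * s⁻¹ * (c * (s * x * s⁻¹)) * (c * s⁻¹) := by group
              _ = x * x * (s⁻¹ * c) * (c * s⁻¹) := by
                rw [htc _ (T.mul_mem (T.mul_mem hs hx) (T.inv_mem hs))]; group
              _ = x * x * (c * s⁻¹) * (c * s⁻¹) := by rw [htc _ (T.inv_mem hs)]
              _ = x * x * c * (s⁻¹ * c) * s⁻¹ := by group
              _ = _ := by rw [← htc _ (T.inv_mem hs)]; group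
          rw [e1, h2, hcc]
          simp) (T.mul_mem T.one_mem hcT) h1c
    exact k1 g hg

end H16Q
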