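import Mathlib
import Cfsg.Agent.Base
import Cfsg.Agent.Lib.QZ.TW

/-!
Two components on each side, `|Y| = 4`.
-/

set_option autoImplicit false
set_option linter.unusedSectionVars false
set_option linter.unusedVariables false

namespace H16Q

open Subgroup H69 H70 Cfsg
open scoped commutatorElement Pointwise

variable {G : Type*} [Group G] [Finite G]

theorem tr2c_U {V T₀ T : Subgroup G} {s : G} (hT : Le2 T₀ T) (hV : Le2 V T₀) (hs : s ∈ T) (h0 : s ∉ T₀)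
    (n : s ∈ 𝐍(V)) (n0 : s ∈ 𝐍(T₀)) (hss : s * s ∈ V) :
    ∃ U : Subgroup G, Le2 U T ∧ ∀ x ∈ U, x ∈ V ∨ x * s ∈ V := by
  have c : ∀ {x}, x ∈ V → s⁻¹ * x * s ∈ V := fun h => conj_mem_of_mem_normalizer' n h
  have c' : ∀ {x}, s⁻¹ * x * s ∈ V → x ∈ V := fun {x} h => by
    simpa [mul_assoc] using conj_mem_of_mem_normalizer n h
  have c0 : ∀ {x}, x ∈ T₀ → s⁻¹ * x * s ∈ T₀ := fun h => conj_mem_of_mem_normalizer' n0 h
  have e1 : ∀ x y : G, x * y * s = x * s * (s⁻¹ * y * s) := fun x y => by group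
  have e2 : ∀ x y : G, x * y = x * s * (s⁻¹ * (y * s) * s) * (s * s)⁻¹ := fun x y => by group
  refine ⟨{ carrier := {x | x ∈ V ∨ x * s ∈ V}
            mul_mem' := fun {x y} hx hy => ?_
            one_mem' := .inl (one_mem V)
            inv_mem' := fun {x} hx => ?_ }, fun x hx y hy h1 h2 => ?_, fun _ h => h⟩
  · rcases hx with hx | hx <;> rcases hy with hy | hy
    · exact .inl (mul_mem hx hy)
    · exact .inr (by rw [mul_assoc]; exact mul_mem hx hy)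
    · exact .inr (by rw [e1]; exact mul_mem hx (c hy))
    · exact .inl (by rw [e2]; exact mul_mem (mul_mem hx (c hy)) (inv_mem hss))
  · rcases hx with hx | hx
    · exact .inl (inv_mem hx)
    · refine .inr ?_
      rw [show x⁻¹ * s = s * (x * s)⁻¹ * s⁻¹ * (s * s) by group]
      exact mul_mem (conj_mem_of_mem_normalizer n (inv_mem hx)) hss
  · obtain ⟨a1, a2⟩ := not_or.1 (show ¬ (x ∈ V ∨ x * s ∈ V) from h1)
    obtain ⟨b1, b2⟩ := not_or.1 (show ¬ (y ∈ V ∨ y * s ∈ V) from h2)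
    by_cases p : x ∈ T₀ <;> by_cases q : y ∈ T₀
    · exact .inl (hV _ p _ q a1 b1)
    · exact .inr (by rw [mul_assoc]; exact hV _ p _ (hT _ hy _ hs q h0) a1 b2)
    · exact .inr (by rw [e1]; exact hV _ (hT _ hx _ hs p h0) _ (c0 q) a2 fun k => b1 (c' k))
    · exact .inl (by
        rw [e2]
        exact mul_mem (hV _ (hT _ hx _ hs p h0) _ (c0 (hT _ hy _ hs q h0)) a2 fun k => b2 (c' k))
          (inv_mem hss))

theorem tr2c_uq {D Y : Subgroup G} (h : D ⊓ Y = ⊥) {d d' y y' : G} (hd : d ∈ D) (hd' : d' ∈ D) (hy : y ∈ Y)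
    (hy' : y' ∈ Y) (e : d * y = d' * y') : d = d' ∧ y = y' := by
  have k : d'⁻¹ * d = y' * y⁻¹ := by rw [inv_mul_eq_iff_eq_mul, ← mul_assoc, ← e, mul_inv_cancel_right]
  have : d'⁻¹ * d ∈ D ⊓ Y := mem_inf.2 ⟨mul_mem (inv_mem hd') hd, k ▸ mul_mem hy' (inv_mem hy)⟩
  rw [h, mem_bot] at this
  exact ⟨(inv_mul_eq_one.1 this).symm, (mul_inv_eq_one.1 (k ▸ this)).symm⟩

theorem tr2c_mem {D : Subgroup G} {c x : G} (hc : c ∈ 𝐂(D)) (h2 : c * c = 1) (hx : x ∈ D ⊔ zpowers c) :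
    ∃ d ∈ D, ∃ e, (e = 1 ∨ e = c) ∧ x = d * e := by
  obtain ⟨d, hd, e, he, rfl⟩ := (mem_sup_of_le_normalizer_left
    (le_normalizer_of_le_centralizer (zpowers_le.2 hc))).1 hx
  exact ⟨d, hd, e, mem_zpowers_of_sq (by rw [sq, h2]) he, rfl⟩

variable [IsSimpleGroup G] {T N N' M M' Y : Subgroup G} {z w : G}

theorem Fin2.not_four (hG : ¬ IsMulCommutative G) (h : Fin2 T N N' M M' Y z w) (hY : Nat.card Y = 4)
    (hc : ¬ T ≤ 𝐂(Y)) : False := by
  have f : Four Y := ⟨hY, h.Yea⟩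
  have hsw := h.sw
  have hidx := h.idx
  have hle := h.le
  have hinv := h.inv
  have hYc := h.Yc
  have hinf := h.inf
  have D1 : N ⊔ N' ≤ N ⊔ N' ⊔ (M ⊔ M') := le_sup_left
  have D2 : M ⊔ M' ≤ N ⊔ N' ⊔ (M ⊔ M') := le_sup_right
  have nD' : ∀ s ∈ T, s ∉ N ⊔ N' ⊔ (M ⊔ M') ⊔ Y → s ∈ 𝐍(N ⊔ N' ⊔ (M ⊔ M')) := fun s hs h0 => by
    obtain ⟨a, b, c, d⟩ := hsw s hs h0
    rw [← cj_eq_self_iff, cj_sup, cj_sup, cj_sup, a, b, c, d, sup_comm]
  have zD : zpowers z ⊔ zpowers w ≤ N ⊔ N' ⊔ (M ⊔ M') :=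
    sup_le (zpowers_le.2 (D1 (mem_sup_left h.d1.z_mem.1))) (zpowers_le.2 (D2 (mem_sup_left h.d2.z_mem.1)))
  have eD : ∀ A B : Subgroup G, N ⊔ N' ⊔ (M ⊔ M') ≤ N ⊔ N' ⊔ A ⊔ (M ⊔ M' ⊔ B) := fun _ _ =>
    sup_le_sup le_sup_left le_sup_left
  generalize N ⊔ N' ⊔ (M ⊔ M') = D at hsw hidx hle hinv hYc hinf D1 D2 nD' zD eD ⊢
  have c0 : D ⊔ Y ≤ 𝐂(Y) := sup_le (le_centralizer_iff.1 hYc) f.le_cent
  have nD : T ≤ 𝐍(D) := fun t ht => by
    by_cases k : t ∈ D ⊔ Y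
    · exact sup_le le_normalizer (le_normalizer_of_le_centralizer hYc) k
    · exact nD' t ht k
  obtain ⟨s, hs, sc⟩ := exists_not_mem_of_not_le hc
  have s0 : s ∉ D ⊔ Y := fun k => sc (c0 k)
  obtain ⟨c, tv⟩ := ((f.tri (h.tY hs)).resolve_left sc).resolve_left fun k => k.not_two f h.syl.isP hs
  have fc : ∀ t ∈ T, t * c * t⁻¹ = c := fun t ht => by
    by_cases k : t ∈ D ⊔ Y
    · exact conj_eq_of_mem_centralizer (c0 k) tv.mem
    · have := conj_eq_of_mem_centralizer (c0 (hidx _ ht _ hs k s0)) tv.mem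
      rwa [show t * s * c * (t * s)⁻¹ = t * (s * c * s⁻¹) * t⁻¹ by group, tv.fix] at this
  have tv' : ∀ u ∈ T, u ∉ D ⊔ Y → Trv Y u c := fun u hu k =>
    ⟨h.tY hu, fun e => sc ((mul_mem_cancel_left e).1 (c0 (hidx _ hu _ hs k s0))), tv.mem, tv.ne, fc u hu⟩
  obtain ⟨b, hb, b1, bc⟩ := f.exists_ne c
  have cc := f.sq tv.mem
  have bb := f.sq hb
  have hb' : b * c ∈ Y := mul_mem hb tv.mem
  have b1' : b * c ≠ 1 := fun e => bc (by rw [mul_eq_one_iff_eq_inv.1 e, f.inv tv.mem])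
  have bb' : b ≠ b * c := fun e => tv.ne (mul_left_cancel (e.symm.trans (mul_one b).symm))
  have dec : ∀ {x}, x ∈ D ⊔ Y → ∃ d ∈ D, ∃ y ∈ Y, x = d * y :=
    fun hx => (mem_sup_of_le_normalizer_left (le_normalizer_of_le_centralizer hYc)).1 hx
  have cV : c ∈ D ⊔ zpowers c := mem_sup_right (mem_zpowers c)
  have VT : D ⊔ zpowers c ≤ D ⊔ Y := sup_le_sup_left (zpowers_le.2 tv.mem) _
  have out : ∀ {x}, x ∈ D ⊔ Y → x ∉ D ⊔ zpowers c → ∃ v ∈ D ⊔ zpowers c, x = v * b := fun hx k => by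
    obtain ⟨d, hd, y, hy, rfl⟩ := dec hx
    rcases f.cases tv.mem hb tv.ne b1 bc.symm hy with rfl | rfl | rfl | rfl
    · exact (k (mul_mem (mem_sup_left hd) (one_mem _))).elim
    · exact (k (mul_mem (mem_sup_left hd) cV)).elim
    · exact ⟨d, mem_sup_left hd, rfl⟩
    · exact ⟨d * c, mul_mem (mem_sup_left hd) cV, (mul_assoc ..).symm⟩
  obtain ⟨U, hU, mU⟩ := tr2c_U (V := D ⊔ zpowers c) hidx (fun x hx y hy h1 h2 => by
      obtain ⟨v, hv, rfl⟩ := out hx h1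
      obtain ⟨v', hv', rfl⟩ := out hy h2
      rw [show v * b * (v' * b) = v * (b * v') * b by group, mem_centralizer_iff_commute.1 (c0 (VT hv')) b hb,
        show v * (v' * b) * b = v * v' * (b * b) by group, bb, mul_one]
      exact mul_mem hv hv') hs s0
    (by rw [← cj_eq_self_iff, cj_sup, cj_eq_of_mem_normalizer (nD hs), cj_zpowers, tv.fix])
    (H69.le_normalizer_sup nD h.tY hs) (by
      obtain ⟨d, hd, y, hy, e⟩ := dec (hidx _ hs _ hs s0 s0)
      have := (tr2c_uq hinf (conj_mem_of_mem_normalizer (nD hs) hd) hd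
        (conj_mem_of_mem_normalizer (h.tY hs) hy) hy (by rw [conj_mul, ← e]; group)).2
      rw [e]
      rcases tv.uniq f hy this with rfl | rfl
      · exact mul_mem (mem_sup_left hd) (one_mem _)
      · exact mul_mem (mem_sup_left hd) cV)
  have key : ∀ r ∈ zpowers z ⊔ zpowers w, r * b * (r * b) = 1 →
      ∃ u ∈ T, u ∉ D ⊔ Y ∧ u * u = 1 ∧ IsConj (r * b) u := fun r hr h2 => by
    obtain ⟨g, g1, g2⟩ := tt2 hG h.syl hU (hle (mul_mem (mem_sup_left (zD hr)) (mem_sup_right hb))) h2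
    have q : g * (r * b) * g⁻¹ * (g * (r * b) * g⁻¹) = 1 := by rw [conj_mul, h2, mul_one, mul_inv_cancel]
    have j : IsConj (r * b) (g * (r * b) * g⁻¹) := isConj_iff.2 ⟨g, rfl⟩
    refine ⟨_, g1, fun k => ?_, q, j⟩
    obtain ⟨d, hd, e, he, k'⟩ := tr2c_mem (hYc tv.mem) cc
      ((mU _ g2).resolve_right fun p => s0 ((mul_mem_cancel_left k).1 (VT p)))
    have eY : e ∈ Y := by rcases he with rfl | rfl; exacts [one_mem _, tv.mem]
    rw [k'] at q j
    obtain ⟨r', hr', j'⟩ := hinv d hd e eY q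
    obtain ⟨t, ht, p⟩ := h.fus _ (mul_mem (mem_sup_left hr) (mem_sup_right hb)) _
      (mul_mem (mem_sup_left hr') (mem_sup_right eY)) (j.trans j')
    have := (tr2c_uq hinf (conj_mem_of_mem_normalizer (nD ht) (zD hr)) (zD hr')
      (conj_mem_of_mem_normalizer (h.tY ht) hb) eY (by rw [conj_mul, p])).2
    rcases he with rfl | rfl
    · exact b1 (by simpa using this)
    · rw [← fc t ht] at this
      exact bc (by simpa using this)
  have zz : z ∈ zpowers z ⊔ zpowers w := mem_sup_left (mem_zpowers z)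
  obtain ⟨u, hu, u0, uu, ju⟩ := key 1 (one_mem _) (by rw [one_mul, bb])
  obtain ⟨v, hv, v0, vv, jv⟩ := key z zz (by
    rw [show z * b * (z * b) = z * (b * z) * b by group, ← mem_centralizer_iff_commute.1 (hYc hb) z (zD zz),
      show z * (z * b) * b = z * z * (b * b) by group, bb, h.d1.f.sq h.d1.z_mem.1, one_mul])
  obtain ⟨a1, a2, a3, a4⟩ := hsw u hu u0
  have k1 := (tv' u hu u0).conj f hb b1 bc
  obtain ⟨a, -, e⟩ := wr (A := N ⊔ N' ⊔ zpowers b) (A' := M ⊔ M' ⊔ zpowers (b * c)) (s := u) (s' := v)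
    (by
      rw [centralizer_sup]
      exact sup_le (le_inf h.cm (le_centralizer_iff.1 (zpowers_le.2 (centralizer_anti D1 (hYc hb')))))
        (zpowers_le.2 ⟨centralizer_anti D2 (hYc hb), centralizer_anti (zpowers_le.2 hb') (f.le_cent hb)⟩))
    (by
      refine eq_bot_iff.2 fun x hx => ?_
      obtain ⟨d, hd, e, he, k⟩ := tr2c_mem (centralizer_anti D1 (hYc hb)) bb hx.1
      obtain ⟨d', hd', e', he', k'⟩ := tr2c_mem (centralizer_anti D2 (hYc hb')) (f.sq hb') hx.2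
      obtain ⟨p, p'⟩ := tr2c_uq hinf (D1 hd) (D2 hd') (by rcases he with rfl | rfl; exacts [one_mem _, hb])
        (by rcases he' with rfl | rfl; exacts [one_mem _, hb']) (k.symm.trans k')
      have e1 : e = 1 := he.resolve_right fun q => he'.elim (fun q' => b1 (q.symm.trans (p'.trans q')))
        fun q' => bb' (q.symm.trans (p'.trans q'))
      rw [k, e1, mul_one, ← h.d1.inf_eq_bot h.d2 h.cm h.zw]
      exact ⟨hd, p ▸ hd'⟩)
    (by rw [cj_sup, cj_sup, a1, a2, cj_zpowers, k1])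
    (by rw [cj_sup, cj_sup, a3, a4, cj_zpowers, ← conj_mul, k1, fc u hu, mul_assoc, cc, mul_one]) uu vv
    ((show D ⊔ Y ≤ _ from sup_le (eD _ _)
      (f.le_of_two hb hb' b1 b1' bb' (mem_sup_left (mem_sup_right (mem_zpowers _)))
        (mem_sup_right (mem_sup_right (mem_zpowers _))))) (hidx.mul_inv hv hu v0 u0))
  obtain ⟨t, ht, p⟩ := h.fus _ (mul_mem (one_mem _) (mem_sup_right hb)) _
    (mul_mem (mem_sup_left zz) (mem_sup_right hb)) ((ju.trans (isConj_iff.2 ⟨a, e⟩)).trans jv.symm)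
  exact h.d1.z1 (tr2c_uq hinf (one_mem D) (zD zz) (conj_mem_of_mem_normalizer (h.tY ht) hb) hb
    (by rw [← p, one_mul, one_mul])).1.symm

end H16Q
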